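import Mathlib

/-!
# Unique lifts of `p`-elements through a central extension with kernel prime to `p`
-/

set_option autoImplicit false
set_option linter.unusedSectionVars false

namespace Cfsg.Agent.Lib.Twisted.Mult

/-- `p`-elements. -/
def PE (p : ℕ) {M : Type*} [Monoid M] (g : M) : Prop := ∃ k, g ^ (p ^ k) = 1

theorem PE.one (p : ℕ) {M : Type*} [Monoid M] : PE p (1 : M) := ⟨0, by simp⟩

theorem PE.conj {p : ℕ} {M : Type*} [Group M] {g : M} (h : PE p g) (a : M) : PE p (a * g * a⁻¹) := by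
  obtain ⟨k, hk⟩ := h
  exact ⟨k, by rw [conj_pow, hk]; group⟩

theorem PE.inv {p : ℕ} {M : Type*} [Group M] {g : M} (h : PE p g) : PE p g⁻¹ := by
  obtain ⟨k, hk⟩ := h
  exact ⟨k, by rw [inv_pow, hk, inv_one]⟩

theorem PE.map {p : ℕ} {M M' : Type*} [Group M] [Group M'] (f : M →* M') {g : M} (h : PE p g) : PE p (f g) := by
  obtain ⟨k, hk⟩ := h
  exact ⟨k, by rw [← map_pow, hk, map_one]⟩

/-- A central extension with kernel killed by a number prime to `p`. -/
structure PL {Γ G : Type*} [Group Γ] [Group G] (σ : Γ →* G) (p m : ℕ) : Prop where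
  surj : Function.Surjective σ
  cent : σ.ker ≤ Subgroup.center Γ
  cop : Nat.Coprime m p
  pow : ∀ a ∈ σ.ker, a ^ m = 1

section
variable {Γ G : Type*} [Group Γ] [Group G] {σ : Γ →* G} {p m : ℕ} (L : PL σ p m)
include L

theorem PL.exists_lift {g : G} (hg : PE p g) : ∃ a, σ a = g ∧ PE p a := by
  obtain ⟨k, hk⟩ := hg
  obtain ⟨a₀, rfl⟩ := L.surj g
  set z := a₀ ^ (p ^ k) with hz
  have hz1 : z ∈ σ.ker := by
    rw [MonoidHom.mem_ker, hz, map_pow, hk]
  have hzm : z ^ m = 1 := L.pow z hz1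
  have hc : Nat.Coprime (p ^ k) m := (Nat.Coprime.pow_left k L.cop.symm)
  have hb := Nat.gcd_eq_gcd_ab (p ^ k) m
  rw [hc.gcd_eq_one] at hb
  set A := Nat.gcdA (p ^ k) m
  set B := Nat.gcdB (p ^ k) m
  have hcom : Commute a₀ (z ^ (-A)) := by
    have h1 : z ^ (-A) ∈ Subgroup.center Γ := zpow_mem (L.cent hz1) _
    exact Subgroup.mem_center_iff.mp h1 a₀
  refine ⟨a₀ * z ^ (-A), ?_, k, ?_⟩
  · rw [map_mul, map_zpow, MonoidHom.mem_ker.mp hz1, one_zpow, mul_one]
  · rw [hcom.mul_pow, ← hz, ← zpow_natCast (z ^ (-A)), ← zpow_mul]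
    have e : (z : Γ) * z ^ (-A * ((p ^ k : ℕ) : ℤ)) = z ^ ((m : ℤ) * B) := by
      rw [← zpow_one_add]
      congr 1
      push_cast at hb ⊢
      linarith
    rw [e, zpow_mul, zpow_natCast, hzm, one_zpow]

theorem PL.lift_unique {a b : Γ} (ha : PE p a) (hb : PE p b) (h : σ a = σ b) : a = b := by
  obtain ⟨k, hk⟩ := ha
  obtain ⟨l, hl⟩ := hb
  have hz : a⁻¹ * b ∈ σ.ker := by
    rw [MonoidHom.mem_ker, map_mul, map_inv, h, inv_mul_cancel]
  have hc : a⁻¹ * b ∈ Subgroup.center Γ := L.cent hz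
  have hcom : Commute a (a⁻¹ * b) := Subgroup.mem_center_iff.mp hc a
  have e1 : (a⁻¹ * b) ^ (p ^ (k + l)) = 1 := by
    have h2 : a ^ (p ^ (k + l)) = 1 := by
      rw [pow_add, pow_mul, hk, one_pow]
    have h3 : b ^ (p ^ (k + l)) = 1 := by
      rw [pow_add, mul_comm, pow_mul, hl, one_pow]
    have h4 : b = a * (a⁻¹ * b) := by group
    rw [h4, hcom.mul_pow, h2, one_mul] at h3
    exact h3
  have e2 := L.pow _ hz
  have e3 := (pow_gcd_eq_one).2 ⟨e2, e1⟩
  have hcop : Nat.gcd m (p ^ (k + l)) = 1 := Nat.Coprime.pow_right _ L.cop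
  rw [hcop, pow_one] at e3
  exact (inv_mul_eq_one.mp e3)

end

open Classical in
/-- The lift of a `p`-element which is a `p`-element. -/
noncomputable def lam {Γ G : Type*} [Group Γ] [Group G] {σ : Γ →* G} {p m : ℕ} (L : PL σ p m) (g : G) : Γ :=
  if h : PE p g then Classical.choose (L.exists_lift h) else 1

section
variable {Γ G : Type*} [Group Γ] [Group G] {σ : Γ →* G} {p m : ℕ} (L : PL σ p m)

theorem lam_spec {g : G} (h : PE p g) : σ (lam L g) = g ∧ PE p (lam L g) := by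
  rw [lam, dif_pos h]
  exact Classical.choose_spec (L.exists_lift h)

theorem σ_lam {g : G} (h : PE p g) : σ (lam L g) = g := (lam_spec L h).1

theorem PE_lam {g : G} (h : PE p g) : PE p (lam L g) := (lam_spec L h).2

theorem lam_eq {g : G} (h : PE p g) {a : Γ} (ha : σ a = g) (hp : PE p a) : lam L g = a :=
  L.lift_unique (PE_lam L h) hp (by rw [σ_lam L h, ha])

theorem lam_one : lam L (1 : G) = 1 := lam_eq L (PE.one p) (map_one σ) (PE.one p)

theorem lam_σ {a : Γ} (ha : PE p a) : lam L (σ a) = a := lam_eq L (ha.map σ) rfl ha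

theorem lam_conj {g : G} (h : PE p g) (γ : Γ) : γ * lam L g * γ⁻¹ = lam L (σ γ * g * (σ γ)⁻¹) := by
  symm
  apply lam_eq L (h.conj _)
  · rw [map_mul, map_mul, map_inv, σ_lam L h]
  · exact (PE_lam L h).conj γ

theorem lam_inv {g : G} (h : PE p g) : lam L g⁻¹ = (lam L g)⁻¹ :=
  lam_eq L h.inv (by rw [map_inv, σ_lam L h]) (PE_lam L h).inv

variable [Finite Γ] (hp : p.Prime)
include hp

omit L in
/-- A subgroup mapped isomorphically onto the image. -/
theorem exists_compl {Q R : Type*} [Group Q] [Finite Q] [Group R] (f : Q →* R) (hR : ∀ x, PE p (f x))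
    (hk : ∀ a ∈ f.ker, a ^ m = 1) (hm : Nat.Coprime m p) :
    ∃ H : Subgroup Q, (∀ x ∈ H, f x = 1 → x = 1) ∧ ∀ x, ∃ y ∈ H, f y = f x := by
  classical
  have := Fact.mk hp
  have hcard : Nat.Coprime (Nat.card f.ker) f.ker.index := by
    have h1 : IsPGroup p f.range := by
      rintro ⟨g, hg⟩
      obtain ⟨x, rfl⟩ := hg
      obtain ⟨k, hk⟩ := hR x
      refine ⟨k, Subtype.ext ?_⟩
      rw [Subgroup.coe_pow]
      exact hk
    have : Finite f.range := Finite.of_surjective f.rangeRestrict f.rangeRestrict_surjective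
    obtain ⟨n, hn⟩ := IsPGroup.iff_card.1 h1
    rw [Subgroup.index_ker, hn]
    apply Nat.Coprime.pow_right
    rw [Nat.coprime_comm, Nat.Prime.coprime_iff_not_dvd hp]
    intro hd
    obtain ⟨x, hx⟩ := exists_prime_orderOf_dvd_card' p hd
    have h3 : x ^ m = 1 := by
      apply Subtype.ext
      rw [Subgroup.coe_pow]
      exact hk _ x.2
    have h4 := orderOf_dvd_of_pow_eq_one h3
    rw [hx] at h4
    have := Nat.Coprime.eq_one_of_dvd hm.symm h4
    exact hp.one_lt.ne' this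
  obtain ⟨H, hH⟩ := Subgroup.exists_right_complement'_of_coprime hcard
  refine ⟨H, ?_, ?_⟩
  · intro x hx h1
    have h2 : x ∈ f.ker ⊓ H := ⟨h1, hx⟩
    rw [hH.disjoint.eq_bot, Subgroup.mem_bot] at h2
    exact h2
  · intro x
    obtain ⟨⟨n, h⟩, e, -⟩ := Subgroup.IsComplement.existsUnique hH x
    refine ⟨h, h.2, ?_⟩
    have e' : (n : Q) * (h : Q) = x := e
    rw [← e', map_mul, MonoidHom.mem_ker.mp n.2, one_mul]

/-- `lam` is multiplicative on a `p`-subgroup. -/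
theorem lam_mul (P : Subgroup G) (hP : ∀ g ∈ P, PE p g) {a b : G} (ha : a ∈ P) (hb : b ∈ P) :
    lam L (a * b) = lam L a * lam L b := by
  classical
  set Q := P.comap σ with hQ
  let f : ↥Q →* G := σ.comp Q.subtype
  have hf : ∀ x, f x ∈ P := fun x => x.2
  obtain ⟨H, h1, h2⟩ := exists_compl hp f (fun x => hP _ (hf x))
    (fun a ha => Subtype.ext (by rw [Subgroup.coe_pow]; exact L.pow _ ha)) L.cop
  have hPE : ∀ x ∈ H, PE p ((x : ↥Q) : Γ) := by
    intro x hx
    obtain ⟨k, hk⟩ := hP _ (hf x)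
    refine ⟨k, ?_⟩
    have h3 := h1 (x ^ (p ^ k)) (Subgroup.pow_mem _ hx _) (by rw [map_pow, hk])
    have h4 := congrArg Subtype.val h3
    rw [Subgroup.coe_pow] at h4
    exact h4
  have hlam : ∀ g ∈ P, ∃ x ∈ H, ((x : ↥Q) : Γ) = lam L g := by
    intro g hg
    obtain ⟨a₀, ha₀⟩ := L.surj g
    have hm : a₀ ∈ Q := by
      rw [hQ, Subgroup.mem_comap, ha₀]
      exact hg
    obtain ⟨x, hx, e⟩ := h2 ⟨a₀, hm⟩
    have e' : σ (x : Γ) = g := by
      have : f x = σ a₀ := e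
      rw [← ha₀]
      exact this
    exact ⟨x, hx, (lam_eq L (hP g hg) e' (hPE x hx)).symm⟩
  obtain ⟨x, hx, e1⟩ := hlam a ha
  obtain ⟨y, hy, e2⟩ := hlam b hb
  have hab : σ ((x : Γ) * (y : Γ)) = a * b := by
    rw [map_mul, e1, e2, σ_lam L (hP a ha), σ_lam L (hP b hb)]
  have hpe : PE p ((x : Γ) * (y : Γ)) := hPE _ (H.mul_mem hx hy)
  rw [lam_eq L (hP _ (P.mul_mem ha hb)) hab hpe, e1, e2]

end

end Cfsg.Agent.Lib.Twisted.Mult
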