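import Mathlib

/-!
# Complements in central extensions of a group with a chain of root groups, and the transfer
-/

set_option autoImplicit false
set_option linter.unusedSectionVars false

namespace Cfsg.Agent.Lib.Twisted.Mult

open scoped commutatorElement

section Chain

variable {Γ G : Type*} [Group Γ] [Group G] (σ : Γ →* G)

/-- The subgroup generated by the groups of the chain from a point on. -/
def Qq (Y : ℕ → Subgroup Γ) (m j : ℕ) : Subgroup Γ := Subgroup.closure {a | ∃ k, j ≤ k ∧ k < m ∧ a ∈ Y k}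

variable {Y : ℕ → Subgroup Γ} {m : ℕ}

theorem mem_Qq {j k : ℕ} (h1 : j ≤ k) (h2 : k < m) {a : Γ} (ha : a ∈ Y k) : a ∈ Qq Y m j :=
  Subgroup.subset_closure ⟨k, h1, h2, ha⟩

theorem Qq_anti {j j' : ℕ} (h : j ≤ j') : Qq Y m j' ≤ Qq Y m j := by
  apply Subgroup.closure_mono
  rintro a ⟨k, h1, h2, ha⟩
  exact ⟨k, by omega, h2, ha⟩

/-- The relation of the commutators. -/
def GoodC (Y : ℕ → Subgroup Γ) (m j k : ℕ) : Prop := ∀ x ∈ Y j, ∀ y ∈ Y k, ⁅x, y⁆ ∈ Qq Y m (k + 1)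

theorem conj_of_good {j k : ℕ} (h : GoodC Y m j k) {x y : Γ} (hx : x ∈ Y j) (hy : y ∈ Y k) :
    x * y * x⁻¹ = ⁅x, y⁆ * y := by
  rw [commutatorElement_def]
  group

/-- Normalising the tail of the chain. -/
theorem norm_of_good {j l : ℕ} (h : ∀ k, l ≤ k → k < m → GoodC Y m j k) {x : Γ} (hx : x ∈ Y j) {g : Γ}
    (hg : g ∈ Qq Y m l) : x * g * x⁻¹ ∈ Qq Y m l := by
  induction hg using Subgroup.closure_induction with
  | mem a ha =>
    obtain ⟨k, h1, h2, ha⟩ := ha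
    rw [conj_of_good (h k h1 h2) hx ha]
    exact Subgroup.mul_mem _ (Qq_anti (by omega) (h k h1 h2 x hx a ha)) (mem_Qq h1 h2 ha)
  | one => simp [Subgroup.one_mem]
  | mul a b _ _ ha hb =>
    have e : x * (a * b) * x⁻¹ = (x * a * x⁻¹) * (x * b * x⁻¹) := by group
    rw [e]
    exact Subgroup.mul_mem _ ha hb
  | inv a _ ha =>
    have e : x * a⁻¹ * x⁻¹ = (x * a * x⁻¹)⁻¹ := by group
    rw [e]
    exact Subgroup.inv_mem _ ha

/-- Elements of the chain factor. -/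
theorem Qq_decomp {j : ℕ} (hj : j < m) (h : ∀ k, j + 1 ≤ k → k < m → GoodC Y m j k) {g : Γ} (hg : g ∈ Qq Y m j) :
    ∃ x ∈ Y j, ∃ g' ∈ Qq Y m (j + 1), g = x * g' := by
  refine Subgroup.closure_induction_left (p := fun g _ => ∃ x ∈ Y j, ∃ g' ∈ Qq Y m (j + 1), g = x * g')
    ⟨1, Subgroup.one_mem _, 1, Subgroup.one_mem _, by simp⟩ ?_ ?_ hg
  · rintro a ⟨k, h1, h2, ha⟩ _ _ ⟨x, hx, g', hg', rfl⟩
    rcases Nat.lt_or_ge j k with h3 | h3
    · -- `a` moves past `x`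
      have h4 : x⁻¹ * a * x ∈ Qq Y m (j + 1) := by
        have := norm_of_good (x := x⁻¹) (l := j + 1) h (Subgroup.inv_mem _ hx) (mem_Qq (j := j + 1) h3 h2 ha)
        simpa using this
      exact ⟨x, hx, (x⁻¹ * a * x) * g', Subgroup.mul_mem _ h4 hg', by group⟩
    · have hkj : k = j := by omega
      subst hkj
      exact ⟨a * x, Subgroup.mul_mem _ ha hx, g', hg', by group⟩
  · rintro a ⟨k, h1, h2, ha⟩ _ _ ⟨x, hx, g', hg', rfl⟩
    have ha' := Subgroup.inv_mem _ ha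
    rcases Nat.lt_or_ge j k with h3 | h3
    · have h4 : x⁻¹ * a⁻¹ * x ∈ Qq Y m (j + 1) := by
        have := norm_of_good (x := x⁻¹) (l := j + 1) h (Subgroup.inv_mem _ hx) (mem_Qq (j := j + 1) h3 h2 ha')
        simpa using this
      exact ⟨x, hx, (x⁻¹ * a⁻¹ * x) * g', Subgroup.mul_mem _ h4 hg', by group⟩
    · have hkj : k = j := by omega
      subst hkj
      exact ⟨a⁻¹ * x, Subgroup.mul_mem _ ha' hx, g', hg', by group⟩

/-- Injectivity of `σ` on the chain. -/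
theorem inj_Qq (hco : ∀ j, j < m → ∀ x ∈ Y j, ∀ g ∈ Qq Y m (j + 1), σ x = σ g → x = 1) :
    ∀ (d j : ℕ), m - j = d → (∀ k l, j ≤ k → k < l → l < m → GoodC Y m k l) →
      ∀ g ∈ Qq Y m j, σ g = 1 → g = 1 := by
  intro d
  induction d with
  | zero =>
    intro j hd _ g hg _
    have hb : Qq Y m j = ⊥ := by
      rw [Qq, Subgroup.closure_eq_bot_iff]
      rintro a ⟨k, h1, h2, _⟩
      omega
    rw [hb, Subgroup.mem_bot] at hg
    exact hg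
  | succ d ih =>
    intro j hd hgood g hg h1
    have hj : j < m := by omega
    obtain ⟨x, hx, g', hg', rfl⟩ := Qq_decomp hj (fun k h3 h4 => hgood j k le_rfl (by omega) h4) hg
    rw [map_mul] at h1
    have h2 : σ x = σ g'⁻¹ := by
      rw [map_inv]
      exact eq_inv_of_mul_eq_one_left h1
    have h3 := hco j hj x hx _ (Subgroup.inv_mem _ hg') h2
    subst h3
    rw [map_one, one_mul] at h1
    rw [one_mul]
    exact ih (j + 1) (by omega) (fun k l hk => hgood k l (by omega)) g' hg' h1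

/-- The main step: a relation of two groups of the chain from the action of an element. -/
theorem good_step (hc : σ.ker ≤ Subgroup.center Γ) {j k : ℕ}
    (hQ : ∀ g ∈ Qq Y m (k + 1), σ g = 1 → g = 1)
    (hnx : ∀ x ∈ Y j, ∀ g ∈ Qq Y m (k + 1), x * g * x⁻¹ ∈ Qq Y m (k + 1))
    (hny : ∀ y ∈ Y k, ∀ g ∈ Qq Y m (k + 1), y * g * y⁻¹ ∈ Qq Y m (k + 1))
    (hcomm : ∀ x ∈ Y j, ∀ y ∈ Y k, ∃ w ∈ Qq Y m (k + 1), σ ⁅x, y⁆ = σ w)
    (hsep : ∃ γ : Γ, (∀ a ∈ Y j, γ * a * γ⁻¹ ∈ Y j) ∧ (∀ a ∈ Y k, γ * a * γ⁻¹ ∈ Y k) ∧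
      (∀ g ∈ Qq Y m (k + 1), γ * g * γ⁻¹ ∈ Qq Y m (k + 1)) ∧
      (((∀ a ∈ Y j, γ * a * γ⁻¹ = a) ∧ ∀ a ∈ Y k, ∃ b ∈ Y k, a = γ * b * γ⁻¹ * b⁻¹) ∨
       ((∀ a ∈ Y k, γ * a * γ⁻¹ = a) ∧ ∀ a ∈ Y j, ∃ b ∈ Y j, a = γ * b * γ⁻¹ * b⁻¹))) :
    GoodC Y m j k := by
  set Q := Qq Y m (k + 1) with hQd
  -- the relation
  let R : Γ → Γ → Γ → Prop := fun x y e => e ∈ σ.ker ∧ ∃ w ∈ Q, ⁅x, y⁆ = w * e
  have hex : ∀ x ∈ Y j, ∀ y ∈ Y k, ∃ e, R x y e := by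
    intro x hx y hy
    obtain ⟨w, hw, e⟩ := hcomm x hx y hy
    refine ⟨w⁻¹ * ⁅x, y⁆, ?_, w, hw, by group⟩
    rw [MonoidHom.mem_ker, map_mul, map_inv, e, inv_mul_cancel]
  have huniq : ∀ x y e e', R x y e → R x y e' → e = e' := by
    rintro x y e e' ⟨h1, w, hw, h2⟩ ⟨h1', w', hw', h2'⟩
    have h3 : w'⁻¹ * w = e' * e⁻¹ := by
      have : w * e = w' * e' := h2.symm.trans h2'
      calc w'⁻¹ * w = w'⁻¹ * (w * e) * e⁻¹ := by group
        _ = w'⁻¹ * (w' * e') * e⁻¹ := by rw [this]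
        _ = _ := by group
    have h4 : σ (w'⁻¹ * w) = 1 := by
      rw [h3, map_mul, map_inv, MonoidHom.mem_ker.mp h1, MonoidHom.mem_ker.mp h1', one_mul, inv_one]
    have h5 := hQ _ (Subgroup.mul_mem _ (Subgroup.inv_mem _ hw') hw) h4
    rw [h3] at h5
    exact (mul_inv_eq_one.mp h5).symm
  have hcen : ∀ e ∈ σ.ker, ∀ g, g * e = e * g := fun e he g => Subgroup.mem_center_iff.mp (hc he) g
  have hleft : ∀ x ∈ Y j, ∀ x' ∈ Y j, ∀ y e e', R x y e → R x' y e' → R (x * x') y (e' * e) := by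
    rintro x hx x' hx' y e e' ⟨h1, w, hw, h2⟩ ⟨h1', w', hw', h2'⟩
    refine ⟨Subgroup.mul_mem _ h1' h1, (x * w' * x⁻¹) * w, Subgroup.mul_mem _ (hnx x hx w' hw') hw, ?_⟩
    have e1 : ⁅x * x', y⁆ = x * ⁅x', y⁆ * x⁻¹ * ⁅x, y⁆ := by
      simp only [commutatorElement_def]
      group
    rw [e1, h2, h2']
    have e2 := hcen e' h1' x⁻¹
    have e3 := hcen e' h1' w
    calc x * (w' * e') * x⁻¹ * (w * e) = x * w' * (e' * x⁻¹) * (w * e) := by group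
      _ = x * w' * (x⁻¹ * e') * (w * e) := by rw [e2]
      _ = x * w' * x⁻¹ * (e' * w) * e := by group
      _ = x * w' * x⁻¹ * (w * e') * e := by rw [e3]
      _ = _ := by group
  have hright : ∀ y ∈ Y k, ∀ y' ∈ Y k, ∀ x e e', R x y e → R x y' e' → R x (y * y') (e * e') := by
    rintro y hy y' hy' x e e' ⟨h1, w, hw, h2⟩ ⟨h1', w', hw', h2'⟩
    refine ⟨Subgroup.mul_mem _ h1 h1', w * (y * w' * y⁻¹), Subgroup.mul_mem _ hw (hny y hy w' hw'), ?_⟩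
    have e1 : ⁅x, y * y'⁆ = ⁅x, y⁆ * (y * ⁅x, y'⁆ * y⁻¹) := by
      simp only [commutatorElement_def]
      group
    rw [e1, h2, h2']
    have e2 := hcen e h1 (y * w' * y⁻¹)
    have e3 := hcen e' h1' y⁻¹
    calc w * e * (y * (w' * e') * y⁻¹) = w * e * (y * w' * (e' * y⁻¹)) := by group
      _ = w * e * (y * w' * (y⁻¹ * e')) := by rw [e3]
      _ = w * (e * (y * w' * y⁻¹)) * e' := by group
      _ = w * ((y * w' * y⁻¹) * e) * e' := by rw [e2]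
      _ = _ := by group
  obtain ⟨γ, hγj, hγk, hγQ, hγ⟩ := hsep
  have hinv : ∀ x y e, R x y e → R (γ * x * γ⁻¹) (γ * y * γ⁻¹) e := by
    rintro x y e ⟨h1, w, hw, h2⟩
    refine ⟨h1, γ * w * γ⁻¹, hγQ w hw, ?_⟩
    have e1 : ⁅γ * x * γ⁻¹, γ * y * γ⁻¹⁆ = γ * ⁅x, y⁆ * γ⁻¹ := by
      simp only [commutatorElement_def]
      group
    rw [e1, h2]
    have e2 := hcen e h1 γ⁻¹
    calc γ * (w * e) * γ⁻¹ = γ * w * (e * γ⁻¹) := by group
      _ = γ * w * (γ⁻¹ * e) := by rw [e2]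
      _ = _ := by group
  have hone : ∀ x ∈ Y j, ∀ y ∈ Y k, R x y 1 := by
    rcases hγ with ⟨h1, h2⟩ | ⟨h1, h2⟩
    · intro x hx y hy
      obtain ⟨b, hb, rfl⟩ := h2 y hy
      obtain ⟨e, he⟩ := hex x hx b hb
      obtain ⟨e', he'⟩ := hex x hx b⁻¹ (Subgroup.inv_mem _ hb)
      have h3 : R x (b * b⁻¹) (e * e') := hright b hb b⁻¹ (Subgroup.inv_mem _ hb) x e e' he he'
      have h4 : R x (b * b⁻¹) 1 := by
        refine ⟨Subgroup.one_mem _, 1, Subgroup.one_mem _, ?_⟩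
        rw [mul_inv_cancel, commutatorElement_one_right, one_mul]
      have h5 := huniq _ _ _ _ h3 h4
      have h6 := hinv x b e he
      rw [h1 x hx] at h6
      have h7 := hright _ (hγk b hb) b⁻¹ (Subgroup.inv_mem _ hb) x e e' h6 he'
      rwa [h5] at h7
    · intro x hx y hy
      obtain ⟨b, hb, rfl⟩ := h2 x hx
      obtain ⟨e, he⟩ := hex b hb y hy
      obtain ⟨e', he'⟩ := hex b⁻¹ (Subgroup.inv_mem _ hb) y hy
      have h3 : R (b * b⁻¹) y (e' * e) := hleft b hb b⁻¹ (Subgroup.inv_mem _ hb) y e e' he he'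
      have h4 : R (b * b⁻¹) y 1 := by
        refine ⟨Subgroup.one_mem _, 1, Subgroup.one_mem _, ?_⟩
        rw [mul_inv_cancel, commutatorElement_one_left, one_mul]
      have h5 := huniq _ _ _ _ h3 h4
      have h6 := hinv b y e he
      rw [h1 y hy] at h6
      have h7 := hleft _ (hγj b hb) b⁻¹ (Subgroup.inv_mem _ hb) y e e' h6 he'
      rwa [h5] at h7
  intro x hx y hy
  obtain ⟨-, w, hw, e⟩ := hone x hx y hy
  rw [e, mul_one]
  exact hw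

/-- The action of an element on the chain separating two groups. -/
def SepC (Y : ℕ → Subgroup Γ) (j k : ℕ) : Prop :=
  ∃ γ : Γ, (∀ l, ∀ a ∈ Y l, γ * a * γ⁻¹ ∈ Y l) ∧
    (((∀ a ∈ Y j, γ * a * γ⁻¹ = a) ∧ ∀ a ∈ Y k, ∃ b ∈ Y k, a = γ * b * γ⁻¹ * b⁻¹) ∨
      ((∀ a ∈ Y k, γ * a * γ⁻¹ = a) ∧ ∀ a ∈ Y j, ∃ b ∈ Y j, a = γ * b * γ⁻¹ * b⁻¹))

theorem conj_Qq {γ : Γ} (h : ∀ l, ∀ a ∈ Y l, γ * a * γ⁻¹ ∈ Y l) {j : ℕ} {g : Γ} (hg : g ∈ Qq Y m j) :
    γ * g * γ⁻¹ ∈ Qq Y m j := by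
  induction hg using Subgroup.closure_induction with
  | mem a ha =>
    obtain ⟨k, h1, h2, ha⟩ := ha
    exact mem_Qq h1 h2 (h k a ha)
  | one => simp [Subgroup.one_mem]
  | mul a b _ _ ha hb =>
    have e : γ * (a * b) * γ⁻¹ = (γ * a * γ⁻¹) * (γ * b * γ⁻¹) := by group
    rw [e]
    exact Subgroup.mul_mem _ ha hb
  | inv a _ ha =>
    have e : γ * a⁻¹ * γ⁻¹ = (γ * a * γ⁻¹)⁻¹ := by group
    rw [e]
    exact Subgroup.inv_mem _ ha

/-- All the pairs of the chain. -/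
theorem good_all (hc : σ.ker ≤ Subgroup.center Γ)
    (hco : ∀ j, j < m → ∀ x ∈ Y j, ∀ g ∈ Qq Y m (j + 1), σ x = σ g → x = 1)
    (hcomm : ∀ j k, j < k → k < m → ∀ x ∈ Y j, ∀ y ∈ Y k, ∃ w ∈ Qq Y m (k + 1), σ ⁅x, y⁆ = σ w)
    (hsep : ∀ j k, j < k → k < m → SepC Y j k ∨ GoodC Y m j k) :
    ∀ j k, j < k → k < m → GoodC Y m j k := by
  have outer : ∀ d j, m - j = d → ∀ k, j < k → k < m → GoodC Y m j k := by
    intro d
    induction d using Nat.strong_induction_on with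
    | _ d ihd =>
      intro j hd
      have inner : ∀ e k, m - k = e → j < k → k < m → GoodC Y m j k := by
        intro e
        induction e using Nat.strong_induction_on with
        | _ e ihe =>
          intro k he hjk hkm
          rcases hsep j k hjk hkm with h | h
          · obtain ⟨γ, h1, h2⟩ := h
            have hpairs : ∀ a b, k + 1 ≤ a → a < b → b < m → GoodC Y m a b := fun a b ha hab hb =>
              ihd (m - a) (by omega) a rfl b hab hb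
            refine good_step σ hc (inj_Qq σ hco _ _ rfl hpairs) ?_ ?_ (hcomm j k hjk hkm)
              ⟨γ, h1 j, h1 k, fun g hg => conj_Qq h1 hg, h2⟩
            · intro x hx g hg
              exact norm_of_good (fun l hl hlm => ihe (m - l) (by omega) l rfl (by omega) hlm) hx hg
            · intro y hy g hg
              exact norm_of_good (fun l hl hlm => ihd (m - k) (by omega) k rfl l (by omega) hlm) hy hg
          · exact h
      exact fun k hjk hkm => inner _ k rfl hjk hkm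
  exact fun j k hjk hkm => outer _ j rfl k hjk hkm

/-- A subgroup of commutators with an element. -/
def Yg (σ : Γ →* G) (X : Subgroup G) (γ : Γ) (hab : ∀ a b, σ a ∈ X → σ b ∈ X → a * b = b * a)
    (hn : ∀ x ∈ X, σ γ * x * (σ γ)⁻¹ ∈ X) : Subgroup Γ where
  carrier := {g | ∃ a, σ a ∈ X ∧ g = γ * a * γ⁻¹ * a⁻¹}
  one_mem' := ⟨1, by rw [map_one]; exact X.one_mem, by group⟩
  mul_mem' := by
    rintro _ _ ⟨a, ha, rfl⟩ ⟨b, hb, rfl⟩
    refine ⟨a * b, by rw [map_mul]; exact X.mul_mem ha hb, ?_⟩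
    have hg : ∀ c, σ c ∈ X → σ (γ * c * γ⁻¹) ∈ X := by
      intro c hc
      rw [map_mul, map_mul, map_inv]
      exact hn _ hc
    have h1 : (γ * b * γ⁻¹) * a⁻¹ = a⁻¹ * (γ * b * γ⁻¹) := by
      have h2 := hab _ _ (hg b hb) ha
      calc (γ * b * γ⁻¹) * a⁻¹ = a⁻¹ * (a * (γ * b * γ⁻¹)) * a⁻¹ := by group
        _ = a⁻¹ * ((γ * b * γ⁻¹) * a) * a⁻¹ := by rw [← h2]
        _ = _ := by group
    have h3 := hab a b ha hb
    calc γ * a * γ⁻¹ * a⁻¹ * (γ * b * γ⁻¹ * b⁻¹) = γ * a * γ⁻¹ * (a⁻¹ * (γ * b * γ⁻¹)) * b⁻¹ := by group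
      _ = γ * a * γ⁻¹ * ((γ * b * γ⁻¹) * a⁻¹) * b⁻¹ := by rw [h1]
      _ = γ * (a * b) * γ⁻¹ * (a⁻¹ * b⁻¹) := by group
      _ = γ * (a * b) * γ⁻¹ * (b * a)⁻¹ := by group
      _ = _ := by rw [← h3]
  inv_mem' := by
    rintro _ ⟨a, ha, rfl⟩
    refine ⟨a⁻¹, by rw [map_inv]; exact X.inv_mem ha, ?_⟩
    have hg : σ (γ * a * γ⁻¹) ∈ X := by
      rw [map_mul, map_mul, map_inv]
      exact hn _ ha
    have h2 := hab _ _ hg ha
    calc (γ * a * γ⁻¹ * a⁻¹)⁻¹ = a * (γ * a * γ⁻¹)⁻¹ := by group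
      _ = (γ * a * γ⁻¹)⁻¹ * ((γ * a * γ⁻¹) * a) * (γ * a * γ⁻¹)⁻¹ := by group
      _ = (γ * a * γ⁻¹)⁻¹ * (a * (γ * a * γ⁻¹)) * (γ * a * γ⁻¹)⁻¹ := by rw [h2]
      _ = _ := by group

section YgL

variable {σ} {X : Subgroup G} {γ : Γ} (hs : Function.Surjective σ) (hc : σ.ker ≤ Subgroup.center Γ)
  (hab : ∀ a b, σ a ∈ X → σ b ∈ X → a * b = b * a) (hn : ∀ x ∈ X, σ γ * x * (σ γ)⁻¹ ∈ X)

theorem Yg_le {g : Γ} (hg : g ∈ Yg σ X γ hab hn) : σ g ∈ X := by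
  obtain ⟨a, ha, rfl⟩ := hg
  rw [map_mul, map_mul, map_mul, map_inv, map_inv]
  exact X.mul_mem (hn _ ha) (X.inv_mem ha)

include hc in
theorem Yg_inj (hf : ∀ x ∈ X, σ γ * x * (σ γ)⁻¹ = x → x = 1) {g : Γ} (hg : g ∈ Yg σ X γ hab hn) (h1 : σ g = 1) :
    g = 1 := by
  obtain ⟨a, ha, rfl⟩ := hg
  rw [map_mul, map_mul, map_mul, map_inv, map_inv, mul_inv_eq_one] at h1
  have h2 := hf _ ha h1
  have h3 : a ∈ Subgroup.center Γ := hc (MonoidHom.mem_ker.mpr h2)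
  rw [(Subgroup.mem_center_iff.mp h3 γ)]
  group

/-- The map `x ↦ h x h⁻¹ x⁻¹` is onto on a finite abelian group without fixed points. -/
theorem comm_onto [Finite G] {h : G} (hX : ∀ x ∈ X, ∀ y ∈ X, x * y = y * x) (hn' : ∀ x ∈ X, h * x * h⁻¹ ∈ X)
    (hf : ∀ x ∈ X, h * x * h⁻¹ = x → x = 1) : ∀ y ∈ X, ∃ x ∈ X, y = h * x * h⁻¹ * x⁻¹ := by
  let f : ↥X → ↥X := fun x => ⟨h * x.1 * h⁻¹ * x.1⁻¹, X.mul_mem (hn' _ x.2) (X.inv_mem x.2)⟩
  have hinj : Function.Injective f := by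
    rintro ⟨a, ha⟩ ⟨b, hb⟩ e
    have e1 : h * a * h⁻¹ * a⁻¹ = h * b * h⁻¹ * b⁻¹ := congrArg Subtype.val e
    have h1 : h * (a * b⁻¹) * h⁻¹ = a * b⁻¹ := by
      have h2 := hX _ (hn' _ ha) _ (X.inv_mem ha)
      have h3 := hX _ (hn' _ hb) _ (X.inv_mem hb)
      have h4 := hX a ha b⁻¹ (X.inv_mem hb)
      have h5 : h * a * h⁻¹ = (h * b * h⁻¹) * (a * b⁻¹) := by
        have h6 : h * a * h⁻¹ = (h * a * h⁻¹ * a⁻¹) * a := by group
        rw [h6, e1, h4]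
        group
      rw [h4] at *
      have h7 : h * (b⁻¹ * a) * h⁻¹ = (h * b * h⁻¹)⁻¹ * (h * a * h⁻¹) := by group
      rw [h7, h5]
      group
    have h2 := hf _ (X.mul_mem ha (X.inv_mem hb)) h1
    exact Subtype.ext (mul_inv_eq_one.mp h2)
  have hsurj := Finite.injective_iff_surjective.mp hinj
  intro y hy
  obtain ⟨x, hx⟩ := hsurj ⟨y, hy⟩
  exact ⟨x.1, x.2, (congrArg Subtype.val hx).symm⟩

include hs

theorem Yg_surj [Finite G] (hX : ∀ x ∈ X, ∀ y ∈ X, x * y = y * x) (hf : ∀ x ∈ X, σ γ * x * (σ γ)⁻¹ = x → x = 1) {x : G}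
    (hx : x ∈ X) : ∃ g ∈ Yg σ X γ hab hn, σ g = x := by
  obtain ⟨b, hb, rfl⟩ := comm_onto hX hn hf x hx
  obtain ⟨a, rfl⟩ := hs b
  exact ⟨_, ⟨a, hb, rfl⟩, by rw [map_mul, map_mul, map_mul, map_inv, map_inv]⟩

end YgL

/-- Conjugation of the subgroup of commutators by a lift of an element commuting with the lift. -/
theorem Yg_conj {X : Subgroup G} {γ δ : Γ} (hc : σ.ker ≤ Subgroup.center Γ)
    (hab : ∀ a b, σ a ∈ X → σ b ∈ X → a * b = b * a) (hn : ∀ x ∈ X, σ γ * x * (σ γ)⁻¹ ∈ X)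
    (hδ : ∀ x ∈ X, σ δ * x * (σ δ)⁻¹ ∈ X) (hcomm : σ δ * σ γ = σ γ * σ δ) {g : Γ} (hg : g ∈ Yg σ X γ hab hn) :
    δ * g * δ⁻¹ ∈ Yg σ X γ hab hn := by
  obtain ⟨a, ha, rfl⟩ := hg
  refine ⟨δ * a * δ⁻¹, ?_, ?_⟩
  · rw [map_mul, map_mul, map_inv]
    exact hδ _ ha
  · -- `δ γ δ⁻¹ = γ z`, with `z` central
    set z := γ⁻¹ * (δ * γ * δ⁻¹) with hz
    have hz1 : z ∈ σ.ker := by
      rw [MonoidHom.mem_ker, hz, map_mul, map_inv, map_mul, map_mul, map_inv, hcomm]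
      group
    have hzc := Subgroup.mem_center_iff.mp (hc hz1)
    have e1 : δ * γ * δ⁻¹ = γ * z := by rw [hz]; group
    have e2 : δ * γ = γ * z * δ := by rw [← e1]; group
    have e3 : δ * γ⁻¹ * δ⁻¹ = z⁻¹ * γ⁻¹ := by
      have : δ * γ⁻¹ * δ⁻¹ = (δ * γ * δ⁻¹)⁻¹ := by group
      rw [this, e1]
      group
    set a' := δ * a * δ⁻¹ with ha'
    have e4 : δ * (γ * a * γ⁻¹ * a⁻¹) * δ⁻¹ = (δ * γ * δ⁻¹) * a' * (δ * γ⁻¹ * δ⁻¹) * a'⁻¹ := by
      rw [ha']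
      group
    rw [e4, e1, e3]
    have e5 : γ * z * a' * (z⁻¹ * γ⁻¹) * a'⁻¹ = γ * (z * a' * z⁻¹) * γ⁻¹ * a'⁻¹ := by group
    rw [e5, ← hzc a']
    group

section Assembly

variable [Finite G] {m : ℕ} {X : ℕ → Subgroup G} {H : Subgroup G}

/-- The data of a chain of subgroups of `G` with a commutative group acting. -/
structure ChainG (m : ℕ) (X : ℕ → Subgroup G) (H : Subgroup G) : Prop where
  hH : ∀ a ∈ H, ∀ b ∈ H, a * b = b * a
  hn : ∀ h ∈ H, ∀ l, l < m → ∀ x ∈ X l, h * x * h⁻¹ ∈ X l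
  ab : ∀ l, l < m → ∀ x ∈ X l, ∀ y ∈ X l, x * y = y * x
  fpf : ∀ l, l < m → ∃ h ∈ H, ∀ x ∈ X l, h * x * h⁻¹ = x → x = 1
  coord : ∀ j, j < m → ∀ x ∈ X j, x ∈ Qq X m (j + 1) → x = 1
  comm : ∀ j k, j < k → k < m → ∀ x ∈ X j, ∀ y ∈ X k, ⁅x, y⁆ ∈ Qq X m (k + 1)
  sep : ∀ j k, j < k → k < m → ∃ h ∈ H,
    ((∀ x ∈ X j, h * x * h⁻¹ = x) ∧ ∀ x ∈ X k, h * x * h⁻¹ = x → x = 1) ∨
    ((∀ x ∈ X k, h * x * h⁻¹ = x) ∧ ∀ x ∈ X j, h * x * h⁻¹ = x → x = 1)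

/-- A section over the group generated by a chain. -/
theorem ChainG.exists_section (C : ChainG m X H) (hs : Function.Surjective σ) (hc : σ.ker ≤ Subgroup.center Γ)
    (hab : ∀ l, l < m → ∀ a b, σ a ∈ X l → σ b ∈ X l → a * b = b * a) :
    ∃ V : Subgroup Γ, (∀ g ∈ V, σ g = 1 → g = 1) ∧ (∀ u ∈ Qq X m 0, ∃ g ∈ V, σ g = u) ∧
      ∀ g ∈ V, σ g ∈ Qq X m 0 := by
  classical
  have hex : ∀ l, ∃ γ : Γ, l < m → σ γ ∈ H ∧ ∀ x ∈ X l, σ γ * x * (σ γ)⁻¹ = x → x = 1 := by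
    intro l
    by_cases hl : l < m
    · obtain ⟨h, hh, hf⟩ := C.fpf l hl
      obtain ⟨γ, rfl⟩ := hs h
      exact ⟨γ, fun _ => ⟨hh, hf⟩⟩
    · exact ⟨1, fun h => absurd h hl⟩
  choose γ hγ using hex
  let Y : ℕ → Subgroup Γ := fun l => if hl : l < m then
    Yg σ (X l) (γ l) (hab l hl) (fun x hx => C.hn _ (hγ l hl).1 l hl x hx) else ⊥
  have hY : ∀ l (hl : l < m), Y l = Yg σ (X l) (γ l) (hab l hl) (fun x hx => C.hn _ (hγ l hl).1 l hl x hx) :=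
    fun l hl => dif_pos hl
  have hYb : ∀ l, ¬ l < m → Y l = ⊥ := fun l hl => dif_neg hl
  have hYσ : ∀ l, l < m → ∀ g ∈ Y l, σ g ∈ X l := by
    intro l hl g hg
    rw [hY l hl] at hg
    exact Yg_le (hab l hl) _ hg
  have hYinj : ∀ l, l < m → ∀ g ∈ Y l, σ g = 1 → g = 1 := by
    intro l hl g hg h1
    rw [hY l hl] at hg
    exact Yg_inj hc (hab l hl) _ (hγ l hl).2 hg h1
  have hYsurj : ∀ l, l < m → ∀ x ∈ X l, ∃ g ∈ Y l, σ g = x := by
    intro l hl x hx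
    rw [hY l hl]
    exact Yg_surj hs (hab l hl) _ (C.ab l hl) (hγ l hl).2 hx
  have hQσ : ∀ j, ∀ g ∈ Qq Y m j, σ g ∈ Qq X m j := by
    intro j g hg
    induction hg using Subgroup.closure_induction with
    | mem a ha =>
      obtain ⟨k, h1, h2, ha⟩ := ha
      exact mem_Qq h1 h2 (hYσ k h2 a ha)
    | one => rw [map_one]; exact Subgroup.one_mem _
    | mul a b _ _ ha hb => rw [map_mul]; exact Subgroup.mul_mem _ ha hb
    | inv a _ ha => rw [map_inv]; exact Subgroup.inv_mem _ ha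
  have hQsurj : ∀ j, ∀ u ∈ Qq X m j, ∃ g ∈ Qq Y m j, σ g = u := by
    intro j u hu
    induction hu using Subgroup.closure_induction with
    | mem a ha =>
      obtain ⟨k, h1, h2, ha⟩ := ha
      obtain ⟨g, hg, e⟩ := hYsurj k h2 a ha
      exact ⟨g, mem_Qq h1 h2 hg, e⟩
    | one => exact ⟨1, Subgroup.one_mem _, map_one _⟩
    | mul a b _ _ ha hb =>
      obtain ⟨g, hg, rfl⟩ := ha
      obtain ⟨g', hg', rfl⟩ := hb
      exact ⟨g * g', Subgroup.mul_mem _ hg hg', map_mul _ _ _⟩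
    | inv a _ ha =>
      obtain ⟨g, hg, rfl⟩ := ha
      exact ⟨g⁻¹, Subgroup.inv_mem _ hg, map_inv _ _⟩
  have hnorm : ∀ δ : Γ, σ δ ∈ H → ∀ l, ∀ a ∈ Y l, δ * a * δ⁻¹ ∈ Y l := by
    intro δ hδ l a ha
    by_cases hl : l < m
    · rw [hY l hl] at ha ⊢
      exact Yg_conj σ hc (hab l hl) _ (fun x hx => C.hn _ hδ l hl x hx) (C.hH _ hδ _ (hγ l hl).1) ha
    · rw [hYb l hl, Subgroup.mem_bot] at ha
      rw [ha, hYb l hl, Subgroup.mem_bot]
      group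
  have hcen : ∀ δ : Γ, σ δ ∈ H → ∀ l, l < m → (∀ x ∈ X l, σ δ * x * (σ δ)⁻¹ = x) →
      ∀ a ∈ Y l, δ * a * δ⁻¹ = a := by
    intro δ hδ l hl h1 a ha
    have h2 := hnorm δ hδ l a ha
    have h3 : δ * a * δ⁻¹ * a⁻¹ ∈ Y l := Subgroup.mul_mem _ h2 (Subgroup.inv_mem _ ha)
    have h4 := hYinj l hl _ h3 (by
      rw [map_mul, map_mul, map_mul, map_inv, map_inv, h1 _ (hYσ l hl a ha), mul_inv_cancel])
    exact mul_inv_eq_one.mp h4
  have hfp : ∀ δ : Γ, σ δ ∈ H → ∀ l, l < m → (∀ x ∈ X l, σ δ * x * (σ δ)⁻¹ = x → x = 1) →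
      ∀ a ∈ Y l, ∃ b ∈ Y l, a = δ * b * δ⁻¹ * b⁻¹ := by
    intro δ hδ l hl h1 a ha
    obtain ⟨x, hx, e⟩ := comm_onto (C.ab l hl) (fun x hx => C.hn _ hδ l hl x hx) h1 _ (hYσ l hl a ha)
    obtain ⟨b, hb, rfl⟩ := hYsurj l hl x hx
    refine ⟨b, hb, ?_⟩
    have h3 : δ * b * δ⁻¹ * b⁻¹ ∈ Y l := Subgroup.mul_mem _ (hnorm δ hδ l b hb) (Subgroup.inv_mem _ hb)
    have h4 := hYinj l hl _ (Subgroup.mul_mem _ ha (Subgroup.inv_mem _ h3)) (by
      rw [map_mul, map_inv, e, map_mul, map_mul, map_mul, map_inv, map_inv, mul_inv_cancel])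
    exact mul_inv_eq_one.mp h4
  have hco : ∀ j, j < m → ∀ x ∈ Y j, ∀ g ∈ Qq Y m (j + 1), σ x = σ g → x = 1 := by
    intro j hj x hx g hg e
    apply hYinj j hj x hx
    exact C.coord j hj _ (hYσ j hj x hx) (by rw [e]; exact hQσ _ g hg)
  have hcomm' : ∀ j k, j < k → k < m → ∀ x ∈ Y j, ∀ y ∈ Y k, ∃ w ∈ Qq Y m (k + 1), σ ⁅x, y⁆ = σ w := by
    intro j k hjk hk x hx y hy
    have h1 : σ ⁅x, y⁆ = ⁅σ x, σ y⁆ := map_commutatorElement σ x y
    obtain ⟨w, hw, e⟩ := hQsurj _ _ (C.comm j k hjk hk _ (hYσ j (by omega) x hx) _ (hYσ k hk y hy))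
    exact ⟨w, hw, by rw [h1, e]⟩
  have hsep' : ∀ j k, j < k → k < m → SepC Y j k ∨ GoodC Y m j k := by
    intro j k hjk hk
    left
    obtain ⟨h, hh, hh2⟩ := C.sep j k hjk hk
    obtain ⟨δ, rfl⟩ := hs h
    refine ⟨δ, hnorm δ hh, ?_⟩
    rcases hh2 with ⟨h1, h2⟩ | ⟨h1, h2⟩
    · exact Or.inl ⟨hcen δ hh j (by omega) h1, hfp δ hh k hk h2⟩
    · exact Or.inr ⟨hcen δ hh k hk h1, hfp δ hh j (by omega) h2⟩
  have hgood := good_all σ hc hco hcomm' hsep'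
  have hinj := inj_Qq σ hco (m - 0) 0 rfl (fun k l _ hkl hl => hgood k l hkl hl)
  exact ⟨Qq Y m 0, hinj, hQsurj 0, hQσ 0⟩

end Assembly

/-- Commuting of preimages from an element separating two commuting groups. -/
theorem comm_of_sep [Finite G] {X X' : Subgroup G} (hs : Function.Surjective σ) (hc : σ.ker ≤ Subgroup.center Γ)
    (hcomm : ∀ x ∈ X, ∀ y ∈ X', x * y = y * x) (hX' : ∀ x ∈ X', ∀ y ∈ X', x * y = y * x) {h : G}
    (hn' : ∀ x ∈ X', h * x * h⁻¹ ∈ X') (h1 : ∀ x ∈ X, h * x * h⁻¹ = x) (h2 : ∀ x ∈ X', h * x * h⁻¹ = x → x = 1)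
    {a b : Γ} (ha : σ a ∈ X) (hb : σ b ∈ X') : a * b = b * a := by
  obtain ⟨γ, rfl⟩ := hs h
  -- commutators with `a` are central, and multiplicative in the second variable
  have hker : ∀ a' b' : Γ, σ a' ∈ X → σ b' ∈ X' → ⁅a', b'⁆ ∈ σ.ker := by
    intro a' b' ha' hb'
    rw [MonoidHom.mem_ker, map_commutatorElement, commutatorElement_eq_one_iff_mul_comm]
    exact hcomm _ ha' _ hb'
  obtain ⟨x, hx, e⟩ := comm_onto hX' hn' h2 _ hb
  obtain ⟨b₀, rfl⟩ := hs x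
  -- `b = γ b₀ γ⁻¹ b₀⁻¹ z`
  set z := (γ * b₀ * γ⁻¹ * b₀⁻¹)⁻¹ * b with hz
  have hz1 : z ∈ σ.ker := by
    rw [MonoidHom.mem_ker, hz, map_mul, map_inv, map_mul, map_mul, map_mul, map_inv, map_inv, ← e, inv_mul_cancel]
  have hzc := Subgroup.mem_center_iff.mp (hc hz1)
  have eb : b = γ * b₀ * γ⁻¹ * b₀⁻¹ * z := by rw [hz]; group
  -- `a' := γ⁻¹ a γ` differs from `a` by a central element
  set a' := γ⁻¹ * a * γ with ha'
  have hza : a'⁻¹ * a ∈ σ.ker := by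
    rw [MonoidHom.mem_ker, ha', map_mul, map_inv, map_mul, map_mul, map_inv]
    have h3 : σ γ * σ a = σ a * σ γ := by
      calc σ γ * σ a = (σ γ * σ a * (σ γ)⁻¹) * σ γ := by group
        _ = σ a * σ γ := by rw [h1 _ ha]
    have e2 : (σ γ)⁻¹ * σ a * σ γ = σ a := by
      rw [mul_assoc, ← h3]
      group
    rw [e2]
    group
  set y := a'⁻¹ * a with hy
  have hyc := Subgroup.mem_center_iff.mp (hc hza)
  have ea : a = a' * y := by rw [hy]; group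
  -- `a b₀ a⁻¹ b₀⁻¹ =: c` is central and `a'` has the same commutator with `b₀`
  have hb₀ : ⁅a, b₀⁆ ∈ σ.ker := hker a b₀ ha hx
  have hc1 := Subgroup.mem_center_iff.mp (hc hb₀)
  have ea' : ⁅a', b₀⁆ = ⁅a, b₀⁆ := by
    rw [commutatorElement_def, commutatorElement_def]
    conv_rhs => rw [ea]
    have e3 : y * b₀ = b₀ * y := (hyc b₀).symm
    calc a' * b₀ * a'⁻¹ * b₀⁻¹ = a' * b₀ * (y * y⁻¹) * a'⁻¹ * b₀⁻¹ := by group
      _ = a' * (b₀ * y) * y⁻¹ * a'⁻¹ * b₀⁻¹ := by group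
      _ = a' * (y * b₀) * y⁻¹ * a'⁻¹ * b₀⁻¹ := by rw [e3]
      _ = _ := by group
  -- conjugating by `γ`
  have e5 : a * (γ * b₀ * γ⁻¹) * a⁻¹ * (γ * b₀ * γ⁻¹)⁻¹ = ⁅a, b₀⁆ := by
    have e6 : a * (γ * b₀ * γ⁻¹) * a⁻¹ * (γ * b₀ * γ⁻¹)⁻¹ = γ * ⁅a', b₀⁆ * γ⁻¹ := by
      rw [commutatorElement_def, ha']
      group
    rw [e6, ea', mul_assoc, ← hc1 γ⁻¹]
    group
  -- conclusion
  have hb2 : a * b * a⁻¹ = b := by
    set c := ⁅a, b₀⁆ with hcdef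
    have e7 : a * (γ * b₀ * γ⁻¹) * a⁻¹ = c * (γ * b₀ * γ⁻¹) := by
      rw [← e5]
      group
    have e8 : a * b₀⁻¹ * a⁻¹ = c⁻¹ * b₀⁻¹ := by
      have e9 : a * b₀ * a⁻¹ = c * b₀ := by
        rw [hcdef, commutatorElement_def]
        group
      have e10 : a * b₀⁻¹ * a⁻¹ = (a * b₀ * a⁻¹)⁻¹ := by group
      have h5 := hc1 b₀⁻¹
      calc a * b₀⁻¹ * a⁻¹ = (c * b₀)⁻¹ := by rw [e10, e9]
        _ = c⁻¹ * (c * b₀⁻¹) * c⁻¹ := by group
        _ = c⁻¹ * (b₀⁻¹ * c) * c⁻¹ := by rw [h5]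
        _ = _ := by group
    have e11 : a * z * a⁻¹ = z := by
      rw [mul_assoc, ← hzc a⁻¹]
      group
    calc a * b * a⁻¹ = (a * (γ * b₀ * γ⁻¹) * a⁻¹) * (a * b₀⁻¹ * a⁻¹) * (a * z * a⁻¹) := by
          rw [eb]
          group
      _ = c * (γ * b₀ * γ⁻¹) * (c⁻¹ * b₀⁻¹) * z := by rw [e7, e8, e11]
      _ = (c * (γ * b₀ * γ⁻¹) * c⁻¹) * b₀⁻¹ * z := by group
      _ = γ * b₀ * γ⁻¹ * b₀⁻¹ * z := by
        have := hc1 (γ * b₀ * γ⁻¹)
        rw [← this]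
        group
      _ = b := eb.symm
  calc a * b = a * b * a⁻¹ * a := by group
    _ = b * a := by rw [hb2]

end Chain

section Transfer

variable {Γ G : Type*} [Group Γ] [Group G] [Finite Γ] {σ : Γ →* G}

/-- A complement over a subgroup kills the kernel by the index. -/
theorem pow_index_of_section (hs : Function.Surjective σ) (hc : σ.ker ≤ Subgroup.center Γ)
    (hk : σ.ker ≤ commutator Γ) {U : Subgroup G} {V : Subgroup Γ} (hinj : ∀ g ∈ V, σ g = 1 → g = 1)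
    (hsurj : ∀ u ∈ U, ∃ g ∈ V, σ g = u) (hV : ∀ g ∈ V, σ g ∈ U) {a : Γ} (ha : a ∈ σ.ker) : a ^ U.index = 1 := by
  classical
  set W := U.comap σ with hW
  choose! lf hlf hlf2 using hsurj
  have hunique : ∀ g ∈ V, ∀ g' ∈ V, σ g = σ g' → g = g' := by
    intro g hg g' hg' e
    have := hinj (g⁻¹ * g') (V.mul_mem (V.inv_mem hg) hg') (by rw [map_mul, map_inv, e, inv_mul_cancel])
    exact (inv_mul_eq_one.mp this)
  have hcen : ∀ x : W, (lf (σ x))⁻¹ * (x : Γ) ∈ Subgroup.center Γ := by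
    intro x
    apply hc
    rw [MonoidHom.mem_ker, map_mul, map_inv, hlf2 _ x.2, inv_mul_cancel]
  letI hA : CommGroup (Subgroup.center Γ) :=
    { (Subgroup.center Γ).toGroup with
      mul_comm := fun a b => Subtype.ext (Subgroup.mem_center_iff.mp a.2 (b : Γ)).symm }
  let φ : W →* Subgroup.center Γ :=
    { toFun := fun x => ⟨(lf (σ x))⁻¹ * (x : Γ), hcen x⟩
      map_one' := by
        apply Subtype.ext
        have h1 : lf (σ ((1 : W) : Γ)) = 1 := hunique _ (hlf _ (by rw [Subgroup.coe_one, map_one]; exact U.one_mem)) _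
          V.one_mem (by
            rw [hlf2 _ (by rw [Subgroup.coe_one, map_one]; exact U.one_mem), map_one, Subgroup.coe_one, map_one])
        show (lf (σ ((1 : W) : Γ)))⁻¹ * ((1 : W) : Γ) = 1
        rw [h1, inv_one, one_mul, Subgroup.coe_one]
      map_mul' := by
        intro x y
        apply Subtype.ext
        have hx : σ (x : Γ) ∈ U := x.2
        have hy : σ (y : Γ) ∈ U := y.2
        have h1 : lf (σ ((x * y : W) : Γ)) = lf (σ x) * lf (σ y) := by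
          have h2 : σ ((x * y : W) : Γ) ∈ U := (x * y).2
          apply hunique _ (hlf _ h2) _ (V.mul_mem (hlf _ hx) (hlf _ hy))
          rw [hlf2 _ h2, map_mul, hlf2 _ hx, hlf2 _ hy, Subgroup.coe_mul, map_mul]
        show (lf (σ ((x * y : W) : Γ)))⁻¹ * ((x * y : W) : Γ) = (lf (σ x))⁻¹ * (x : Γ) * ((lf (σ y))⁻¹ * (y : Γ))
        rw [h1, Subgroup.coe_mul]
        have h3 := Subgroup.mem_center_iff.mp (hcen x) (lf (σ y))⁻¹
        calc (lf (σ x) * lf (σ y))⁻¹ * ((x : Γ) * y) = (lf (σ y))⁻¹ * ((lf (σ x))⁻¹ * (x : Γ)) * y := by group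
          _ = ((lf (σ x))⁻¹ * (x : Γ)) * (lf (σ y))⁻¹ * y := by rw [h3]
          _ = _ := by group }
  have hfi : W.FiniteIndex := inferInstance
  have hkey : ∀ (k : ℕ) (g₀ : Γ), g₀⁻¹ * a ^ k * g₀ ∈ W → g₀⁻¹ * a ^ k * g₀ = a ^ k := by
    intro k g₀ _
    have h1 : a ^ k ∈ Subgroup.center Γ := pow_mem (hc ha) k
    rw [mul_assoc, ← Subgroup.mem_center_iff.mp h1 g₀, ← mul_assoc, inv_mul_cancel, one_mul]
  have h1 := MonoidHom.transfer_eq_pow φ a hkey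
  have h2 : φ.transfer a = 1 := by
    have h3 : commutator Γ ≤ φ.transfer.ker := by
      rw [commutator_def, Subgroup.commutator_le]
      intro x _ y _
      rw [MonoidHom.mem_ker, commutatorElement_def, map_mul, map_mul, map_mul, map_inv, map_inv]
      rw [mul_comm (φ.transfer x) (φ.transfer y)]
      group
    exact h3 (hk ha)
  rw [h2] at h1
  have h3 := congrArg Subtype.val h1
  have hidx : W.index = U.index := Subgroup.index_comap_of_surjective U hs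
  have h4 : σ (a ^ W.index) = 1 := by
    rw [map_pow, MonoidHom.mem_ker.mp ha, one_pow]
  have h5 : lf (σ (a ^ W.index)) = 1 := by
    have hmem : σ (a ^ W.index) ∈ U := by
      rw [h4]
      exact U.one_mem
    exact hunique _ (hlf _ hmem) _ V.one_mem (by rw [hlf2 _ hmem, h4, map_one])
  have h6 : ((φ ⟨a ^ W.index, MonoidHom.transfer_eq_pow_aux a hkey⟩ : Subgroup.center Γ) : Γ) =
      (lf (σ (a ^ W.index)))⁻¹ * a ^ W.index := rfl
  rw [h6, h5, inv_one, one_mul] at h3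
  rw [← hidx]
  exact h3.symm

end Transfer

end Cfsg.Agent.Lib.Twisted.Mult
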