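import Cfsg.Agent.Lib.Twisted.Mult.InstCore
import Cfsg.Agent.Lib.Twisted.Mult.Chain

/-!
# The chain of the classes of positive roots in a twisted group
-/

set_option autoImplicit false
set_option linter.unusedSectionVars false

namespace Cfsg.Agent.Lib.Twisted

open Cfsg.Agent.Lib.Twisted.Mult
open Cfsg.Agent.Lib.Chevalley
open Cfsg.Lie Cfsg.Agent.Lib.ChevBN.Elem Cfsg.Agent.Lib.ChevBN.Entries Cfsg.Agent.Lib.ChevBN.Table
open Cfsg.Agent.Lib.ChevBN.Collect Cfsg.Agent.Lib.ChevBN.Rel Cfsg.Agent.Lib.ChevBN.Torus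
open Cfsg.Agent.Lib.ChevBN.Monomial Cfsg.Agent.Lib.ChevBN.Core Cfsg.Agent.Lib.ChevBN.Pair
open Cfsg.Agent.Lib.ChevBN.Stmts Cfsg.Agent.Lib.ChevBN.Opp Cfsg.Agent.Lib.ChevBN.Perfect
open Cfsg.Agent.Lib.ChevOrder.Chev Cfsg.Agent.Lib.ChevOrder.BNCount Cfsg.Agent.Lib.ChevOrder.Cox
open scoped commutatorElement

variable {D : ChevalleyDatum} {F : Type*} [Field F] {η : ℕ → ℕ → ℤ}

/-! ### Torus elements on a set of roots -/

section
variable (hR : Sys D F η) (hT : Tbl D)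

/-- An element acting trivially on the root elements of a set. -/
def FixS (h : GL D.Idx F) (Ψ : Set ℕ) : Prop := ∀ r ∈ Ψ, ∀ t : F, h * X hR.toAddRel r t * h⁻¹ = X hR.toAddRel r t

/-- An element acting on the root elements of a set by scalars different from one. -/
def FpfS (h : GL D.Idx F) (Ψ : Set ℕ) : Prop :=
  ∀ r ∈ Ψ, ∃ κ : F, κ ≠ 1 ∧ ∀ t : F, h * X hR.toAddRel r t * h⁻¹ = X hR.toAddRel r (κ * t)

variable {hR hT}

theorem FixS.conj_eq {h : GL D.Idx F} {Ψ : Set ℕ} (hh : FixS hR h Ψ) {x : GL D.Idx F}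
    (hx : x ∈ gen hR.toAddRel Ψ) : h * x * h⁻¹ = x := by
  refine gen_induction hR.toAddRel (P := fun x => h * x * h⁻¹ = x) (by simp) ?_ ?_ hx
  · intro r hr t
    exact hh r hr t
  · intro a b ha hb
    calc h * (a * b) * h⁻¹ = (h * a * h⁻¹) * (h * b * h⁻¹) := by group
      _ = a * b := by rw [ha, hb]

theorem conj_W {h : GL D.Idx F} {κ : ℕ → F} (L : List ℕ) (t : ℕ → F)
    (hκ : ∀ r ∈ L, ∀ t : F, h * X hR.toAddRel r t * h⁻¹ = X hR.toAddRel r (κ r * t)) :
    h * W hR.toAddRel (L.map fun r => (r, t r)) * h⁻¹ = W hR.toAddRel (L.map fun r => (r, κ r * t r)) := by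
  induction L with
  | nil => simp
  | cons a L ih =>
    simp only [List.map_cons, W_cons]
    rw [← ih (fun r hr => hκ r (List.mem_cons_of_mem _ hr)), ← hκ a (by simp)]
    group

theorem FpfS.eq_one (hT : Tbl D) {h : GL D.Idx F} {Ψ : Set ℕ} (hh : FpfS hR h Ψ) (hΨ : Closed D Ψ) {x : GL D.Idx F}
    (hx : x ∈ gen hR.toAddRel Ψ) (hf : h * x * h⁻¹ = x) : x = 1 := by
  classical
  choose! κ hκ1 hκ2 using hh
  obtain ⟨t, rfl⟩ := exists_W hR hT hΨ hx
  have hL : ∀ r ∈ sortL D Ψ, r ∈ Ψ := fun r hr => (mem_sortL hΨ).1 hr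
  rw [conj_W (hR := hR) (κ := κ) _ t (fun r hr t => hκ2 r (hL r hr) t)] at hf
  have h1 := ordered_unique (hA := hR.toAddRel) hT (sortL D Ψ) (sortL_sorted Ψ)
    (fun r hr => hΨ.pos r (hL r hr)) _ _ hf
  have h2 : ∀ r ∈ sortL D Ψ, t r = 0 := by
    intro r hr
    have h3 : (κ r - 1) * t r = 0 := by
      have := h1 r hr
      linear_combination this
    rcases mul_eq_zero.1 h3 with h4 | h4
    · exact absurd (sub_eq_zero.1 h4) (hκ1 r (hL r hr))
    · exact h4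
  have h3 : ∀ L : List ℕ, (∀ r ∈ L, t r = 0) → W hR.toAddRel (L.map fun r => (r, t r)) = 1 := by
    intro L
    induction L with
    | nil => intro _; rfl
    | cons a L ih =>
      intro hL'
      simp only [List.map_cons, W_cons]
      rw [hL' a (by simp), X_zero, one_mul]
      exact ih fun r hr => hL' r (List.mem_cons_of_mem _ hr)
  exact h3 _ h2

end

/-! ### Commutators of subgroups generated by root elements -/

section
variable (hR : Sys D F η) (hT : Tbl D)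
include hR hT

/-- Commutators of generated subgroups, from those of the root elements. -/
theorem comm_gen_mem {S S' : Set ℕ} {N : Subgroup (GL D.Idx F)} (hNS : ∀ x ∈ gen hR.toAddRel S, ∀ k ∈ N, x * k * x⁻¹ ∈ N)
    (hNS' : ∀ y ∈ gen hR.toAddRel S', ∀ k ∈ N, y * k * y⁻¹ ∈ N)
    (h : ∀ a ∈ S, ∀ t : F, ∀ b ∈ S', ∀ u : F, ⁅X hR.toAddRel a t, X hR.toAddRel b u⁆ ∈ N)
    {x y : GL D.Idx F} (hx : x ∈ gen hR.toAddRel S) (hy : y ∈ gen hR.toAddRel S') : ⁅x, y⁆ ∈ N := by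
  have h1 : ∀ x ∈ gen hR.toAddRel S, ∀ b ∈ S', ∀ u : F, ⁅x, X hR.toAddRel b u⁆ ∈ N := by
    intro x hx b hb u
    refine gen_induction hR.toAddRel (P := fun x => x ∈ gen hR.toAddRel S ∧ ⁅x, X hR.toAddRel b u⁆ ∈ N) ?_ ?_ ?_ hx |>.2
    · exact ⟨Subgroup.one_mem _, by simp [Subgroup.one_mem]⟩
    · intro a ha t
      exact ⟨X_mem_gen _ ha t, h a ha t b hb u⟩
    · rintro c d ⟨hc, hc'⟩ ⟨hd, hd'⟩
      refine ⟨Subgroup.mul_mem _ hc hd, ?_⟩
      have e : ⁅c * d, X hR.toAddRel b u⁆ = c * ⁅d, X hR.toAddRel b u⁆ * c⁻¹ * ⁅c, X hR.toAddRel b u⁆ := by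
        simp only [commutatorElement_def]
        group
      rw [e]
      exact Subgroup.mul_mem _ (hNS c hc _ hd') hc'
  refine gen_induction hR.toAddRel (P := fun y => y ∈ gen hR.toAddRel S' ∧ ⁅x, y⁆ ∈ N) ?_ ?_ ?_ hy |>.2
  · exact ⟨Subgroup.one_mem _, by simp [Subgroup.one_mem]⟩
  · intro b hb u
    exact ⟨X_mem_gen _ hb u, h1 x hx b hb u⟩
  · rintro c d ⟨hc, hc'⟩ ⟨hd, hd'⟩
    refine ⟨Subgroup.mul_mem _ hc hd, ?_⟩
    have e : ⁅x, c * d⁆ = ⁅x, c⁆ * (c * ⁅x, d⁆ * c⁻¹) := by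
      simp only [commutatorElement_def]
      group
    rw [e]
    exact Subgroup.mul_mem _ hc' (hNS' c hc _ hd')

/-- The commutator of two root elements. -/
theorem comm_X_mem {a b : ℕ} (ha : D.IsPosRoot a) (hb : D.IsPosRoot b) (hab : a ≠ b) {Ψ : Set ℕ}
    (hΨ : ∀ c ∈ D.commTerms b a, c.1 ∈ Ψ) {N : Subgroup (GL D.Idx F)} (hN : gen hR.toAddRel Ψ ≤ N)
    (hna : ∀ t : F, ∀ k ∈ N, X hR.toAddRel a t * k * (X hR.toAddRel a t)⁻¹ ∈ N)
    (hnb : ∀ t : F, ∀ k ∈ N, X hR.toAddRel b t * k * (X hR.toAddRel b t)⁻¹ ∈ N) (t u : F) :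
    ⁅X hR.toAddRel a t, X hR.toAddRel b u⁆ ∈ N := by
  have h1 := commPos hR b a hb ha hab u t
  have h2 : W hR.toAddRel (D.commWord F b a u t) ∈ N := by
    refine hN (W_mem_gen _ ?_)
    intro p hp
    obtain ⟨c, hc, e⟩ := mem_commWord hp
    rw [e]
    exact hΨ c hc
  have e : ⁅X hR.toAddRel a t, X hR.toAddRel b u⁆ = (X hR.toAddRel b u * X hR.toAddRel a t) *
      W hR.toAddRel (D.commWord F b a u t) * (X hR.toAddRel b u * X hR.toAddRel a t)⁻¹ := by
    rw [commutatorElement_def]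
    have h3 : X hR.toAddRel b u * X hR.toAddRel a t * W hR.toAddRel (D.commWord F b a u t) =
        X hR.toAddRel a t * X hR.toAddRel b u := h1.symm
    rw [h3]
    group
  rw [e]
  have e2 : ∀ g h k : GL D.Idx F, (g * h) * k * (g * h)⁻¹ = g * (h * k * h⁻¹) * g⁻¹ := by
    intro g h k
    group
  rw [e2]
  exact hnb u _ (hna t _ h2)

end

/-! ### The chain -/

theorem clok_drop {ρ : ℕ → ℕ} : ∀ (j : ℕ) (cl : List (List ℕ)), ClOK D ρ cl → ClOK D ρ (cl.drop j)
  | 0, _, h => h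
  | _ + 1, [], _ => trivial
  | j + 1, _ :: rest, h => clok_drop j rest h.2.2.2.2.2.2

/-- The check for the chain. -/
def chainChk (D : ChevalleyDatum) (cl : List (List ℕ)) : Prop :=
  ∀ j ∈ List.range cl.length, ∀ k ∈ List.range cl.length, j < k →
    (∀ a ∈ cl.getD j [], ∀ b ∈ cl.getD k [], a ≠ b ∧ ∀ c ∈ D.commTerms b a, c.1 ∈ (cl.drop (k + 1)).flatten) ∧
    (∀ a ∈ cl.getD j [], a ∉ (cl.drop (k + 1)).flatten ∧ ∀ s ∈ (cl.drop (k + 1)).flatten,
      ∀ c ∈ D.commTerms a s, c.1 ∈ (cl.drop (k + 1)).flatten)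

instance (D : ChevalleyDatum) (cl : List (List ℕ)) : Decidable (chainChk D cl) := by
  unfold chainChk
  infer_instance

/-- The check for the commutativity of the classes. -/
def abChk (D : ChevalleyDatum) (cl : List (List ℕ)) : Prop :=
  ∀ S ∈ cl, ∀ a ∈ S, ∀ b ∈ S, a ≠ b → D.commTerms a b = []

instance (D : ChevalleyDatum) (cl : List (List ℕ)) : Decidable (abChk D cl) := by
  unfold abChk
  infer_instance

section

variable (hR : Sys D F η) (T : Tw hR.toAddRel) (G1 : Subgroup (GL D.Idx F))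

/-- The fixed points in the subgroup generated by a set of roots. -/
noncomputable def Xg (Ψ : Set ℕ) : Subgroup ↥G1 := (gen hR.toAddRel Ψ ⊓ T.Fx).subgroupOf G1

/-- The fixed points of a class. -/
noncomputable abbrev XS (S : List ℕ) : Subgroup ↥G1 := Xg hR T G1 {r | r ∈ S}

/-- The chain. -/
noncomputable abbrev Xl (cl : List (List ℕ)) (l : ℕ) : Subgroup ↥G1 := XS hR T G1 (cl.getD l [])

end

theorem mem_Xg {hR : Sys D F η} {T : Tw hR.toAddRel} {G1 : Subgroup (GL D.Idx F)} {Ψ : Set ℕ} {x : ↥G1} :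
    x ∈ Xg hR T G1 Ψ ↔ (x : GL D.Idx F) ∈ gen hR.toAddRel Ψ ⊓ T.Fx := Subgroup.mem_subgroupOf

namespace Inst

variable {hR : Sys D F η} {hT : Tbl D} {T : Tw hR.toAddRel} {Js cl : List (List ℕ)}
  {G1 : Subgroup (GL D.Idx F)} (I : Inst hR hT T Js cl G1) [Finite F]

include I

theorem mem_flat_drop {j k : ℕ} (hjk : j ≤ k) (hk : k < cl.length) {r : ℕ} (hr : r ∈ cl.getD k []) :
    r ∈ (cl.drop j).flatten := by
  rw [List.getD_eq_getElem _ _ hk] at hr
  refine List.mem_flatten.2 ⟨cl[k], ?_, hr⟩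
  have h1 : k - j < (cl.drop j).length := by
    rw [List.length_drop]
    omega
  have h2 : (cl.drop j)[k - j] = cl[k] := by
    rw [List.getElem_drop]
    congr 1
    omega
  rw [← h2]
  exact List.getElem_mem _

theorem Qq_le_flat (j : ℕ) {y : ↥G1} (hy : y ∈ Qq (Xl hR T G1 cl) cl.length j) :
    (y : GL D.Idx F) ∈ gen hR.toAddRel {r | r ∈ (cl.drop j).flatten} := by
  induction hy using Subgroup.closure_induction with
  | mem a ha =>
    obtain ⟨k, h1, h2, ha⟩ := ha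
    have h3 := (mem_Xg.1 ha).1
    exact gen_mono _ (fun r hr => I.mem_flat_drop h1 h2 hr) h3
  | one => exact Subgroup.one_mem _
  | mul a b _ _ ha hb => exact Subgroup.mul_mem _ ha hb
  | inv a _ ha => exact Subgroup.inv_mem _ ha

theorem fix_le_Qq (j : ℕ) {g : GL D.Idx F} (hg : g ∈ gen hR.toAddRel {r | r ∈ (cl.drop j).flatten} ⊓ T.Fx) :
    ∃ hG : g ∈ G1, (⟨g, hG⟩ : ↥G1) ∈ Qq (Xl hR T G1 cl) cl.length j := by
  have h1 := fix_flat_le hR hT T (cl.drop j) (clok_drop j cl I.clok)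
    ((Qq (Xl hR T G1 cl) cl.length j).map G1.subtype) (by
      intro S hS x hx
      have hScl : S ∈ cl := List.mem_of_mem_drop hS
      have hxG : x ∈ G1 := I.class_le hScl hx
      obtain ⟨i, hi, e⟩ := List.mem_iff_getElem.1 hS
      have hi2 : i + j < cl.length := by
        rw [List.length_drop] at hi
        omega
      have e2 : cl.getD (j + i) [] = S := by
        rw [List.getD_eq_getElem _ _ (by omega), ← e, List.getElem_drop]
      refine ⟨⟨x, hxG⟩, mem_Qq (k := j + i) (by omega) (by omega) ?_, rfl⟩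
      rw [Xl, XS, e2]
      exact mem_Xg.2 hx) hg
  obtain ⟨y, hy, e⟩ := h1
  have e2 : (⟨g, by rw [← e]; exact y.2⟩ : ↥G1) = y := Subtype.ext e.symm
  exact ⟨by rw [← e]; exact y.2, e2 ▸ hy⟩

theorem S_closed {k : ℕ} (hk : k < cl.length) : Closed D {r | r ∈ cl.getD k []} := by
  have h1 := clok_drop k cl I.clok
  rw [List.drop_eq_getElem_cons hk] at h1
  rw [List.getD_eq_getElem _ _ hk]
  exact h1.1

theorem rest_closed (k : ℕ) : Closed D {r | r ∈ (cl.drop k).flatten} := by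
  have h1 := clok_drop k cl I.clok
  cases hd : cl.drop k with
  | nil =>
    exact ⟨by simp, by simp⟩
  | cons S rest =>
    rw [hd] at h1
    have h2 : ({r | r ∈ (S :: rest).flatten} : Set ℕ) = {r | r ∈ S ∨ r ∈ rest.flatten} := by
      ext r
      simp
    rw [h2]
    exact h1.2.1

include I in
/-- The chain of the classes. -/
theorem chainG (hchk : chainChk D cl) (hab : abChk D cl)
    (hfp : ∀ l, l < cl.length → ∃ h ∈ D.diagonalSubgroup F ⊓ G1, FpfS hR h {r | r ∈ cl.getD l []})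
    (hsep : ∀ j k, j < k → k < cl.length → ∃ h ∈ D.diagonalSubgroup F ⊓ G1,
      (FixS hR h {r | r ∈ cl.getD j []} ∧ FpfS hR h {r | r ∈ cl.getD k []}) ∨
      (FixS hR h {r | r ∈ cl.getD k []} ∧ FpfS hR h {r | r ∈ cl.getD j []})) :
    ChainG cl.length (Xl hR T G1 cl) ((D.diagonalSubgroup F ⊓ G1).subgroupOf G1) where
  hH a ha b hb := Subtype.ext (H_comm hR hT (Subgroup.mem_subgroupOf.1 ha).1 (Subgroup.mem_subgroupOf.1 hb).1)
  hn h hh l hl x hx := by
    refine mem_Xg.2 ⟨H_conj_gen hR hT (Subgroup.mem_subgroupOf.1 hh).1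
      (fun r hr => ((I.S_closed hl).pos r hr).1) (mem_Xg.1 hx).1, ?_⟩
    have h2 := I.fix h.2
    exact Subgroup.mul_mem _ (Subgroup.mul_mem _ h2 (mem_Xg.1 hx).2) (Subgroup.inv_mem _ h2)
  ab l hl x hx y hy := by
    apply Subtype.ext
    have hS : cl.getD l [] ∈ cl := by
      rw [List.getD_eq_getElem _ _ hl]
      exact List.getElem_mem _
    have hc : ∀ a ∈ cl.getD l [], ∀ b ∈ cl.getD l [], ∀ s t : F,
        Commute (X hR.toAddRel a s) (X hR.toAddRel b t) := by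
      intro a ha b hb s t
      have hpa := (I.S_closed hl).pos a ha
      have hpb := (I.S_closed hl).pos b hb
      by_cases hne : a = b
      · subst hne
        show X hR.toAddRel a s * X hR.toAddRel a t = X hR.toAddRel a t * X hR.toAddRel a s
        rw [X_mul, X_mul, add_comm]
      · exact comm_of_nil hR hT I.comm hpa.1 hpb.1 (Ne.symm hne) (hT.pos_ne_neg hpb (hT.neg_of_pos hpa)) (hab _ hS a ha b hb hne) s t
    have h1 : ∀ b ∈ cl.getD l [], ∀ t : F, ∀ x ∈ gen hR.toAddRel {r | r ∈ cl.getD l []},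
        X hR.toAddRel b t * x = x * X hR.toAddRel b t := by
      intro b hb t x hx
      have : FixS hR (X hR.toAddRel b t) {r | r ∈ cl.getD l []} := by
        intro r hr u
        have h3 := (hc b hb r hr t u).eq
        rw [h3]
        group
      have h4 := this.conj_eq hx
      rw [mul_inv_eq_iff_eq_mul] at h4
      exact h4
    have h2 : FixS hR (x : GL D.Idx F) {r | r ∈ cl.getD l []} := by
      intro r hr u
      have h3 := h1 r hr u x (mem_Xg.1 hx).1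
      rw [← h3]
      group
    have h4 := h2.conj_eq (mem_Xg.1 hy).1
    rw [mul_inv_eq_iff_eq_mul] at h4
    exact h4
  fpf l hl := by
    obtain ⟨h, hh, hf⟩ := hfp l hl
    refine ⟨⟨h, hh.2⟩, Subgroup.mem_subgroupOf.2 hh, fun x hx e => ?_⟩
    exact Subtype.ext (hf.eq_one hT (I.S_closed hl) (mem_Xg.1 hx).1 (congrArg Subtype.val e))
  coord j hj x hx hq := by
    apply Subtype.ext
    have h1 := clok_drop j cl I.clok
    rw [List.drop_eq_getElem_cons hj] at h1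
    obtain ⟨h2, h3, h4, h5, h6, -, -⟩ := h1
    have hq2 := I.Qq_le_flat _ hq
    have hx2 := (mem_Xg.1 hx).1
    rw [List.getD_eq_getElem _ _ hj] at hx2
    have hU : ({r | r ∈ cl[j]} ∪ {r | r ∈ (cl.drop (j + 1)).flatten} : Set ℕ) =
        {r | r ∈ cl[j] ∨ r ∈ (cl.drop (j + 1)).flatten} := rfl
    have hbot := gen_inf_eq_bot hR hT h2 h4 (by rw [hU]; exact h3) h5 h6
    have h7 : (x : GL D.Idx F) ∈ gen hR.toAddRel {r | r ∈ cl[j]} ⊓ gen hR.toAddRel {r | r ∈ (cl.drop (j + 1)).flatten} :=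
      ⟨hx2, hq2⟩
    rw [hbot, Subgroup.mem_bot] at h7
    exact h7
  comm j k hjk hk x hx y hy := by
    have hj : j < cl.length := by omega
    obtain ⟨hc1, hc2⟩ := hchk j (List.mem_range.2 hj) k (List.mem_range.2 hk) hjk
    have hk' := clok_drop k cl I.clok
    rw [List.drop_eq_getElem_cons hk] at hk'
    obtain ⟨h2, h3, h4, h5, h6, -, -⟩ := hk'
    set rest := (cl.drop (k + 1)).flatten with hrest
    have hSk : cl.getD k [] = cl[k] := List.getD_eq_getElem _ _ hk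
    have hnj : gen hR.toAddRel {r | r ∈ cl.getD j []} ≤ Subgroup.normalizer (gen hR.toAddRel {r | r ∈ rest} : Set (GL D.Idx F)) :=
      gen_le_norm hR hT (I.S_closed hj) h4 (fun a ha => (hc2 a ha).1) (fun a ha s hs c hc => (hc2 a ha).2 s hs c hc)
    have hnk : gen hR.toAddRel {r | r ∈ cl.getD k []} ≤ Subgroup.normalizer (gen hR.toAddRel {r | r ∈ rest} : Set (GL D.Idx F)) := by
      rw [hSk]
      exact gen_le_norm hR hT h2 h4 h5 h6
    have hcm : ⁅(x : GL D.Idx F), (y : GL D.Idx F)⁆ ∈ gen hR.toAddRel {r | r ∈ rest} := by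
      refine comm_gen_mem hR hT (fun x hx k hk => (Subgroup.mem_normalizer_iff.mp (hnj hx) k).mp hk)
        (fun x hx k hk => (Subgroup.mem_normalizer_iff.mp (hnk hx) k).mp hk) ?_ (mem_Xg.1 hx).1 (mem_Xg.1 hy).1
      intro a ha t b hb u
      refine comm_X_mem hR hT ((I.S_closed hj).pos a ha) ((I.S_closed hk).pos b hb) (hc1 a ha b hb).1
        (Ψ := {r | r ∈ rest}) (hc1 a ha b hb).2 le_rfl ?_ ?_ t u
      · intro t k hk
        exact (Subgroup.mem_normalizer_iff.mp (hnj (X_mem_gen _ ha t)) k).mp hk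
      · intro t k hk
        exact (Subgroup.mem_normalizer_iff.mp (hnk (X_mem_gen _ hb t)) k).mp hk
    have hfx : ⁅(x : GL D.Idx F), (y : GL D.Idx F)⁆ ∈ T.Fx := by
      have e : ⁅(x : GL D.Idx F), (y : GL D.Idx F)⁆ = ((⁅x, y⁆ : ↥G1) : GL D.Idx F) := rfl
      rw [e]
      exact I.fix (Subtype.prop _)
    obtain ⟨hG, hq⟩ := I.fix_le_Qq (k + 1) ⟨hcm, hfx⟩
    exact hq
  sep j k hjk hk := by
    have hj : j < cl.length := by omega
    obtain ⟨h, hh, hf⟩ := hsep j k hjk hk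
    refine ⟨⟨h, hh.2⟩, Subgroup.mem_subgroupOf.2 hh, ?_⟩
    rcases hf with ⟨h1, h2⟩ | ⟨h1, h2⟩
    · left
      refine ⟨fun x hx => Subtype.ext (h1.conj_eq (mem_Xg.1 hx).1), fun x hx e => ?_⟩
      exact Subtype.ext (h2.eq_one hT (I.S_closed hk) (mem_Xg.1 hx).1 (congrArg Subtype.val e))
    · right
      refine ⟨fun x hx => Subtype.ext (h1.conj_eq (mem_Xg.1 hx).1), fun x hx e => ?_⟩
      exact Subtype.ext (h2.eq_one hT (I.S_closed hj) (mem_Xg.1 hx).1 (congrArg Subtype.val e))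

theorem Qq_zero : Qq (Xl hR T G1 cl) cl.length 0 = (D.posUnipotent F ⊓ T.Fx).subgroupOf G1 := by
  apply le_antisymm
  · intro y hy
    have h1 := I.Qq_le_flat 0 hy
    rw [List.drop_zero, ← I.U_eq] at h1
    exact Subgroup.mem_subgroupOf.2 ⟨h1, I.fix y.2⟩
  · intro y hy
    have h1 := Subgroup.mem_subgroupOf.1 hy
    rw [I.U_eq, ← List.drop_zero (l := cl)] at h1
    obtain ⟨_, h2⟩ := I.fix_le_Qq 0 h1
    simpa using h2

/-- Preimages from conjugation. -/
theorem hab_class {Γ : Type*} [Group Γ] {σ : Γ →* ↥G1} (hs : Function.Surjective σ)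
    (hJ : ∀ J ∈ Js, ∀ a b, σ a ∈ Xg hR T G1 (psiL D J) → σ b ∈ Xg hR T G1 (psiL D J) → a * b = b * a)
    {S : List ℕ} (hS : S ∈ cl) {a b : Γ} (ha : σ a ∈ XS hR T G1 S) (hb : σ b ∈ XS hR T G1 S) : a * b = b * a := by
  obtain ⟨w, hw, J₀, hJ₀, hm⟩ := I.cert S hS
  have hn := I.prodA_mem hw
  obtain ⟨γ, hγ⟩ := hs ⟨_, hn⟩
  have key : ∀ c, σ c ∈ XS hR T G1 S → σ (γ * c * γ⁻¹) ∈ Xg hR T G1 (psiL D J₀) := by
    intro c hc
    rw [map_mul, map_mul, map_inv, hγ]
    refine mem_Xg.2 ?_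
    exact I.conj1 (fun r hr => I.class_pos hS r hr) (I.flat_lt hw) hn hm (mem_Xg.1 hc)
  have h1 := hJ J₀ hJ₀ _ _ (key a ha) (key b hb)
  have h2 : γ * (a * b) * γ⁻¹ = γ * (b * a) * γ⁻¹ := by
    calc γ * (a * b) * γ⁻¹ = (γ * a * γ⁻¹) * (γ * b * γ⁻¹) := by group
      _ = (γ * b * γ⁻¹) * (γ * a * γ⁻¹) := h1
      _ = _ := by group
  exact mul_left_cancel (mul_right_cancel h2)

/-- A stem extension and the index of the unipotent group. -/
theorem pow_index (hchk : chainChk D cl) (hab : abChk D cl)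
    (hfp : ∀ l, l < cl.length → ∃ h ∈ D.diagonalSubgroup F ⊓ G1, FpfS hR h {r | r ∈ cl.getD l []})
    (hsep : ∀ j k, j < k → k < cl.length → ∃ h ∈ D.diagonalSubgroup F ⊓ G1,
      (FixS hR h {r | r ∈ cl.getD j []} ∧ FpfS hR h {r | r ∈ cl.getD k []}) ∨
      (FixS hR h {r | r ∈ cl.getD k []} ∧ FpfS hR h {r | r ∈ cl.getD j []}))
    [Finite ↥G1] {Γ : Type*} [Group Γ] [Finite Γ] {σ : Γ →* ↥G1} (hs : Function.Surjective σ)
    (hc : σ.ker ≤ Subgroup.center Γ) (hk : σ.ker ≤ commutator Γ)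
    (hJ : ∀ J ∈ Js, ∀ a b, σ a ∈ Xg hR T G1 (psiL D J) → σ b ∈ Xg hR T G1 (psiL D J) → a * b = b * a)
    {a : Γ} (ha : a ∈ σ.ker) : a ^ ((D.posUnipotent F ⊓ T.Fx).subgroupOf G1).index = 1 := by
  obtain ⟨V, h1, h2, h3⟩ := (I.chainG hchk hab hfp hsep).exists_section σ hs hc (fun l hl a b ha hb => by
    have hS : cl.getD l [] ∈ cl := by
      rw [List.getD_eq_getElem _ _ hl]
      exact List.getElem_mem _
    exact I.hab_class hs hJ hS ha hb)
  rw [I.Qq_zero] at h2 h3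
  exact pow_index_of_section hs hc hk h1 h2 h3 ha

end Inst

end Cfsg.Agent.Lib.Twisted
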