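import Cfsg.Agent.Lib.Twisted.Mult.Chain

/-!
# Preimages of root groups in central extensions are commutative
-/

set_option autoImplicit false
set_option linter.unusedSectionVars false

namespace Cfsg.Agent.Lib.Twisted.Mult

open scoped commutatorElement

variable {Γ G : Type*} [Group Γ] [Group G] {σ : Γ →* G}

/-- Commutators in a central extension depend on the images only. -/
theorem comm_eq_of_eq (hc : σ.ker ≤ Subgroup.center Γ) {a a' b b' : Γ} (ha : σ a = σ a') (hb : σ b = σ b') :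
    ⁅a', b'⁆ = ⁅a, b⁆ := by
  have h1 : a⁻¹ * a' ∈ σ.ker := by
    rw [MonoidHom.mem_ker, map_mul, map_inv, ha, inv_mul_cancel]
  have h2 : b⁻¹ * b' ∈ σ.ker := by
    rw [MonoidHom.mem_ker, map_mul, map_inv, hb, inv_mul_cancel]
  have hz : ∀ g, (a⁻¹ * a') * g = g * (a⁻¹ * a') := fun g => (Subgroup.mem_center_iff.mp (hc h1) g).symm
  have hw : ∀ g, (b⁻¹ * b') * g = g * (b⁻¹ * b') := fun g => (Subgroup.mem_center_iff.mp (hc h2) g).symm
  set z := a⁻¹ * a' with hzd
  set w := b⁻¹ * b' with hwd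
  have e1 : a' = a * z := by rw [hzd]; group
  have e2 : b' = b * w := by rw [hwd]; group
  rw [e1, e2, commutatorElement_def, commutatorElement_def]
  calc a * z * (b * w) * (a * z)⁻¹ * (b * w)⁻¹ = a * (z * b) * w * z⁻¹ * a⁻¹ * w⁻¹ * b⁻¹ := by group
    _ = a * (b * z) * w * z⁻¹ * a⁻¹ * w⁻¹ * b⁻¹ := by rw [hz b]
    _ = a * b * (z * w) * z⁻¹ * a⁻¹ * w⁻¹ * b⁻¹ := by group
    _ = a * b * (w * z) * z⁻¹ * a⁻¹ * w⁻¹ * b⁻¹ := by rw [hz w]
    _ = a * b * (w * a⁻¹) * w⁻¹ * b⁻¹ := by group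
    _ = a * b * (a⁻¹ * w) * w⁻¹ * b⁻¹ := by rw [hw a⁻¹]
    _ = _ := by group

/-- An element of a finite field for the scaling argument. -/
theorem exists_good_elt {K : Type*} [Field K] [Fintype K] (hK : 5 ≤ Fintype.card K) :
    ∃ x : K, x ≠ 0 ∧ 1 + x ≠ 0 ∧ x ^ 2 + x + 1 ≠ 0 := by
  classical
  by_contra hcon
  push Not at hcon
  let P : Polynomial K := Polynomial.X ^ 4 + 2 * Polynomial.X ^ 3 + 2 * Polynomial.X ^ 2 + Polynomial.X
  have hP : P.natDegree ≤ 4 := by
    simp only [P]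
    compute_degree
  have hc : P.coeff 4 = 1 := by
    simp only [P]
    simp [Polynomial.coeff_X, Polynomial.coeff_X_pow, Polynomial.coeff_one]
    try norm_num
  have h0 : P = 0 := by
    refine Polynomial.eq_zero_of_natDegree_lt_card_of_eval_eq_zero' P Finset.univ ?_ ?_
    · intro x _
      simp only [P, Polynomial.eval_add, Polynomial.eval_pow, Polynomial.eval_X, Polynomial.eval_mul, Polynomial.eval_ofNat]
      by_cases h1 : x = 0
      · simp [h1]
      by_cases h2 : 1 + x = 0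
      · have e : x = -1 := by linear_combination h2
        rw [e]
        ring
      have h3 := hcon x h1 h2
      linear_combination (x * (x + 1)) * h3
    · rw [Finset.card_univ]
      omega
  rw [h0] at hc
  simp at hc

/-- The scaling argument. -/
theorem ab_of_scal {K : Type*} [Field K] [Fintype K] (hK : 5 ≤ Fintype.card K) (hs : Function.Surjective σ)
    (hc : σ.ker ≤ Subgroup.center Γ) (f : K → G) (hadd : ∀ s t, f (s + t) = f s * f t)
    (hab : ∀ s t, f s * f t = f t * f s)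
    (hscal : ∀ κ : K, κ ≠ 0 → ∃ h : G, ∀ t, h * f t * h⁻¹ = f (κ * t)) {a b : Γ} {s t : K} (ha : σ a = f s)
    (hb : σ b = f t) : a * b = b * a := by
  classical
  choose l hl using fun t => hs (f t)
  let z : K → K → Γ := fun s t => ⁅l s, l t⁆
  have hzker : ∀ s t, z s t ∈ σ.ker := by
    intro s t
    rw [MonoidHom.mem_ker, map_commutatorElement, hl, hl, commutatorElement_eq_one_iff_mul_comm]
    exact hab s t
  have hzc : ∀ s t g, g * z s t = z s t * g := fun s t g => Subgroup.mem_center_iff.mp (hc (hzker s t)) g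
  have hzc' : ∀ s t g, g * ⁅l s, l t⁆ * g⁻¹ = ⁅l s, l t⁆ := by
    intro s t g
    show g * z s t * g⁻¹ = z s t
    rw [hzc s t g]
    group
  have hf0 : f 0 = 1 := by
    have := hadd 0 0
    rw [add_zero] at this
    exact mul_eq_left.mp this.symm
  have hz_eq : ∀ a b s t, σ a = f s → σ b = f t → ⁅a, b⁆ = z s t := by
    intro a b s t ha hb
    exact comm_eq_of_eq hc (by rw [hl, ha]) (by rw [hl, hb])
  have hadd1 : ∀ s s' t, z (s + s') t = z s t * z s' t := by
    intro s s' t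
    have h1 := hz_eq (l s * l s') (l t) (s + s') t (by rw [map_mul, hl, hl, hadd]) (hl t)
    rw [← h1]
    have e : ⁅l s * l s', l t⁆ = l s * ⁅l s', l t⁆ * (l s)⁻¹ * ⁅l s, l t⁆ := by
      simp only [commutatorElement_def]
      group
    rw [e]
    rw [hzc' s' t (l s)]
    exact (hzc s' t (z s t)).symm
  have hadd2 : ∀ s t t', z s (t + t') = z s t * z s t' := by
    intro s t t'
    have h1 := hz_eq (l s) (l t * l t') s (t + t') (hl s) (by rw [map_mul, hl, hl, hadd])
    rw [← h1]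
    have e : ⁅l s, l t * l t'⁆ = ⁅l s, l t⁆ * (l t * ⁅l s, l t'⁆ * (l t)⁻¹) := by
      simp only [commutatorElement_def]
      group
    rw [e]
    rw [hzc' s t' (l t)]
  have hinv : ∀ κ : K, κ ≠ 0 → ∀ s t, z (κ * s) (κ * t) = z s t := by
    intro κ hκ s t
    obtain ⟨h, hh⟩ := hscal κ hκ
    obtain ⟨γ, rfl⟩ := hs h
    have h1 := hz_eq (γ * l s * γ⁻¹) (γ * l t * γ⁻¹) (κ * s) (κ * t)
      (by rw [map_mul, map_mul, map_inv, hl, hh]) (by rw [map_mul, map_mul, map_inv, hl, hh])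
    rw [← h1]
    have e : ⁅γ * l s * γ⁻¹, γ * l t * γ⁻¹⁆ = γ * ⁅l s, l t⁆ * γ⁻¹ := by
      simp only [commutatorElement_def]
      group
    rw [e]
    exact hzc' s t γ
  have hred : ∀ s t, s ≠ 0 → z s t = z 1 (t / s) := by
    intro s t hs0
    have := hinv s hs0 1 (t / s)
    rw [mul_one, mul_div_cancel₀ _ hs0] at this
    exact this
  obtain ⟨x, hx0, hx1, hx2⟩ := exists_good_elt hK
  have hφ0 : ∀ v, z 1 ((x ^ 2 + x + 1) * v) = 1 := by
    intro v
    have h1 := hadd1 1 x (x * (1 + x) * v)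
    rw [hred (1 + x) _ hx1, hred x _ hx0] at h1
    have e1 : x * (1 + x) * v / (1 + x) = x * v := by field_simp
    have e2 : x * (1 + x) * v / x = (1 + x) * v := by field_simp
    have e3 : x * (1 + x) * v / 1 = x * (1 + x) * v := by simp
    rw [e1, e2] at h1
    have h2 : z 1 (x * (1 + x) * v) = z 1 ((x ^ 2 + x + 1) * v + x * v + -((1 + x) * v)) := by
      congr 1
      ring
    have h3 : z 1 ((1 + x) * v) * z 1 (-((1 + x) * v)) = 1 := by
      rw [← hadd2]
      have : z 1 0 = 1 := by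
        have h4 := hadd2 1 0 0
        rw [add_zero] at h4
        exact mul_eq_left.mp h4.symm
      rw [add_neg_cancel, this]
    rw [h2, hadd2, hadd2] at h1
    -- the group identity
    set A := z 1 ((x ^ 2 + x + 1) * v)
    set B := z 1 (x * v)
    set C := z 1 (-((1 + x) * v))
    set E := z 1 ((1 + x) * v)
    have h5 : B = A * B * C * E := h1
    have h6 : C * E = 1 := by
      have h8 : E * C = 1 := h3
      rw [eq_inv_of_mul_eq_one_right h8, inv_mul_cancel]
    have h7 : B = A * B := by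
      calc B = A * B * C * E := h5
        _ = A * B * (C * E) := by group
        _ = A * B := by rw [h6, mul_one]
    exact mul_eq_right.mp h7.symm
  have hφ : ∀ u, z 1 u = 1 := by
    intro u
    have := hφ0 (u / (x ^ 2 + x + 1))
    rwa [mul_div_cancel₀ _ hx2] at this
  have hall : ∀ s t, z s t = 1 := by
    intro s t
    by_cases hs0 : s = 0
    · subst hs0
      have h1 : l 0 ∈ σ.ker := by
        rw [MonoidHom.mem_ker, hl, hf0]
      show ⁅l 0, l t⁆ = 1
      rw [commutatorElement_eq_one_iff_mul_comm]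
      exact (Subgroup.mem_center_iff.mp (hc h1) (l t)).symm
    · rw [hred s t hs0, hφ]
  have h1 := hz_eq a b s t ha hb
  rw [hall, commutatorElement_eq_one_iff_mul_comm] at h1
  exact h1

/-- Commutative preimages from commutators. -/
theorem ab_of_comm (hs : Function.Surjective σ) (hc : σ.ker ≤ Subgroup.center Γ) {Xa Xb Xc : Subgroup G}
    (h1 : ∀ a b, σ a ∈ Xa → σ b ∈ Xb → a * b = b * a) (h2 : ∀ a b, σ a ∈ Xa → σ b ∈ Xc → a * b = b * a)
    (hg : ∀ x ∈ Xa, x ∈ Subgroup.closure {g | ∃ y ∈ Xb, ∃ z ∈ Xc, g = ⁅y, z⁆}) {a a' : Γ} (ha : σ a ∈ Xa)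
    (ha' : σ a' ∈ Xa) : a * a' = a' * a := by
  let C : Subgroup Γ := Subgroup.centralizer {a}
  have hmem : ∀ g : Γ, g * a = a * g → g ∈ C := by
    intro g hg
    rw [Subgroup.mem_centralizer_iff]
    intro h hh
    rw [Set.mem_singleton_iff] at hh
    rw [hh]
    exact hg.symm
  have hle : Subgroup.closure {g | ∃ y ∈ Xb, ∃ z ∈ Xc, g = ⁅y, z⁆} ≤ C.map σ := by
    rw [Subgroup.closure_le]
    rintro _ ⟨y, hy, w, hw, rfl⟩
    obtain ⟨y0, rfl⟩ := hs y
    obtain ⟨w0, rfl⟩ := hs w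
    refine ⟨⁅y0, w0⁆, ?_, map_commutatorElement σ y0 w0⟩
    have hy' := hmem y0 (h1 a y0 ha hy).symm
    have hw' := hmem w0 (h2 a w0 ha hw).symm
    rw [commutatorElement_def]
    exact Subgroup.mul_mem _ (Subgroup.mul_mem _ (Subgroup.mul_mem _ hy' hw') (Subgroup.inv_mem _ hy'))
      (Subgroup.inv_mem _ hw')
  obtain ⟨c, hcC, e⟩ := hle (hg _ ha')
  have hk : c⁻¹ * a' ∈ σ.ker := by
    rw [MonoidHom.mem_ker, map_mul, map_inv, e, inv_mul_cancel]
  have e2 : a' = c * (c⁻¹ * a') := by group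
  have h3 : c * a = a * c := by
    have := Subgroup.mem_centralizer_iff.mp hcC a (Set.mem_singleton a)
    exact this.symm
  have h4 : a * (c⁻¹ * a') = (c⁻¹ * a') * a := Subgroup.mem_center_iff.mp (hc hk) a
  rw [e2]
  calc a * (c * (c⁻¹ * a')) = (a * c) * (c⁻¹ * a') := by group
    _ = (c * a) * (c⁻¹ * a') := by rw [h3]
    _ = c * (a * (c⁻¹ * a')) := by group
    _ = c * ((c⁻¹ * a') * a) := by rw [h4]
    _ = _ := by group

/-- Commutative preimages through a conjugation. -/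
theorem ab_of_conj (hs : Function.Surjective σ) {X X' : Subgroup G} {g : G} (h : ∀ x ∈ X, g * x * g⁻¹ ∈ X')
    (hab : ∀ a b, σ a ∈ X' → σ b ∈ X' → a * b = b * a) {a b : Γ} (ha : σ a ∈ X) (hb : σ b ∈ X) : a * b = b * a := by
  obtain ⟨γ, rfl⟩ := hs g
  have key : ∀ c, σ c ∈ X → σ (γ * c * γ⁻¹) ∈ X' := by
    intro c hc
    rw [map_mul, map_mul, map_inv]
    exact h _ hc
  have h1 := hab _ _ (key a ha) (key b hb)
  have h2 : γ * (a * b) * γ⁻¹ = γ * (b * a) * γ⁻¹ := by
    calc γ * (a * b) * γ⁻¹ = (γ * a * γ⁻¹) * (γ * b * γ⁻¹) := by group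
      _ = (γ * b * γ⁻¹) * (γ * a * γ⁻¹) := h1
      _ = _ := by group
  exact mul_left_cancel (mul_right_cancel h2)

/-- Preimages of the last group of the chain and another commute. -/
theorem ChainG.comm_last [Finite G] {m : ℕ} {X : ℕ → Subgroup G} {H : Subgroup G} (C : ChainG m X H)
    (hs : Function.Surjective σ) (hc : σ.ker ≤ Subgroup.center Γ) {j k : ℕ} (hjk : j < k) (hk : k + 1 = m) {a b : Γ}
    (ha : σ a ∈ X j) (hb : σ b ∈ X k) : a * b = b * a := by
  have hkm : k < m := by omega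
  have hcm : ∀ x ∈ X j, ∀ y ∈ X k, x * y = y * x := by
    intro x hx y hy
    have h1 := C.comm j k hjk hkm x hx y hy
    have h2 : Qq X m (k + 1) = ⊥ := by
      rw [Qq, Subgroup.closure_eq_bot_iff]
      rintro a ⟨k', h3, h4, -⟩
      omega
    rw [h2, Subgroup.mem_bot, commutatorElement_eq_one_iff_mul_comm] at h1
    exact h1
  obtain ⟨h, hh, hh2⟩ := C.sep j k hjk hkm
  rcases hh2 with ⟨h1, h2⟩ | ⟨h1, h2⟩
  · exact comm_of_sep σ hs hc hcm (C.ab k hkm) (fun x hx => C.hn h hh k hkm x hx) h1 h2 ha hb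
  · exact (comm_of_sep σ hs hc (fun x hx y hy => (hcm y hy x hx).symm) (C.ab j (by omega))
      (fun x hx => C.hn h hh j (by omega) x hx) h1 h2 hb ha).symm

end Cfsg.Agent.Lib.Twisted.Mult
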