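import Cfsg.Agent.Lib.Twisted.Mult.Rank1
import Cfsg.Agent.Lib.BNPair.CoxeterExchange

/-!
# The kernel of a central extension, prime to `p`, of a group with root data

The Bruhat form in the extension, the relations of the Weyl group in `N̂/Ĥ`, so that the kernel
lies in the group generated by the elements `ĥ_i(t)`.
-/

set_option autoImplicit false
set_option linter.unusedSectionVars false

namespace Cfsg.Agent.Lib.Twisted.Mult

open Cfsg Cfsg.Agent.Lib.Chevalley Cfsg.Agent.Lib.BNPair.CoxeterExchange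
open scoped MatrixGroups commutatorElement

/-- The data of the group. -/
structure CoreD (G : Type*) [Group G] (p : ℕ) {n : ℕ} (M : CoxeterMatrix (Fin n)) (E : Fin n → Type*)
    [∀ i, Field (E i)] [∀ i, Fintype (E i)] where
  x : ∀ i, E i → G
  y : ∀ i, E i → G
  rel : ∀ i, SL2Hom.Rel (x i) (y i)
  hch : ∀ i, (p : E i) = 0
  U : Subgroup G
  hU : ∀ u ∈ U, PE p u
  hxU : ∀ i t, x i t ∈ U
  Uc : Fin n → Subgroup G
  Uc_le : ∀ i, Uc i ≤ U
  dec : ∀ i, ∀ u ∈ U, ∃ s, ∃ k ∈ Uc i, u = x i s * k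
  nx : ∀ i t, ∀ k ∈ Uc i, x i t * k * (x i t)⁻¹ ∈ Uc i
  ny : ∀ i t, ∀ k ∈ Uc i, y i t * k * (y i t)⁻¹ ∈ Uc i
  gen : Subgroup.closure ((U : Set G) ∪ {g | ∃ i t, g = y i t}) = ⊤
  N : Subgroup G
  wN : ∀ i t, t ≠ 0 → SL2Hom.w (x i) (y i) t ∈ N
  UN : ∀ n ∈ N, n ∈ U → n = 1
  dich : ∀ n ∈ N, ∀ i, (∀ t, n⁻¹ * x i t * n ∈ U) ∨ (∀ t, n⁻¹ * y i t * n ∈ U)
  π : N →* M.Group
  hπ : ∀ i t (ht : t ≠ 0), π ⟨_, wN i t ht⟩ = M.simple i
  scale : ∀ i (s : E i), s ≠ 0 → ∀ j, ∃ κ : E j, κ ≠ 0 ∧ ∀ u,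
    SL2Hom.h (x i) (y i) s * x j u * (SL2Hom.h (x i) (y i) s)⁻¹ = x j (κ * u) ∧
    SL2Hom.h (x i) (y i) s * y j u * (SL2Hom.h (x i) (y i) s)⁻¹ = y j (κ⁻¹ * u)
  braid : ∀ i j, i ≠ j → ∃ (k : Fin n) (c : E j), c ≠ 0 ∧
    alt i j (M i j) = alt i j (M i j - 1) ++ [k] ∧
    pr (fun a => SL2Hom.w (x a) (y a) 1) (alt i j (M i j - 1)) * x k 1 *
      (pr (fun a => SL2Hom.w (x a) (y a) 1) (alt i j (M i j - 1)))⁻¹ = x j c ∧
    pr (fun a => SL2Hom.w (x a) (y a) 1) (alt i j (M i j - 1)) * y k (-1) *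
      (pr (fun a => SL2Hom.w (x a) (y a) 1) (alt i j (M i j - 1)))⁻¹ = y j (-c⁻¹)

namespace CoreD

variable {G : Type*} [Group G] {p : ℕ} {n : ℕ} {M : CoxeterMatrix (Fin n)} {E : Fin n → Type*}
  [∀ i, Field (E i)] [∀ i, Fintype (E i)] (D : CoreD G p M E)
  {Γ : Type*} [Group Γ] [Finite Γ] {σ : Γ →* G} {m : ℕ} (L : PL σ p m) (hp : p.Prime)

/-- `x̂`. -/
noncomputable abbrev xh (i : Fin n) (t : E i) : Γ := lf L (D.x i) t
/-- `ŷ`. -/
noncomputable abbrev yh (i : Fin n) (t : E i) : Γ := lf L (D.y i) t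
/-- `ŵ`. -/
noncomputable abbrev wh (i : Fin n) (t : E i) : Γ := SL2Hom.w (D.xh L i) (D.yh L i) t
/-- `ĥ`. -/
noncomputable abbrev hh (i : Fin n) (t : E i) : Γ := SL2Hom.h (D.xh L i) (D.yh L i) t

include hp

theorem PEx (i : Fin n) (t : E i) : PE p (D.x i t) := fam_PE (D.hch i) (D.rel i).addx t
theorem PEy (i : Fin n) (t : E i) : PE p (D.y i t) := fam_PE (D.hch i) (D.rel i).addy t

omit hp [Finite Γ] in
theorem σ_xh (hp : p.Prime) (i : Fin n) (t : E i) : σ (D.xh L i t) = D.x i t := σ_lam L (D.PEx hp i t)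
omit hp [Finite Γ] in
theorem σ_yh (hp : p.Prime) (i : Fin n) (t : E i) : σ (D.yh L i t) = D.y i t := σ_lam L (D.PEy hp i t)

omit hp [Finite Γ] in
theorem σ_wh (hp : p.Prime) (i : Fin n) (t : E i) : σ (D.wh L i t) = SL2Hom.w (D.x i) (D.y i) t := by
  simp only [wh, SL2Hom.w, map_mul, σ_xh _ _ hp, σ_yh _ _ hp]

omit hp [Finite Γ] in
theorem σ_hh (hp : p.Prime) (i : Fin n) (t : E i) : σ (D.hh L i t) = SL2Hom.h (D.x i) (D.y i) t := by
  simp only [hh, SL2Hom.h, map_mul, σ_wh _ _ hp]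

/-- The relations for the lifts. -/
theorem relh (i : Fin n) : SL2Hom.Rel (D.xh L i) (D.yh L i) := rel_lift L hp (D.hch i) (D.rel i)

/-- The lifts of the elements of `U`. -/
noncomputable def Uh : Subgroup Γ where
  carrier := {a | ∃ u ∈ D.U, a = lam L u}
  one_mem' := ⟨1, D.U.one_mem, (lam_one L).symm⟩
  mul_mem' := by
    rintro _ _ ⟨a, ha, rfl⟩ ⟨b, hb, rfl⟩
    exact ⟨a * b, D.U.mul_mem ha hb, (lam_mul L hp D.U D.hU ha hb).symm⟩
  inv_mem' := by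
    rintro _ ⟨a, ha, rfl⟩
    exact ⟨a⁻¹, D.U.inv_mem ha, (lam_inv L (D.hU a ha)).symm⟩

/-- The group generated by the `ŵ_i(t)`. -/
noncomputable def Mh : Subgroup Γ := Subgroup.closure {a | ∃ i, ∃ t : E i, t ≠ 0 ∧ a = D.wh L i t}

/-- The group generated by the `ĥ_i(t)`. -/
noncomputable def Hh : Subgroup Γ := Subgroup.closure {a | ∃ i, ∃ t : E i, t ≠ 0 ∧ a = D.hh L i t}

omit hp [Finite Γ] in
theorem wh_mem (i : Fin n) {t : E i} (ht : t ≠ 0) : D.wh L i t ∈ D.Mh L :=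
  Subgroup.subset_closure ⟨i, t, ht, rfl⟩

omit hp [Finite Γ] in
theorem hh_mem (i : Fin n) {t : E i} (ht : t ≠ 0) : D.hh L i t ∈ D.Hh L :=
  Subgroup.subset_closure ⟨i, t, ht, rfl⟩

omit [Finite Γ] in
theorem σ_Mh {a : Γ} (ha : a ∈ D.Mh L) : σ a ∈ D.N := by
  induction ha using Subgroup.closure_induction with
  | mem x hx =>
    obtain ⟨i, t, ht, rfl⟩ := hx
    rw [σ_wh _ _ hp]
    exact D.wN i t ht
  | one => rw [map_one]; exact D.N.one_mem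
  | mul a b _ _ ha hb =>
    rw [map_mul]
    exact D.N.mul_mem ha hb
  | inv a _ ha =>
    rw [map_inv]
    exact D.N.inv_mem ha

/-- The Bruhat form. -/
def Br (g : Γ) : Prop := ∃ u ∈ D.Uh L hp, ∃ n ∈ D.Mh L, ∃ u' ∈ D.Uh L hp, g = u * n * u'

theorem xh_mem (i : Fin n) (t : E i) : D.xh L i t ∈ D.Uh L hp := ⟨_, D.hxU i t, rfl⟩

theorem conj_x {a : Γ} {i : Fin n} (h : ∀ t, (σ a)⁻¹ * D.x i t * σ a ∈ D.U) (t : E i) :
    a⁻¹ * D.xh L i t * a ∈ D.Uh L hp := by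
  have h1 := lam_conj L (D.PEx hp i t) a⁻¹
  rw [inv_inv] at h1
  rw [h1, map_inv, inv_inv]
  exact ⟨_, h t, rfl⟩

theorem conj_y {a : Γ} {i : Fin n} (h : ∀ t, (σ a)⁻¹ * D.y i t * σ a ∈ D.U) (t : E i) :
    a⁻¹ * D.yh L i t * a ∈ D.Uh L hp := by
  have h1 := lam_conj L (D.PEy hp i t) a⁻¹
  rw [inv_inv] at h1
  rw [h1, map_inv, inv_inv]
  exact ⟨_, h t, rfl⟩

theorem xh_zero (i : Fin n) : D.xh L i 0 = 1 := SL2Hom.x_zero (D.relh L hp i)
theorem yh_zero (i : Fin n) : D.yh L i 0 = 1 := SL2Hom.y_zero (D.relh L hp i)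

/-- The first case: `x_i` stays positive. -/
theorem br_case1 {i : Fin n} {a u' : Γ} (ha : a ∈ D.Mh L) (hu' : u' ∈ D.Uh L hp)
    (h : ∀ t, (σ a)⁻¹ * D.x i t * σ a ∈ D.U) (t s : E i) :
    D.Br L hp (D.yh L i t * D.xh L i s * a * u') := by
  have hR := D.relh L hp i
  by_cases ht : t = 0
  · subst ht
    rw [D.yh_zero L hp, one_mul]
    exact ⟨_, D.xh_mem L hp i s, a, ha, u', hu', rfl⟩
  have hti := inv_ne_zero ht
  have e1 : D.yh L i t = D.xh L i t⁻¹ * D.wh L i (-t⁻¹) * D.xh L i t⁻¹ := by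
    rw [wh, SL2Hom.w, inv_neg, inv_inv, neg_neg, ← SL2Hom.x_neg hR]
    group
  have e2 : D.xh L i t⁻¹ * D.xh L i s = D.xh L i (t⁻¹ + s) := hR.addx _ _
  refine ⟨D.xh L i t⁻¹, D.xh_mem L hp i _, D.wh L i (-t⁻¹) * a,
    Subgroup.mul_mem _ (D.wh_mem L i (neg_ne_zero.mpr hti)) ha,
    (a⁻¹ * D.xh L i (t⁻¹ + s) * a) * u', Subgroup.mul_mem _ (D.conj_x L hp h _) hu', ?_⟩
  rw [e1, ← e2]
  group

omit hp [Finite Γ] in
/-- `w(s)⁻¹ x(v) w(s)` is in the family `y`. -/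
theorem conj_w_x {i : Fin n} {s : E i} (hs : s ≠ 0) (v : E i) :
    (SL2Hom.w (D.x i) (D.y i) s)⁻¹ * D.x i v * SL2Hom.w (D.x i) (D.y i) s = D.y i (-(s⁻¹ * s⁻¹ * v)) := by
  have hR := D.rel i
  have hw : ∀ t, SL2Hom.hom hR (SL2Hom.Wm t) = SL2Hom.w (D.x i) (D.y i) t := by
    intro t
    simp only [SL2Hom.Wm, map_mul, SL2Hom.hom_X, SL2Hom.hom_Y, SL2Hom.w]
  have h1 := congrArg (SL2Hom.hom hR) (Wm_X (neg_ne_zero.mpr hs) v)
  simp only [map_mul, hw, SL2Hom.hom_X, SL2Hom.hom_Y] at h1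
  rw [← SL2Hom.w_inv hR] at h1
  have e : (-s)⁻¹ * (-s)⁻¹ * v = s⁻¹ * s⁻¹ * v := by
    rw [inv_neg]
    ring
  rw [h1, e]
  group

/-- The second case: `y_i` stays positive. -/
theorem br_case2 {i : Fin n} {a u' : Γ} (ha : a ∈ D.Mh L) (hu' : u' ∈ D.Uh L hp)
    (h : ∀ t, (σ a)⁻¹ * D.y i t * σ a ∈ D.U) (t s : E i) :
    D.Br L hp (D.yh L i t * D.xh L i s * a * u') := by
  have hR := D.relh L hp i
  by_cases hs : s = 0
  · subst hs
    rw [D.xh_zero L hp, mul_one]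
    refine ⟨1, Subgroup.one_mem _, a, ha, (a⁻¹ * D.yh L i t * a) * u',
      Subgroup.mul_mem _ (D.conj_y L hp h _) hu', ?_⟩
    group
  have hsi := inv_ne_zero hs
  have hw : ∀ t, SL2Hom.hom hR (SL2Hom.Wm t) = D.wh L i t := by
    intro t
    simp only [SL2Hom.Wm, map_mul, SL2Hom.hom_X, SL2Hom.hom_Y, SL2Hom.w, wh]
  have e1 : D.xh L i s = D.yh L i s⁻¹ * D.wh L i s * D.yh L i s⁻¹ := by
    have := congrArg (SL2Hom.hom hR) (X_eq_YWY hs)
    simpa only [map_mul, hw, SL2Hom.hom_X, SL2Hom.hom_Y] using this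
  have e2 : D.yh L i t * D.yh L i s⁻¹ = D.yh L i (t + s⁻¹) := hR.addy _ _
  have h2 : ∀ v, (σ (D.wh L i s * a))⁻¹ * D.x i v * σ (D.wh L i s * a) ∈ D.U := by
    intro v
    rw [map_mul, σ_wh _ _ hp]
    have e3 : (SL2Hom.w (D.x i) (D.y i) s * σ a)⁻¹ * D.x i v * (SL2Hom.w (D.x i) (D.y i) s * σ a) =
        (σ a)⁻¹ * ((SL2Hom.w (D.x i) (D.y i) s)⁻¹ * D.x i v * SL2Hom.w (D.x i) (D.y i) s) * σ a := by group
    rw [e3, D.conj_w_x hs]
    exact h _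
  have h3 := D.br_case1 L hp (Subgroup.mul_mem _ (D.wh_mem L i hs) ha)
    (Subgroup.mul_mem _ (D.conj_y L hp h s⁻¹) hu') h2 (t + s⁻¹) 0
  rw [D.xh_zero L hp, mul_one] at h3
  have e4 : D.yh L i t * D.xh L i s * a * u' = D.yh L i (t + s⁻¹) * (D.wh L i s * a) *
      (a⁻¹ * D.yh L i s⁻¹ * a * u') := by
    rw [e1, ← e2]
    group
  rw [e4]
  exact h3

/-- Multiplication by `ŷ`. -/
theorem br_y {i : Fin n} (t : E i) {g : Γ} (h : D.Br L hp g) : D.Br L hp (D.yh L i t * g) := by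
  obtain ⟨u, ⟨v, hv, rfl⟩, a, ha, u', hu', rfl⟩ := h
  obtain ⟨s, k, hk, rfl⟩ := D.dec i v hv
  have hkU := D.Uc_le i hk
  have e1 : lam L (D.x i s * k) = D.xh L i s * lam L k :=
    lam_mul L hp D.U D.hU (D.hxU i s) hkU
  set b := D.yh L i t * D.xh L i s with hb
  have hσb : σ b = D.y i t * D.x i s := by
    rw [hb, map_mul, σ_yh _ _ hp, σ_xh _ _ hp]
  have h2 : b * lam L k * b⁻¹ ∈ D.Uh L hp := by
    rw [lam_conj L (D.hU k hkU), hσb]
    refine ⟨_, D.Uc_le i ?_, rfl⟩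
    have e : D.y i t * D.x i s * k * (D.y i t * D.x i s)⁻¹ =
        D.y i t * (D.x i s * k * (D.x i s)⁻¹) * (D.y i t)⁻¹ := by group
    rw [e]
    exact D.ny i t _ (D.nx i s _ hk)
  have h3 : D.Br L hp (b * a * u') := by
    rcases D.dich _ (D.σ_Mh L hp ha) i with h4 | h4
    · exact D.br_case1 L hp ha hu' h4 t s
    · exact D.br_case2 L hp ha hu' h4 t s
  obtain ⟨w₁, hw₁, a₁, ha₁, w₂, hw₂, e3⟩ := h3
  refine ⟨(b * lam L k * b⁻¹) * w₁, Subgroup.mul_mem _ h2 hw₁, a₁, ha₁, w₂, hw₂, ?_⟩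
  have e4 : D.yh L i t * (lam L (D.x i s * k) * a * u') = (b * lam L k * b⁻¹) * (b * a * u') := by
    rw [e1, hb]
    group
  rw [e4, e3]
  group

/-- The generators of the group. -/
noncomputable def Gh : Subgroup Γ :=
  Subgroup.closure ((D.Uh L hp : Set Γ) ∪ {a | ∃ i, ∃ t : E i, a = D.yh L i t})

theorem br_Gh {g : Γ} (hg : g ∈ D.Gh L hp) : D.Br L hp g := by
  have hone : D.Br L hp 1 :=
    ⟨1, Subgroup.one_mem _, 1, Subgroup.one_mem _, 1, Subgroup.one_mem _, by simp⟩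
  have hU : ∀ a ∈ D.Uh L hp, ∀ b, D.Br L hp b → D.Br L hp (a * b) := by
    rintro a ha b ⟨u, hu, c, hc, u', hu', rfl⟩
    exact ⟨a * u, Subgroup.mul_mem _ ha hu, c, hc, u', hu', by group⟩
  have hstep : ∀ a ∈ ((D.Uh L hp : Set Γ) ∪ {a | ∃ i, ∃ t : E i, a = D.yh L i t}), ∀ b, D.Br L hp b →
      D.Br L hp (a * b) ∧ D.Br L hp (a⁻¹ * b) := by
    rintro a (ha | ⟨i, t, rfl⟩) b hb
    · exact ⟨hU a ha b hb, hU _ (Subgroup.inv_mem _ ha) b hb⟩
    · refine ⟨D.br_y L hp t hb, ?_⟩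
      rw [SL2Hom.y_neg (D.relh L hp i)]
      exact D.br_y L hp _ hb
  exact Subgroup.closure_induction_left (p := fun g _ => D.Br L hp g) hone
    (fun x hx y _ hy => (hstep x hx y hy).1) (fun x hx y _ hy => (hstep x hx y hy).2) hg

/-- The lifts generate the group up to the kernel. -/
theorem exists_Gh (γ : Γ) : ∃ g ∈ D.Gh L hp, σ g = σ γ := by
  have h1 : σ γ ∈ (D.Gh L hp).map σ := by
    have h2 : Subgroup.closure ((D.U : Set G) ∪ {g | ∃ i t, g = D.y i t}) ≤ (D.Gh L hp).map σ := by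
      rw [Subgroup.closure_le]
      rintro g (hg | ⟨i, t, rfl⟩)
      · exact ⟨lam L g, Subgroup.subset_closure (Or.inl ⟨g, hg, rfl⟩), σ_lam L (D.hU g hg)⟩
      · exact ⟨D.yh L i t, Subgroup.subset_closure (Or.inr ⟨i, t, rfl⟩), σ_yh _ _ hp i t⟩
    rw [D.gen] at h2
    exact h2 (Subgroup.mem_top _)
  obtain ⟨g, hg, e⟩ := h1
  exact ⟨g, hg, e⟩

theorem comm_le : commutator Γ ≤ D.Gh L hp := by
  rw [commutator_def, Subgroup.commutator_le]
  intro a _ b _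
  obtain ⟨g, hg, e⟩ := D.exists_Gh L hp a
  obtain ⟨g', hg', e'⟩ := D.exists_Gh L hp b
  have h1 : g⁻¹ * a ∈ Subgroup.center Γ := L.cent (by
    rw [MonoidHom.mem_ker, map_mul, map_inv, e, inv_mul_cancel])
  have h2 : g'⁻¹ * b ∈ Subgroup.center Γ := L.cent (by
    rw [MonoidHom.mem_ker, map_mul, map_inv, e', inv_mul_cancel])
  have e1 : a = g * (g⁻¹ * a) := by group
  have e2 : b = g' * (g'⁻¹ * b) := by group
  generalize g⁻¹ * a = z₁ at h1 e1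
  generalize g'⁻¹ * b = z₂ at h2 e2
  subst e1 e2
  have hz₁ := Subgroup.mem_center_iff.mp h1
  have hz₂ := Subgroup.mem_center_iff.mp h2
  have e3 : ⁅g * z₁, g' * z₂⁆ = ⁅g, g'⁆ := by
    rw [commutatorElement_def, commutatorElement_def]
    have h5 : ∀ c, c * z₁ = z₁ * c := fun c => hz₁ c
    have h6 : ∀ c, c * z₂ = z₂ * c := fun c => hz₂ c
    have h7 : ∀ c, c * z₁⁻¹ = z₁⁻¹ * c := fun c => by
      rw [eq_inv_mul_iff_mul_eq, ← mul_assoc, ← h5, mul_assoc, mul_inv_cancel, mul_one]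
    have h8 : ∀ c, c * z₂⁻¹ = z₂⁻¹ * c := fun c => by
      rw [eq_inv_mul_iff_mul_eq, ← mul_assoc, ← h6, mul_assoc, mul_inv_cancel, mul_one]
    calc g * z₁ * (g' * z₂) * (g * z₁)⁻¹ * (g' * z₂)⁻¹
        = g * (z₁ * g') * z₂ * (z₁⁻¹ * g⁻¹) * (z₂⁻¹ * g'⁻¹) := by group
      _ = g * (g' * z₁) * z₂ * (g⁻¹ * z₁⁻¹) * (g'⁻¹ * z₂⁻¹) := by
          rw [← hz₁ g', h7 g⁻¹, h8 g'⁻¹]
      _ = g * g' * (z₁ * (z₂ * g⁻¹)) * z₁⁻¹ * g'⁻¹ * z₂⁻¹ := by group
      _ = g * g' * (z₁ * (g⁻¹ * z₂)) * z₁⁻¹ * g'⁻¹ * z₂⁻¹ := by rw [h6 g⁻¹]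
      _ = g * g' * (z₁ * g⁻¹) * (z₂ * z₁⁻¹) * g'⁻¹ * z₂⁻¹ := by group
      _ = g * g' * (g⁻¹ * z₁) * (z₁⁻¹ * z₂) * g'⁻¹ * z₂⁻¹ := by
          rw [← h5 g⁻¹, ← h7 z₂]
      _ = g * g' * g⁻¹ * (z₂ * g'⁻¹) * z₂⁻¹ := by group
      _ = g * g' * g⁻¹ * (g'⁻¹ * z₂) * z₂⁻¹ := by rw [h6 g'⁻¹]
      _ = _ := by group
  rw [e3]
  exact Subgroup.mul_mem _ (Subgroup.mul_mem _ (Subgroup.mul_mem _ hg hg') (Subgroup.inv_mem _ hg))
    (Subgroup.inv_mem _ hg')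

/-- The kernel lies in the group generated by the `ŵ_i(t)`. -/
theorem ker_le_Mh (hk : σ.ker ≤ commutator Γ) : σ.ker ≤ D.Mh L := by
  intro z hz
  obtain ⟨u, ⟨a, ha, rfl⟩, c, hc, u', ⟨b, hb, rfl⟩, e⟩ := D.br_Gh L hp (D.comm_le L hp (hk hz))
  have hza : σ z = 1 := hz
  have h1 : σ (lam L a * c * lam L b) = 1 := by rw [← e, hza]
  rw [map_mul, map_mul, σ_lam L (D.hU a ha), σ_lam L (D.hU b hb)] at h1
  have h2 : σ c = a⁻¹ * b⁻¹ := by
    have h3 : a * σ c = b⁻¹ := eq_inv_of_mul_eq_one_left h1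
    rw [← h3]
    group
  have h3 : σ c = 1 := D.UN _ (D.σ_Mh L hp hc) (by
    rw [h2]
    exact D.U.mul_mem (D.U.inv_mem ha) (D.U.inv_mem hb))
  rw [h3, mul_one] at h1
  have h4 : b = a⁻¹ := eq_inv_of_mul_eq_one_right h1
  rw [h4, lam_inv L (D.hU a ha)] at e
  have h5 : c = (lam L a)⁻¹ * z * lam L a := by
    rw [e]
    group
  have hzc := Subgroup.mem_center_iff.mp (L.cent hz)
  have h6 : c = z := by
    rw [h5, mul_assoc, ← hzc, ← mul_assoc, inv_mul_cancel, one_mul]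
  rw [← h6]
  exact hc

omit hp [Finite Γ] in
theorem hh_scale (hp : p.Prime) (i : Fin n) {s : E i} (hs : s ≠ 0) (j : Fin n) : ∃ κ : E j, κ ≠ 0 ∧ ∀ u,
    D.hh L i s * D.xh L j u * (D.hh L i s)⁻¹ = D.xh L j (κ * u) ∧
    D.hh L i s * D.yh L j u * (D.hh L i s)⁻¹ = D.yh L j (κ⁻¹ * u) := by
  obtain ⟨κ, h0, h⟩ := D.scale i s hs j
  refine ⟨κ, h0, fun u => ⟨?_, ?_⟩⟩
  · rw [xh, lf, lam_conj L (D.PEx hp j u), σ_hh _ _ hp, (h u).1]
  · rw [yh, lf, lam_conj L (D.PEy hp j u), σ_hh _ _ hp, (h u).2]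

omit hp [Finite Γ] in
theorem conj_wh_of {β : Γ} {j : Fin n} {κ : E j} (h0 : κ ≠ 0)
    (h : ∀ u, β * D.xh L j u * β⁻¹ = D.xh L j (κ * u) ∧ β * D.yh L j u * β⁻¹ = D.yh L j (κ⁻¹ * u)) (v : E j) :
    β * D.wh L j v * β⁻¹ = D.wh L j (κ * v) := by
  have e : β * D.wh L j v * β⁻¹ = (β * D.xh L j v * β⁻¹) * (β * D.yh L j (-v⁻¹) * β⁻¹) *
      (β * D.xh L j v * β⁻¹) := by
    simp only [wh, SL2Hom.w]
    group
  rw [e, (h v).1, (h _).2]
  simp only [wh, SL2Hom.w]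
  rw [mul_inv, mul_neg]

theorem wh_inv (i : Fin n) (t : E i) : (D.wh L i t)⁻¹ = D.wh L i (-t) := SL2Hom.w_inv (D.relh L hp i) t

theorem wh_mul_wh (i : Fin n) {a b : E i} (ha : a ≠ 0) (hb : b ≠ 0) :
    D.wh L i a * D.wh L i (-b) = D.hh L i (a * b⁻¹) := by
  have hR := D.relh L hp i
  have hw : ∀ t, SL2Hom.hom hR (SL2Hom.Wm t) = D.wh L i t := by
    intro t
    simp only [SL2Hom.Wm, map_mul, SL2Hom.hom_X, SL2Hom.hom_Y, SL2Hom.w, wh]
  have hH : ∀ t, SL2Hom.hom hR (H2 t) = D.hh L i t := by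
    intro t
    rw [H2, map_mul, hw, hw, hh, SL2Hom.h]
  rw [← hw, ← hw, ← hH, ← map_mul, Wm_mul_Wm ha hb]

theorem hh_eq (i : Fin n) (t : E i) : D.hh L i t = D.wh L i t * (D.wh L i 1)⁻¹ := by
  rw [D.wh_inv L hp, hh, SL2Hom.h]

theorem conj_hh_mem (i : Fin n) {s : E i} (hs : s ≠ 0) (j : Fin n) {t : E j} (ht : t ≠ 0) :
    D.wh L i s * D.hh L j t * (D.wh L i s)⁻¹ ∈ D.Hh L := by
  obtain ⟨κ, h0, h⟩ := D.hh_scale L hp j ht i
  have h1 := D.conj_wh_of L h0 h (-s)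
  have e : D.wh L i s * D.hh L j t * (D.wh L i s)⁻¹ =
      (D.wh L i s * (D.hh L j t * D.wh L i (-s) * (D.hh L j t)⁻¹)) * D.hh L j t := by
    rw [D.wh_inv L hp]
    group
  rw [e, h1, mul_neg, D.wh_mul_wh L hp i hs (mul_ne_zero h0 hs)]
  exact Subgroup.mul_mem _ (D.hh_mem L i (mul_ne_zero hs (inv_ne_zero (mul_ne_zero h0 hs)))) (D.hh_mem L j ht)

theorem gen_conj_Hh (i : Fin n) {s : E i} (hs : s ≠ 0) {a : Γ} (ha : a ∈ D.Hh L) :
    D.wh L i s * a * (D.wh L i s)⁻¹ ∈ D.Hh L := by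
  induction ha using Subgroup.closure_induction with
  | mem x hx =>
    obtain ⟨j, t, ht, rfl⟩ := hx
    exact D.conj_hh_mem L hp i hs j ht
  | one => simp [Subgroup.one_mem]
  | mul a b _ _ ha hb =>
    have e : D.wh L i s * (a * b) * (D.wh L i s)⁻¹ =
        (D.wh L i s * a * (D.wh L i s)⁻¹) * (D.wh L i s * b * (D.wh L i s)⁻¹) := by group
    rw [e]
    exact Subgroup.mul_mem _ ha hb
  | inv a _ ha =>
    have e : D.wh L i s * a⁻¹ * (D.wh L i s)⁻¹ = (D.wh L i s * a * (D.wh L i s)⁻¹)⁻¹ := by group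
    rw [e]
    exact Subgroup.inv_mem _ ha

theorem Hh_norm {γ : Γ} (hγ : γ ∈ D.Mh L) : (∀ a ∈ D.Hh L, γ * a * γ⁻¹ ∈ D.Hh L) ∧
    ∀ a ∈ D.Hh L, γ⁻¹ * a * γ ∈ D.Hh L := by
  induction hγ using Subgroup.closure_induction with
  | mem x hx =>
    obtain ⟨i, s, hs, rfl⟩ := hx
    refine ⟨fun a ha => D.gen_conj_Hh L hp i hs ha, fun a ha => ?_⟩
    have := D.gen_conj_Hh L hp i (neg_ne_zero.mpr hs) ha
    rw [← D.wh_inv L hp, inv_inv] at this
    exact this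
  | one => exact ⟨fun a ha => by simpa using ha, fun a ha => by simpa using ha⟩
  | mul x y _ _ hx hy =>
    refine ⟨fun a ha => ?_, fun a ha => ?_⟩
    · have e : x * y * a * (x * y)⁻¹ = x * (y * a * y⁻¹) * x⁻¹ := by group
      rw [e]
      exact hx.1 _ (hy.1 a ha)
    · have e : (x * y)⁻¹ * a * (x * y) = y⁻¹ * (x⁻¹ * a * x) * y := by group
      rw [e]
      exact hy.2 _ (hx.2 a ha)
  | inv x _ hx =>
    refine ⟨fun a ha => ?_, fun a ha => ?_⟩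
    · rw [inv_inv]
      exact hx.2 a ha
    · rw [inv_inv]
      exact hx.1 a ha

theorem Hh_le_Mh : D.Hh L ≤ D.Mh L := by
  rw [Hh, Subgroup.closure_le]
  rintro _ ⟨i, t, ht, rfl⟩
  rw [D.hh_eq L hp]
  exact Subgroup.mul_mem _ (D.wh_mem L i ht) (Subgroup.inv_mem _ (D.wh_mem L i one_ne_zero))

theorem hh_comm (i j : Fin n) {s : E i} {t : E j} (hs : s ≠ 0) (ht : t ≠ 0) :
    Commute (D.hh L i s) (D.hh L j t) := by
  obtain ⟨κ, h0, h⟩ := D.hh_scale L hp i hs j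
  have h1 := D.conj_wh_of L h0 h t
  have h2 := D.conj_wh_of L h0 h (-1)
  have e : D.hh L i s * D.hh L j t * (D.hh L i s)⁻¹ = D.hh L j t := by
    have e1 : D.hh L i s * D.hh L j t * (D.hh L i s)⁻¹ =
        (D.hh L i s * D.wh L j t * (D.hh L i s)⁻¹) * (D.hh L i s * D.wh L j (-1) * (D.hh L i s)⁻¹) := by
      rw [show D.hh L j t = D.wh L j t * D.wh L j (-1) from rfl]
      group
    rw [e1, h1, h2, mul_neg, mul_one, D.wh_mul_wh L hp j (mul_ne_zero h0 ht) h0]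
    congr 1
    field_simp
  exact mul_inv_eq_iff_eq_mul.mp e

/-- The subgroup `Ĥ` in `N̂`. -/
noncomputable abbrev HM : Subgroup ↥(D.Mh L) := (D.Hh L).subgroupOf (D.Mh L)

theorem HM_normal : (D.HM L).Normal := by
  constructor
  rintro ⟨a, ha⟩ h1 ⟨g, hg⟩
  rw [Subgroup.mem_subgroupOf] at h1 ⊢
  exact (D.Hh_norm L hp hg).1 a h1

/-- The image of `ŵ_i(1)` in the quotient. -/
noncomputable def gQ (hN : (D.HM L).Normal) (i : Fin n) : ↥(D.Mh L) ⧸ D.HM L :=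
  QuotientGroup.mk ⟨D.wh L i 1, D.wh_mem L i one_ne_zero⟩

theorem gQ_eq (hN : (D.HM L).Normal) (i : Fin n) {t : E i} (ht : t ≠ 0) :
    (QuotientGroup.mk ⟨D.wh L i t, D.wh_mem L i ht⟩ : ↥(D.Mh L) ⧸ D.HM L) = D.gQ L hN i := by
  rw [gQ, QuotientGroup.eq_iff_div_mem, Subgroup.mem_subgroupOf]
  rw [Subgroup.coe_div, div_eq_mul_inv]
  show D.wh L i t * (D.wh L i 1)⁻¹ ∈ D.Hh L
  rw [← D.hh_eq L hp]
  exact D.hh_mem L i ht

theorem gQ_sq (hN : (D.HM L).Normal) (i : Fin n) : D.gQ L hN i * D.gQ L hN i = 1 := by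
  rw [gQ, ← QuotientGroup.mk_mul, QuotientGroup.eq_one_iff, Subgroup.mem_subgroupOf]
  show D.wh L i 1 * D.wh L i 1 ∈ D.Hh L
  have h1 := D.hh_mem L i (t := (-1 : E i)) (neg_ne_zero.mpr one_ne_zero)
  have h2 : D.hh L i (-1) = (D.wh L i 1 * D.wh L i 1)⁻¹ := by
    have e := D.wh_inv L hp i 1
    show D.wh L i (-1) * D.wh L i (-1) = _
    rw [← e]
    group
  rw [h2] at h1
  simpa using Subgroup.inv_mem _ h1

/-- Products of the `ŵ_i(1)`. -/
noncomputable abbrev Pw (l : List (Fin n)) : Γ := pr (fun a => D.wh L a 1) l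

omit hp [Finite Γ] in
theorem Pw_mem (l : List (Fin n)) : D.Pw L l ∈ D.Mh L := by
  induction l with
  | nil => exact Subgroup.one_mem _
  | cons a l ih =>
    rw [Pw, pr_cons]
    exact Subgroup.mul_mem _ (D.wh_mem L a one_ne_zero) ih

omit hp [Finite Γ] in
theorem σ_Pw (hp : p.Prime) (l : List (Fin n)) :
    σ (D.Pw L l) = pr (fun a => SL2Hom.w (D.x a) (D.y a) 1) l := by
  induction l with
  | nil => simp [Pw]
  | cons a l ih =>
    rw [Pw, pr_cons, pr_cons, map_mul, σ_wh _ _ hp]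
    rw [← ih]

theorem mk_Pw (hN : (D.HM L).Normal) (l : List (Fin n)) :
    (QuotientGroup.mk ⟨D.Pw L l, D.Pw_mem L l⟩ : ↥(D.Mh L) ⧸ D.HM L) = pr (D.gQ L hN) l := by
  induction l with
  | nil => rfl
  | cons a l ih =>
    rw [pr_cons, ← ih, gQ, ← QuotientGroup.mk_mul]
    congr 1

/-- The relations of the Weyl group. -/
theorem gQ_lift (hN : (D.HM L).Normal) : M.IsLiftable (D.gQ L hN) := by
  intro i j
  by_cases hij : i = j
  · subst hij
    rw [M.diagonal i, pow_one, D.gQ_sq L hp hN]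
  obtain ⟨k, c, hc, h1, h2, h3⟩ := D.braid i j hij
  set m' := M i j with hm'
  have hlen : m' ≠ 0 := by
    intro h0
    have := congrArg List.length h1
    simp [h0] at this
  have e0 : m' = (m' - 1) + 1 := by omega
  set P := D.Pw L (alt i j (m' - 1)) with hP
  have hσ : σ P = pr (fun a => SL2Hom.w (D.x a) (D.y a) 1) (alt i j (m' - 1)) := D.σ_Pw L hp _
  have h4 : P * D.wh L k 1 * P⁻¹ = D.wh L j c := by
    have e : P * D.wh L k 1 * P⁻¹ = (P * D.xh L k 1 * P⁻¹) * (P * D.yh L k (-1) * P⁻¹) * (P * D.xh L k 1 * P⁻¹) := by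
      simp only [wh, SL2Hom.w, inv_one]
      group
    rw [e, xh, lf, lam_conj L (D.PEx hp k 1), yh, lf, lam_conj L (D.PEy hp k (-1)), hσ, h2, h3]
    rfl
  have h5 : (QuotientGroup.mk ⟨P, D.Pw_mem L _⟩ : ↥(D.Mh L) ⧸ D.HM L) * D.gQ L hN k =
      D.gQ L hN j * QuotientGroup.mk ⟨P, D.Pw_mem L _⟩ := by
    rw [← D.gQ_eq L hp hN j hc, gQ, ← QuotientGroup.mk_mul, ← QuotientGroup.mk_mul]
    congr 1
    apply Subtype.ext
    rw [Subgroup.coe_mul, Subgroup.coe_mul]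
    show P * D.wh L k 1 = D.wh L j c * P
    rw [← h4]
    group
  rw [D.mk_Pw L hp hN] at h5
  have h6 : pr (D.gQ L hN) (alt i j m') = pr (D.gQ L hN) (alt j i m') := by
    have e1 : alt j i m' = j :: alt i j (m' - 1) := by
      conv_lhs => rw [e0]
      rfl
    rw [h1, e1, pr_append, pr_singleton, pr_cons]
    exact h5
  have h7 := pr_alt_eq (D.gQ L hN) (D.gQ_sq L hp hN) i j m'
  rw [h6] at h7
  exact mul_eq_right.mp h7.symm

/-- The image of `N̂` in the Weyl group, followed by the relations. -/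
theorem T_eq (hN : (D.HM L).Normal) {a : Γ} (ha : a ∈ D.Mh L) :
    M.toCoxeterSystem.lift ⟨D.gQ L hN, D.gQ_lift L hp hN⟩ (D.π ⟨σ a, D.σ_Mh L hp ha⟩) = QuotientGroup.mk ⟨a, ha⟩ := by
  induction ha using Subgroup.closure_induction with
  | mem x hx =>
    obtain ⟨i, t, ht, rfl⟩ := hx
    have e : (⟨σ (D.wh L i t), D.σ_Mh L hp (D.wh_mem L i ht)⟩ : ↥D.N) = ⟨_, D.wN i t ht⟩ :=
      Subtype.ext (σ_wh _ _ hp i t)
    rw [e, D.hπ i t ht]
    have h1 : M.simple i = (M.toCoxeterSystem.simple i) := rfl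
    rw [h1, M.toCoxeterSystem.lift_apply_simple]
    exact (D.gQ_eq L hp hN i ht).symm
  | one =>
    have e : (⟨σ 1, D.σ_Mh L hp (Subgroup.one_mem _)⟩ : ↥D.N) = 1 := Subtype.ext (map_one σ)
    rw [e, map_one, map_one]
    rfl
  | mul x y hx hy ihx ihy =>
    have e : (⟨σ (x * y), D.σ_Mh L hp (Subgroup.mul_mem _ hx hy)⟩ : ↥D.N) =
        ⟨σ x, D.σ_Mh L hp hx⟩ * ⟨σ y, D.σ_Mh L hp hy⟩ := Subtype.ext (map_mul σ x y)
    rw [e, map_mul, map_mul, ihx, ihy, ← QuotientGroup.mk_mul]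
    rfl
  | inv x hx ihx =>
    have e : (⟨σ x⁻¹, D.σ_Mh L hp (Subgroup.inv_mem _ hx)⟩ : ↥D.N) = ⟨σ x, D.σ_Mh L hp hx⟩⁻¹ :=
      Subtype.ext (map_inv σ x)
    rw [e, map_inv, map_inv, ihx, ← QuotientGroup.mk_inv]
    rfl

/-- The kernel lies in `Ĥ`. -/
theorem ker_le_Hh (hk : σ.ker ≤ commutator Γ) : σ.ker ≤ D.Hh L := by
  intro z hz
  have hN := D.HM_normal L hp
  have hM := D.ker_le_Mh L hp hk hz
  have h1 := D.T_eq L hp hN hM
  have e : (⟨σ z, D.σ_Mh L hp hM⟩ : ↥D.N) = 1 := Subtype.ext hz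
  rw [e, map_one, map_one] at h1
  have h2 := (QuotientGroup.eq_one_iff _).1 h1.symm
  exact Subgroup.mem_subgroupOf.1 h2

/-! ### The map from the parameters -/

omit hp [Finite Γ] in
theorem list_prod_mul' {ι : Type*} (l : List ι) (a b : ι → Γ) (hc : ∀ i j, Commute (b i) (a j)) :
    (l.map fun i => a i * b i).prod = (l.map a).prod * (l.map b).prod := by
  induction l with
  | nil => simp
  | cons i l ih =>
    simp only [List.map_cons, List.prod_cons]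
    rw [ih]
    have h1 : Commute (b i) (l.map a).prod := Commute.list_prod_right _ _ (by
      intro x hx
      obtain ⟨j, _, rfl⟩ := List.mem_map.1 hx
      exact hc i j)
    calc a i * b i * ((l.map a).prod * (l.map b).prod) = a i * (b i * (l.map a).prod) * (l.map b).prod := by group
      _ = a i * ((l.map a).prod * b i) * (l.map b).prod := by rw [h1.eq]
      _ = _ := by group

omit hp [Finite Γ] in
theorem prod_single {ι M' : Type*} [Monoid M'] [DecidableEq ι] (l : List ι) (hl : l.Nodup) {i : ι} (hi : i ∈ l)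
    (f : ι → M') (hf : ∀ j ∈ l, j ≠ i → f j = 1) : (l.map f).prod = f i := by
  induction l with
  | nil => simp at hi
  | cons a l ih =>
    rw [List.nodup_cons] at hl
    simp only [List.map_cons, List.prod_cons]
    by_cases h : a = i
    · subst h
      have : (l.map f).prod = 1 := List.prod_eq_one (by
        intro x hx
        obtain ⟨j, hj, rfl⟩ := List.mem_map.1 hx
        exact hf j (by simp [hj]) (fun e => hl.1 (e ▸ hj)))
      rw [this, mul_one]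
    · rw [hf a (by simp) h, one_mul]
      exact ih hl.2 ((List.mem_cons.1 hi).resolve_left (Ne.symm h)) (fun j hj => hf j (by simp [hj]))

/-- The map from the parameters to `Ĥ`. -/
noncomputable def Φh : (∀ i, (E i)ˣ) →* Γ where
  toFun t := ((List.finRange n).map fun i => D.hh L i (t i : E i)).prod
  map_one' := by
    show ((List.finRange n).map fun i => D.hh L i ((1 : ∀ i, (E i)ˣ) i : E i)).prod = 1
    apply List.prod_eq_one
    intro x hx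
    obtain ⟨j, -, rfl⟩ := List.mem_map.1 hx
    exact SL2Hom.h_one (D.relh L hp j)
  map_mul' t t' := by
    show ((List.finRange n).map fun i => D.hh L i ((t * t') i : E i)).prod = _
    rw [show ((List.finRange n).map fun i => D.hh L i (t i : E i)).prod *
      ((List.finRange n).map fun i => D.hh L i (t' i : E i)).prod = _ from (list_prod_mul' _ _ _ (by
        intro i j
        exact D.hh_comm L hp i j (Units.ne_zero _) (Units.ne_zero _))).symm]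
    · congr 1
      apply List.map_congr_left
      intro i _
      rw [Pi.mul_apply, Units.val_mul, (D.relh L hp i).hmul _ _ (Units.ne_zero _) (Units.ne_zero _)]

theorem Φh_apply (t : ∀ i, (E i)ˣ) :
    D.Φh L hp t = ((List.finRange n).map fun i => D.hh L i (t i : E i)).prod := rfl

theorem σ_Φh (t : ∀ i, (E i)ˣ) :
    σ (D.Φh L hp t) = ((List.finRange n).map fun i => SL2Hom.h (D.x i) (D.y i) (t i : E i)).prod := by
  rw [Φh_apply, map_list_prod, List.map_map]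
  congr 1
  apply List.map_congr_left
  intro i _
  exact σ_hh _ _ hp i _

theorem Hh_le_range : D.Hh L ≤ (D.Φh L hp).range := by
  classical
  rw [Hh, Subgroup.closure_le]
  rintro _ ⟨i, t, ht, rfl⟩
  refine ⟨Function.update 1 i (Units.mk0 t ht), ?_⟩
  rw [Φh_apply, prod_single _ (List.nodup_finRange n) (List.mem_finRange i)]
  · simp
  · intro j _ hj
    rw [Function.update_of_ne hj]
    exact SL2Hom.h_one (D.relh L hp j)

/-- The main theorem. -/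
theorem main (hk : σ.ker ≤ commutator Γ) : σ.ker ≤ (D.Φh L hp).range :=
  (D.ker_le_Hh L hp hk).trans (D.Hh_le_range L hp)

end CoreD

end Cfsg.Agent.Lib.Twisted.Mult
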