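import Cfsg.Agent.Lib.Twisted.Mult.D4Tor

/-!
# `³D₄(q)`: commutativity of the preimages of the root groups
-/

set_option autoImplicit false
set_option maxRecDepth 1000000

namespace Cfsg.Agent.Lib.Twisted.D4

open Cfsg.Lie Cfsg.Agent.Lib.Chevalley.Reflect
open Cfsg.Agent.Lib.Chevalley.Tbl.D4 (cols colOK sys comm)
open Cfsg.Agent.Lib.ChevBN.Elem Cfsg.Agent.Lib.ChevBN.Table Cfsg.Agent.Lib.ChevBN.Opp
open Cfsg.Agent.Lib.ChevBN.FastData (tbl_chevD4)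
open Cfsg.Agent.Lib.Twisted.Mult Cfsg.Agent.Lib.BNPair.CoxeterExchange
open Cfsg.Agent.Lib.Chevalley
open scoped commutatorElement

universe u

variable {K : Type u} [Field K]

section
variable [Fintype K] {q : ℕ} {φ : K →+* K} (hφ : ∀ t, φ t = t ^ q)

include hφ in
theorem norm_eq (t : K) : t * φ t * φ (φ t) = t ^ (q ^ 2 + q + 1) := by
  rw [hφ, hφ, ← pow_mul, pow_add, pow_add, pow_one, ← sq]
  ring

variable (hK : Fintype.card K = q ^ 3) (hq : 2 ≤ q)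
include hφ hK hq

theorem exists_generator' : ∃ g : Kˣ, orderOf g = q ^ 3 - 1 ∧ ∀ x : Kˣ, x ∈ Subgroup.zpowers g := by
  obtain ⟨g, hg⟩ := IsCyclic.exists_generator (α := Kˣ)
  refine ⟨g, ?_, hg⟩
  rw [orderOf_eq_card_of_forall_mem_zpowers hg, Nat.card_units, Nat.card_eq_fintype_card, hK]

/-- The third family exists. -/
theorem exists_u : ∃ u : K, u ≠ 0 ∧ u * φ u * φ (φ u) = 1 ∧ u ^ 2 ≠ 1 := by
  obtain ⟨g, ho, -⟩ := exists_generator' hφ hK hq
  obtain ⟨k, rfl⟩ : ∃ k, q = k + 1 := ⟨q - 1, by omega⟩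
  have hk : 1 ≤ k := by omega
  have e : (k + 1) ^ 3 - 1 = k * ((k + 1) ^ 2 + (k + 1) + 1) := by
    rw [Nat.sub_eq_iff_eq_add (Nat.one_le_pow _ _ (by omega))]
    ring
  refine ⟨((g ^ k : Kˣ) : K), Units.ne_zero _, ?_, ?_⟩
  · rw [norm_eq hφ]
    have h1 : g ^ k ^ 1 = g ^ k := by rw [pow_one]
    have h2 : ((g ^ k) ^ ((k + 1) ^ 2 + (k + 1) + 1)) = 1 := by
      rw [← pow_mul, ← e, ← ho, pow_orderOf_eq_one]
    have h3 := congrArg (fun x : Kˣ => (x : K)) h2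
    simpa using h3
  · intro h
    have h2 : (g ^ (k * 2)) = 1 := by
      apply Units.ext
      rw [pow_mul]
      simpa using h
    have h3 := orderOf_dvd_of_pow_eq_one h2
    rw [ho, e] at h3
    have h4 := Nat.le_of_dvd (by omega) h3
    have h5 := Nat.le_of_mul_le_mul_left h4 (by omega)
    nlinarith

/-- The element with a norm different from one. -/
theorem exists_g (hq3 : 3 ≤ q) : ∃ g : K, g ≠ 0 ∧ g * φ g * φ (φ g) ≠ 1 := by
  obtain ⟨g, ho, -⟩ := exists_generator' hφ hK hq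
  obtain ⟨k, rfl⟩ : ∃ k, q = k + 1 := ⟨q - 1, by omega⟩
  have hk : 2 ≤ k := by omega
  have e : (k + 1) ^ 3 - 1 = k * ((k + 1) ^ 2 + (k + 1) + 1) := by
    rw [Nat.sub_eq_iff_eq_add (Nat.one_le_pow _ _ (by omega))]
    ring
  refine ⟨(g : K), Units.ne_zero _, ?_⟩
  rw [norm_eq hφ]
  intro h
  have h2 : g ^ ((k + 1) ^ 2 + (k + 1) + 1) = 1 := by
    apply Units.ext
    simpa using h
  have h3 := orderOf_dvd_of_pow_eq_one h2
  rw [ho, e] at h3
  have h4 := Nat.le_of_dvd (by positivity) h3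
  nlinarith [Nat.pos_of_ne_zero (by positivity : (k + 1) ^ 2 + (k + 1) + 1 ≠ 0)]

/-- The scalars on the long orbit. -/
theorem exists_scal (hφ3 : ∀ t, φ (φ (φ t)) = t) {κ : K} (hκ : κ ≠ 0) :
    ∃ τ' c : K, τ' ≠ 0 ∧ c ≠ 0 ∧ φ c = c ∧ τ' ^ 2 * c⁻¹ = κ := by
  obtain ⟨g, -, hg⟩ := exists_generator' hφ hK hq
  have h1 : Units.mk0 κ hκ ∈ Subgroup.zpowers g := hg _
  rw [← mem_powers_iff_mem_zpowers] at h1
  obtain ⟨k, hk⟩ := h1
  have hk' : ((g : K)) ^ k = κ := by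
    have := congrArg (fun x : Kˣ => (x : K)) hk
    simpa using this
  have hg0 : (g : K) ≠ 0 := Units.ne_zero _
  rcases Nat.even_or_odd' k with ⟨m, rfl | rfl⟩
  · refine ⟨(g : K) ^ m, 1, pow_ne_zero _ hg0, one_ne_zero, map_one _, ?_⟩
    rw [inv_one, mul_one, ← pow_mul, mul_comm, hk']
  · obtain ⟨M, hM⟩ : ∃ M, q ^ 2 + q + 1 = 2 * M + 1 := by
      have : Even (q ^ 2 + q) := by
        rw [Nat.even_add, Nat.even_pow' (by norm_num)]
      obtain ⟨M, hM⟩ := this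
      exact ⟨M, by omega⟩
    have hd : φ ((g : K) ^ (q ^ 2 + q + 1)) = (g : K) ^ (q ^ 2 + q + 1) := by
      rw [← norm_eq hφ, map_mul, map_mul, hφ3]
      ring
    refine ⟨(g : K) ^ (m + M + 1), (g : K) ^ (q ^ 2 + q + 1), pow_ne_zero _ hg0, pow_ne_zero _ hg0, hd, ?_⟩
    rw [hM, ← hk', ← pow_mul]
    have : (m + M + 1) * 2 = (2 * m + 1) + (2 * M + 1) := by ring
    rw [this, pow_add, mul_assoc, mul_inv_cancel₀ (pow_ne_zero _ hg0), mul_one]

end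

section
variable [Fintype K] {q : ℕ} {φ : K →+* K} {T : Tw (sys (F := K)).toAddRel}
  (hφ : ∀ t, φ t = t ^ q) (hφ3 : ∀ t, φ (φ (φ t)) = t) (hρ : T.ρ = ρ0)
  (hτ : ∀ r t, T.τ r t = ((ε0 r : ℤ) : K) * φ t)
  (I : Inst sys tbl_chevD4 T Js cl (twistedD4 K q))

/-- The elements of the long orbit. -/
noncomputable def fL (t : K) : ↥(twistedD4 K q) := (orb3 hφ hρ hτ I).xG ⟨t, trivial⟩

theorem fL_coe (t : K) : ((fL hφ hρ hτ I t : ↥(twistedD4 K q)) : GL chevD4.Idx K) = w3 φ 18 13 12 t := x3_eq t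

theorem fL_add (s t : K) : fL hφ hρ hτ I (s + t) = fL hφ hρ hτ I s * fL hφ hρ hτ I t :=
  (((orb3 hφ hρ hτ I).relG hc_D4 hη_D4).addx ⟨s, trivial⟩ ⟨t, trivial⟩).symm

theorem cart_18 : chevD4.cartan 1 18 = -1 ∧ chevD4.cartan 0 18 = 2 ∧ chevD4.cartan 2 18 = 0 ∧ chevD4.cartan 3 18 = 0 ∧
    chevD4.cartan 1 13 = -1 ∧ chevD4.cartan 0 13 = 0 ∧ chevD4.cartan 2 13 = 2 ∧ chevD4.cartan 3 13 = 0 ∧
    chevD4.cartan 1 12 = -1 ∧ chevD4.cartan 0 12 = 0 ∧ chevD4.cartan 2 12 = 0 ∧ chevD4.cartan 3 12 = 2 := by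
  decide +kernel

include hφ hφ3 hρ hτ I in
/-- Scalars act on the long orbit. -/
theorem fL_scal (hq : 2 ≤ q) (hK : Fintype.card K = q ^ 3) {κ : K} (hκ : κ ≠ 0) :
    ∃ h : ↥(twistedD4 K q), ∀ t, h * fL hφ hρ hτ I t * h⁻¹ = fL hφ hρ hτ I (κ * t) := by
  obtain ⟨τ', c, hτ0, hc0, hcf, e⟩ := exists_scal hφ hK hq hφ3 hκ
  obtain ⟨h, hh, hconj⟩ := exists_tor hφ hφ3 hρ hτ I hτ0 hc0 hcf
  refine ⟨⟨h, hh.2⟩, fun t => Subtype.ext ?_⟩
  show h * ((fL hφ hρ hτ I t : ↥(twistedD4 K q)) : GL chevD4.Idx K) * h⁻¹ = ((fL hφ hρ hτ I (κ * t) : ↥(twistedD4 K q)) : GL chevD4.Idx K)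
  rw [fL_coe, fL_coe, w3, w3]
  obtain ⟨a1, a2, a3, a4, b1, b2, b3, b4, c1, c2, c3, c4⟩ := cart_18
  have k1 : kp φ τ' c 18 = κ := by
    rw [kp, a1, a2, a3, a4, ← e]
    simp only [zpow_neg, zpow_one, zpow_zero, mul_one]
    norm_cast
    ring
  have k2 : kp φ τ' c 13 = φ κ := by
    rw [kp, b1, b2, b3, b4, ← e, map_mul, map_inv₀, hcf, map_pow]
    simp only [zpow_neg, zpow_one, zpow_zero, mul_one, one_mul]
    norm_cast
    ring
  have k3 : kp φ τ' c 12 = φ (φ κ) := by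
    rw [kp, c1, c2, c3, c4, ← e, map_mul, map_mul, map_inv₀, map_inv₀, hcf, hcf, map_pow, map_pow]
    simp only [zpow_neg, zpow_one, zpow_zero, mul_one, one_mul]
    norm_cast
    ring
  have e1 := hconj 18 (by decide +kernel) t
  have e2 := hconj 13 (by decide +kernel) (φ t)
  have e3 := hconj 12 (by decide +kernel) (φ (φ t))
  rw [k1] at e1
  rw [k2] at e2
  rw [k3] at e3
  rw [map_mul, map_mul, ← e1, ← e2, ← e3]
  group

include hφ hφ3 hρ hτ I in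
/-- Preimages of the long orbit commute. -/
theorem ab_long (hq : 2 ≤ q) (hK : Fintype.card K = q ^ 3) {Γ : Type*} [Group Γ] {σ : Γ →* ↥(twistedD4 K q)}
    (hs : Function.Surjective σ) (hc : σ.ker ≤ Subgroup.center Γ) {a b : Γ}
    (ha : σ a ∈ Xg sys T (twistedD4 K q) (psiL chevD4 [0, 2, 3]))
    (hb : σ b ∈ Xg sys T (twistedD4 K q) (psiL chevD4 [0, 2, 3])) : a * b = b * a := by
  have hform : ∀ c : Γ, σ c ∈ Xg sys T (twistedD4 K q) (psiL chevD4 [0, 2, 3]) → ∃ t, σ c = fL hφ hρ hτ I t := by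
    intro c hc
    obtain ⟨⟨t, ht⟩, e⟩ := (orb3 hφ hρ hτ I).surj_x _ (σ c).2 (mem_Xg.1 hc).1
    exact ⟨t, Subtype.ext e⟩
  obtain ⟨s, es⟩ := hform a ha
  obtain ⟨t, et⟩ := hform b hb
  have hK5 : 5 ≤ Fintype.card K := by
    rw [hK]
    calc 5 ≤ 2 ^ 3 := by norm_num
      _ ≤ q ^ 3 := Nat.pow_le_pow_left hq 3
  refine ab_of_scal hK5 hs hc (fL hφ hρ hτ I) (fL_add hφ hρ hτ I) ?_ (fun κ hκ => fL_scal hφ hφ3 hρ hτ I hq hK hκ) es et
  intro s t
  rw [← fL_add, ← fL_add, add_comm]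

theorem cert_23 : moves chevD4 [23] ([[0, 2, 3], [1]] : List (List ℕ)).flatten [1] = true := move_chk

include hρ hτ I in
/-- Preimages of a short root group from those of the highest root. -/
theorem ab_short_of_top {Γ : Type*} [Group Γ] {σ : Γ →* ↥(twistedD4 K q)} (hs : Function.Surjective σ)
    (htop : ∀ a b : Γ, σ a ∈ XS sys T (twistedD4 K q) [23] → σ b ∈ XS sys T (twistedD4 K q) [23] → a * b = b * a) {a b : Γ}
    (ha : σ a ∈ Xg sys T (twistedD4 K q) (psiL chevD4 [1]))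
    (hb : σ b ∈ Xg sys T (twistedD4 K q) (psiL chevD4 [1])) : a * b = b * a := by
  have hw : ∀ J ∈ ([[0, 2, 3], [1]] : List (List ℕ)), J ∈ Js := by decide
  have hn := I.prodA_mem hw
  refine ab_of_conj hs (g := (⟨_, hn⟩ : ↥(twistedD4 K q))⁻¹) (fun x hx => ?_) htop ha hb
  refine mem_Xg.2 ?_
  have h1 := I.conj2 (S := [23]) (fun r hr => by
    have : r = 23 := by simpa using hr
    subst this
    decide +kernel) (I.flat_lt hw) hn cert_23 (by decide) (mem_Xg.1 hx)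
  simpa using h1

include hφ hρ hτ in
/-- The elements of the highest root group as commutators. -/
theorem top_comm (x : ↥(twistedD4 K q)) (hx : x ∈ XS sys T (twistedD4 K q) [23])
    (I : Inst sys tbl_chevD4 T Js cl (twistedD4 K q)) :
    x ∈ Subgroup.closure {g | ∃ y ∈ XS sys T (twistedD4 K q) [22], ∃ z ∈ XS sys T (twistedD4 K q) [14], g = ⁅y, z⁆} := by
  obtain ⟨h1, h2⟩ := mem_Xg.1 hx
  obtain ⟨s, e⟩ := single_form h1
  have hs : φ s = s := by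
    have h3 := h2.2
    rw [e, T.s_X 23 (by decide +kernel), hρ, hτ, (by decide +kernel : ρ0 23 = 23), (by decide +kernel : ε0 23 = 1)] at h3
    simpa using X_inj sys tbl_chevD4 (by decide +kernel) h3
  have hfix : ∀ (r : ℕ), r < chevD4.nroots → chevD4.IsPosRoot r → ρ0 r = r → ε0 r = 1 → ∀ t : K, φ t = t →
      X (sys (F := K)).toAddRel r t ∈ gen (sys (F := K)).toAddRel {r' | r' ∈ [r]} ⊓ T.Fx := by
    intro r hr hp e1 e2 t ht
    refine ⟨X_mem_gen _ (by simp) _, Tw.X_mem_group hr _, ?_⟩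
    rw [T.s_X r hr, hρ, hτ, e1, e2]
    simp [ht]
  have m14 : ∀ t : K, φ t = t → X (sys (F := K)).toAddRel 14 t ∈ twistedD4 K q := fun t ht => X14_mem hφ ht
  have f14 := hfix 14 (by decide +kernel) (by decide +kernel) (by decide +kernel) (by decide +kernel) (-s) (by rw [map_neg, hs])
  have f22 := hfix 22 (by decide +kernel) (by decide +kernel) (by decide +kernel) (by decide +kernel) (1 : K) (by simp)
  have m22 : X (sys (F := K)).toAddRel 22 (1 : K) ∈ twistedD4 K q := I.class_le (S := [22]) (by decide) f22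
  have hcm := Cfsg.Agent.Lib.ChevBN.Rel.commPos sys 14 22 (by decide +kernel) (by decide +kernel) (by decide) (-s) (1 : K)
  rw [ChevalleyDatum.commWord, comm_chk] at hcm
  simp only [List.map_cons, List.map_nil, pow_one, W_cons, W_nil, mul_one, neg_neg, one_mul, Int.cast_one, one_pow] at hcm
  refine Subgroup.subset_closure ⟨⟨_, m22⟩⁻¹, Subgroup.inv_mem _ (mem_Xg.2 f22), ⟨_, m14 _ (by rw [map_neg, hs])⟩⁻¹,
    Subgroup.inv_mem _ (mem_Xg.2 f14), Subtype.ext ?_⟩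
  rw [e]
  show _ = ⁅(X (sys (F := K)).toAddRel 22 (1 : K))⁻¹, (X (sys (F := K)).toAddRel 14 (-s))⁻¹⁆
  rw [commutatorElement_def, inv_inv, inv_inv, mul_assoc _ _ (X (sys (F := K)).toAddRel 14 (-s)), hcm]
  group

end

end Cfsg.Agent.Lib.Twisted.D4
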