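import Cfsg.Agent.Lib.Twisted.Mult.InstChain
import Cfsg.Agent.Lib.Twisted.Mult.Ab

/-!
# The kernel of a central extension of a twisted group, in terms of the torus
-/

set_option autoImplicit false
set_option linter.unusedSectionVars false

namespace Cfsg.Agent.Lib.Twisted

open Cfsg.Agent.Lib.Twisted.Mult
open Cfsg.Agent.Lib.Chevalley
open Cfsg.Lie Cfsg.Agent.Lib.ChevBN.Elem Cfsg.Agent.Lib.ChevBN.Entries Cfsg.Agent.Lib.ChevBN.Table
open Cfsg.Agent.Lib.ChevBN.Collect Cfsg.Agent.Lib.ChevBN.Rel Cfsg.Agent.Lib.ChevBN.Torus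
open Cfsg.Agent.Lib.ChevBN.Monomial Cfsg.Agent.Lib.ChevBN.Core Cfsg.Agent.Lib.ChevBN.Pair
open Cfsg.Agent.Lib.ChevBN.Stmts Cfsg.Agent.Lib.ChevBN.Opp Cfsg.Agent.Lib.ChevBN.Perfect
open Cfsg.Agent.Lib.ChevOrder.Chev Cfsg.Agent.Lib.ChevOrder.BNCount Cfsg.Agent.Lib.ChevOrder.Cox
open scoped commutatorElement

variable {D : ChevalleyDatum} {F : Type*} [Field F] {η : ℕ → ℕ → ℤ}

namespace OFam

variable {hR : Sys D F η} {hT : Tbl D} {T : Tw hR.toAddRel} {Js cl : List (List ℕ)}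
  {G1 : Subgroup (GL D.Idx F)} {I : Inst hR hT T Js cl G1} {n : ℕ} (Fm : OFam I (Fin n))
  (hc : ∀ i < D.rank, D.cartan i (D.simple i) = 2) (hη : ∀ i < D.rank, η i (D.simple i) = -1)
  [Finite F]

theorem coe_h (a : Fin n) {s : ↥(Fm.S a)} (hs : s ≠ 0) :
    ((SL2Hom.h (fun t => (Fm.orb a).xG t) (fun t => (Fm.orb a).yG hc hη t) s : ↥G1) : GL D.Idx F) =
      torJ hR.toAddRel (Fm.J a) (fun k => Fm.e a k (s : F)) := by
  show SL2Hom.h (xL hR.toAddRel (Fm.J a) (fun k => (Fm.e a k).comp (Fm.S a).subtype))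
    (yL hR.toAddRel (Fm.J a) (fun k => (Fm.e a k).comp (Fm.S a).subtype)) s = _
  rw [h_eq_torJ (Fm.orb a).hnd (Fm.orb a).hO _ hs]
  rfl

variable [∀ a, Fintype ↥(Fm.S a)]

/-- The elements of the kernel of a central extension, prime to `p`. -/
theorem ker_tor {M : CoxeterMatrix (Fin n)} {p : ℕ} (C : CoreD ↥G1 p M (fun a => ↥(Fm.S a)))
    (hCx : ∀ a t, C.x a t = (Fm.orb a).xG t) (hCy : ∀ a t, C.y a t = (Fm.orb a).yG hc hη t)
    {Γ : Type*} [Group Γ] [Finite Γ] {σ : Γ →* ↥G1} {m : ℕ} (L : PL σ p m) (hp : p.Prime)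
    (hk : σ.ker ≤ commutator Γ) {a : Γ} (ha : a ∈ σ.ker) :
    ∃ t : ∀ i, (↥(Fm.S i))ˣ, a = C.Φh L hp t ∧
      ((List.finRange n).map fun i => torJ hR.toAddRel (Fm.J i) (fun k => Fm.e i k ((t i : ↥(Fm.S i)) : F))).prod = 1 := by
  obtain ⟨t, rfl⟩ := C.main L hp hk ha
  refine ⟨t, rfl, ?_⟩
  have h1 := C.σ_Φh L hp t
  rw [MonoidHom.mem_ker.1 ha] at h1
  have h2 := congrArg (Subtype.val) h1
  rw [Subgroup.coe_one] at h2
  rw [h2]
  rw [show ((((List.finRange n).map fun i => SL2Hom.h (C.x i) (C.y i) (t i : ↥(Fm.S i))).prod : ↥G1) : GL D.Idx F) =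
    (((List.finRange n).map fun i => SL2Hom.h (C.x i) (C.y i) (t i : ↥(Fm.S i))).map (fun g : ↥G1 => (g : GL D.Idx F))).prod from
      map_list_prod G1.subtype _]
  rw [List.map_map]
  congr 1
  apply List.map_congr_left
  intro i _
  have e1 : C.x i = fun t => (Fm.orb i).xG t := funext (hCx i)
  have e2 : C.y i = fun t => (Fm.orb i).yG hc hη t := funext (hCy i)
  simp only [Function.comp_apply]
  rw [e1, e2, coe_h Fm hc hη i (Units.ne_zero _)]

end OFam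

end Cfsg.Agent.Lib.Twisted
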