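import Cfsg.Agent.Lib.Twisted.D4Out
import Cfsg.Agent.Lib.Twisted.D4Order
import Cfsg.Agent.Lib.Twisted.Mult.InstFinal

/-!
# `³D₄(q)`: the part of the kernel prime to `p`
-/

set_option autoImplicit false
set_option maxRecDepth 1000000

namespace Cfsg.Agent.Lib.Twisted.D4

open Cfsg.Lie Cfsg.Agent.Lib.Chevalley.Reflect
open Cfsg.Agent.Lib.Chevalley.Tbl.D4 (cols colOK sys comm)
open Cfsg.Agent.Lib.ChevBN.Elem Cfsg.Agent.Lib.ChevBN.Table Cfsg.Agent.Lib.ChevBN.Opp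
open Cfsg.Agent.Lib.ChevBN.FastData (tbl_chevD4)
open Cfsg.Agent.Lib.Twisted.Mult Cfsg.Agent.Lib.BNPair.CoxeterExchange
open Cfsg.Agent.Lib.Chevalley

universe u

variable {K : Type u} [Field K]

theorem chain_chk' : chainChk chevD4 cl := by decide +kernel
theorem ab_chk : abChk chevD4 cl := by decide +kernel

theorem br_chk : ∀ i j : Fin 2, i ≠ j → ∃ k, alt i j (CoxeterMatrix.G₂ i j) = alt i j (CoxeterMatrix.G₂ i j - 1) ++ [k] ∧
    moveB chevD4 (Jn k) ((alt i j (CoxeterMatrix.G₂ i j - 1)).flatMap Jn) (Jn j) = true := by decide +kernel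

/-- `p`-elements of the unipotent group. -/
theorem hU_pe [Fintype K] {q p e : ℕ} (hq : q = p ^ e) (hpr : IsPrimePow q) (hK : Fintype.card K = q ^ 3) {T : Tw (sys (F := K)).toAddRel}
    (I : Inst sys tbl_chevD4 T Js cl (twistedD4 K q)) :
    ∀ u ∈ chevD4.posUnipotent K ⊓ T.Fx, PE p u := by
  intro u hu
  have h1 : Nat.card ↥(chevD4.posUnipotent K ⊓ T.Fx) = q ^ 12 := by
    rw [← I.U_inf_eq]
    exact card_U hpr hK
  have h2 := pow_card_eq_one' (x := (⟨u, hu⟩ : ↥(chevD4.posUnipotent K ⊓ T.Fx)))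
  rw [h1, hq, ← pow_mul] at h2
  exact ⟨e * 12, congrArg Subtype.val h2⟩

theorem cast_p [Fintype K] {q p e : ℕ} (hp : p.Prime) (he : 0 < e) (hq : q = p ^ e) {n : ℕ} (hn : 0 < n)
    (hK : Fintype.card K = q ^ n) : (p : K) = 0 := by
  obtain ⟨r, hr⟩ := CharP.exists K
  have hr' : r.Prime := CharP.char_is_prime K r
  have : Fact r.Prime := ⟨hr'⟩
  obtain ⟨m, -, hm⟩ := FiniteField.card K r
  have h2 : r ∣ p ^ (e * n) := by
    rw [pow_mul, ← hq, ← hK]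
    rw [show Fintype.card K = r ^ (m : ℕ) from hm]
    exact dvd_pow_self _ m.ne_zero
  have h3 : r = p := (Nat.prime_dvd_prime_iff_eq hr' hp).1 (hr'.dvd_of_dvd_pow h2)
  subst h3
  exact CharP.cast_eq_zero K r

section

variable [Fintype K] {q : ℕ} {φ : K →+* K} {T : Tw (sys (F := K)).toAddRel}
  (hφ : ∀ t, φ t = t ^ q) (hφ3 : ∀ t, φ (φ (φ t)) = t) (hρ : T.ρ = ρ0)
  (hτ : ∀ r t, T.τ r t = ((ε0 r : ℤ) : K) * φ t)
  (I : Inst sys tbl_chevD4 T Js cl (twistedD4 K q))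

/-- The data of the group. -/
noncomputable def core {p : ℕ} (hpF : (p : K) = 0) (hUp : ∀ u ∈ chevD4.posUnipotent K ⊓ T.Fx, PE p u) :=
  letI : ∀ a, Fintype ↥((fam hφ hρ hτ I).S a) := fun a => Fintype.ofFinite _
  (fam hφ hρ hτ I).toCore hc_D4 hη_D4 CoxeterMatrix.G₂ hpF hUp ord_chk br_chk

include hφ hφ3 hρ hτ in
/-- The kernel of the torus parameters. -/
theorem tor_one {τ' c : K} (hτ0 : τ' ≠ 0) (hc0 : c ≠ 0) (hcf : φ c = c)
    (h1 : torJ (sys (F := K)).toAddRel [1, 0, 2, 3] (dP φ τ' c) = 1) : τ' = 1 ∧ c = 1 := by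
  obtain ⟨a0, a1, a2, a3, b0, b1, b2, b3⟩ := cart_vals
  have hne : ∀ j ∈ ([1, 0, 2, 3] : List ℕ), dP φ τ' c j ≠ 0 := by
    intro j _
    simp only [dP]
    split_ifs
    · exact hc0
    · exact hτ0
    · simpa using hτ0
    · simpa using hτ0
  have key : ∀ i, i < chevD4.rank → (([1, 0, 2, 3] : List ℕ).map fun j => dP φ τ' c j ^ chevD4.cartan j (chevD4.simple i)).prod = 1 := by
    intro i hi
    have h2 := torJ_conj sys (J := [1, 0, 2, 3]) (by decide) hne (tbl_chevD4.simple_lt hi) (1 : K)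
    rw [h1] at h2
    simp only [one_mul, inv_one, mul_one] at h2
    exact (X_inj sys tbl_chevD4 (tbl_chevD4.simple_lt hi) h2).symm
  have k0 := key 0 (by decide +kernel)
  have k1 := key 1 (by decide +kernel)
  simp only [List.map_cons, List.map_nil, List.prod_cons, List.prod_nil, a0, a1, a2, a3, b0, b1, b2, b3, dP] at k0 k1
  simp at k0 k1
  have hφτ : φ τ' ≠ 0 := by simpa using hτ0
  have hφφτ : φ (φ τ') ≠ 0 := by simpa using hτ0
  let tu : Kˣ := Units.mk0 τ' hτ0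
  let cu : fixU φ := ⟨Units.mk0 c hc0, by simpa [mem_fixU] using hcf⟩
  have hk : (tu, cu) ∈ (Φ₀ φ).ker := by
    rw [MonoidHom.mem_ker]
    refine Prod.ext (Units.ext ?_) (Units.ext ?_)
    · show (τ' : K) ^ 2 * c⁻¹ = 1
      field_simp
      field_simp at k0
      linear_combination k0
    · have e : (((Φ₀ φ) (tu, cu)).2 : K) = c ^ 2 * (τ' * φ τ' * φ (φ τ'))⁻¹ := by
        simp [Φ₀, tu, cu, φU]
      rw [e]
      show c ^ 2 * (τ' * φ τ' * φ (φ τ'))⁻¹ = 1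
      field_simp
      field_simp at k1
      linear_combination k1
  rw [Φ₀_ker hφ3, Subgroup.mem_bot] at hk
  have h3 := congrArg (fun x => ((x.1 : Kˣ) : K)) hk
  have h4 := congrArg (fun x => ((x.2 : fixU φ) : Kˣ)) hk
  exact ⟨h3, congrArg Units.val h4⟩

include hφ hφ3 hρ hτ I in
/-- A central extension with kernel prime to `p` of `³D₄(q)` which is a stem extension is trivial. -/
theorem ker_bot {p m : ℕ} (hp : p.Prime) (hpF : (p : K) = 0) (hUp : ∀ u ∈ chevD4.posUnipotent K ⊓ T.Fx, PE p u)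
    {Γ : Type u} [Group Γ] [Finite Γ] (σ : Γ →* ↥(twistedD4 K q)) (hσ : Cfsg.IsStemExtension σ)
    (hm : m.Coprime p) (hpow : ∀ a ∈ σ.ker, a ^ m = 1) : σ.ker = ⊥ := by
  rw [eq_bot_iff]
  intro a ha
  have L : PL σ p m := ⟨hσ.1, hσ.2.1, hm, hpow⟩
  letI : ∀ a, Fintype ↥((fam hφ hρ hτ I).S a) := fun a => Fintype.ofFinite _
  obtain ⟨t, e, h⟩ := (fam hφ hρ hτ I).ker_tor hc_D4 hη_D4 (core hφ hρ hτ I hpF hUp)
    (fun _ _ => rfl) (fun _ _ => rfl) L hp hσ.2.2 ha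
  have hfr : List.finRange 2 = [0, 1] := rfl
  rw [hfr] at h
  have hc0 : (((t 0 : ↥((fam hφ hρ hτ I).S 0)) : K)) ≠ 0 := by
    have := Units.ne_zero (t 0)
    simpa using this
  have hτ0 : (((t 1 : ↥((fam hφ hρ hτ I).S 1)) : K)) ≠ 0 := by
    have := Units.ne_zero (t 1)
    simpa using this
  have hcf : φ ((t 0 : ↥((fam hφ hρ hτ I).S 0)) : K) = ((t 0 : ↥((fam hφ hρ hτ I).S 0)) : K) := (t 0 : ↥((fam hφ hρ hτ I).S 0)).2
  have h1 : torJ (sys (F := K)).toAddRel [1, 0, 2, 3] (dP φ ((t 1 : ↥((fam hφ hρ hτ I).S 1)) : K) ((t 0 : ↥((fam hφ hρ hτ I).S 0)) : K)) = 1 := by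
    rw [← h]
    have j0 : (fam hφ hρ hτ I).J 0 = [1] := rfl
    have j1 : (fam hφ hρ hτ I).J 1 = [0, 2, 3] := rfl
    have e0 : (fam hφ hρ hτ I).e 0 = fun _ => RingHom.id K := rfl
    have e1 : (fam hφ hρ hτ I).e 1 = e3 φ := rfl
    simp only [List.map_cons, List.map_nil, List.prod_cons, List.prod_nil, j0, j1, e0, e1, torJ_cons, torJ_nil, mul_one, RingHom.id_apply]
    simp [dP, e3]
  obtain ⟨e1, e2⟩ := tor_one hφ hφ3 hρ hτ hτ0 hc0 hcf h1
  have ht : t = 1 := by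
    funext i
    fin_cases i
    · exact Units.ext (Subtype.ext e2)
    · exact Units.ext (Subtype.ext e1)
  rw [e, ht, map_one]
  exact Subgroup.one_mem _

end

end Cfsg.Agent.Lib.Twisted.D4
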