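import Cfsg.Agent.Lib.Twisted.Mult.D4Ab
import Cfsg.Agent.Lib.Schur.Basic

/-!
# `³D₄(q)`: stem extensions, for `q ≥ 3`
-/

set_option autoImplicit false
set_option maxRecDepth 1000000

namespace Cfsg.Agent.Lib.Twisted.D4

open Cfsg.Lie Cfsg.Agent.Lib.Chevalley.Reflect
open Cfsg.Agent.Lib.Chevalley.Tbl.D4 (cols colOK sys comm)
open Cfsg.Agent.Lib.ChevBN.Elem Cfsg.Agent.Lib.ChevBN.Table Cfsg.Agent.Lib.ChevBN.Opp
open Cfsg.Agent.Lib.ChevBN.FastData (tbl_chevD4)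
open Cfsg.Agent.Lib.Twisted.Mult Cfsg.Agent.Lib.BNPair.CoxeterExchange
open Cfsg.Agent.Lib.Chevalley
open scoped commutatorElement

universe u

variable {K : Type u} [Field K]

/-- The index of the unipotent group. -/
theorem index_eq [Fintype K] {q : ℕ} {T : Tw (sys (F := K)).toAddRel} (hq : IsPrimePow q) (hK : Fintype.card K = q ^ 3)
    (I : Inst sys tbl_chevD4 T Js cl (twistedD4 K q)) :
    ((chevD4.posUnipotent K ⊓ T.Fx).subgroupOf (twistedD4 K q)).index = (q ^ 2 - 1) * (q ^ 6 - 1) * (q ^ 8 + q ^ 4 + 1) := by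
  have h1 := Subgroup.card_mul_index ((chevD4.posUnipotent K ⊓ T.Fx).subgroupOf (twistedD4 K q))
  have h2 : Nat.card ↥((chevD4.posUnipotent K ⊓ T.Fx).subgroupOf (twistedD4 K q)) = q ^ 12 := by
    have e : (chevD4.posUnipotent K ⊓ T.Fx) ⊓ twistedD4 K q = chevD4.posUnipotent K ⊓ T.Fx :=
      inf_eq_left.2 (fun x hx => I.U_le hx)
    rw [card_subgroupOf', e, ← I.U_inf_eq, card_U hq hK]
  rw [h2, card_main' hq hK] at h1
  have hq0 : 0 < q ^ 12 := pow_pos hq.pos _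
  apply Nat.eq_of_mul_eq_mul_left hq0
  rw [h1]
  ring

theorem index_cop [Fintype K] {q p e : ℕ} {T : Tw (sys (F := K)).toAddRel} (hq : IsPrimePow q) (hK : Fintype.card K = q ^ 3)
    (I : Inst sys tbl_chevD4 T Js cl (twistedD4 K q)) (hp : p.Prime) (he : 0 < e) (hqp : q = p ^ e) :
    Nat.Coprime ((chevD4.posUnipotent K ⊓ T.Fx).subgroupOf (twistedD4 K q)).index p := by
  rw [index_eq hq hK I]
  have hpq : p ∣ q := hqp ▸ dvd_pow_self p he.ne'
  have hnd : ∀ n, 1 ≤ n → ¬ p ∣ q ^ n - 1 := by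
    intro n hn hd
    have h3 : p ∣ q ^ n := dvd_pow hpq (by omega)
    have h4 : 1 ≤ q ^ n := Nat.one_le_pow _ _ hq.pos
    have h5 : p ∣ 1 := by
      have := (Nat.dvd_sub h3 hd)
      rwa [Nat.sub_sub_self h4] at this
    exact hp.one_lt.ne' (Nat.dvd_one.1 h5)
  apply Nat.Coprime.symm
  rw [hp.coprime_iff_not_dvd]
  intro hd
  rcases (hp.dvd_mul).1 hd with hd | hd
  · rcases (hp.dvd_mul).1 hd with hd | hd
    · exact hnd 2 (by omega) hd
    · exact hnd 6 (by omega) hd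
  · have h3 : p ∣ q ^ 8 + q ^ 4 := Dvd.dvd.add (dvd_pow hpq (by omega)) (dvd_pow hpq (by omega))
    have h5 : p ∣ 1 := (Nat.dvd_add_right h3).1 hd
    exact hp.one_lt.ne' (Nat.dvd_one.1 h5)

section
variable [Fintype K] {q : ℕ} {φ : K →+* K} {T : Tw (sys (F := K)).toAddRel}
  (hφ : ∀ t, φ t = t ^ q) (hφ3 : ∀ t, φ (φ (φ t)) = t) (hρ : T.ρ = ρ0)
  (hτ : ∀ r t, T.τ r t = ((ε0 r : ℤ) : K) * φ t)
  (I : Inst sys tbl_chevD4 T Js cl (twistedD4 K q))

include hφ hφ3 hρ hτ I in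
/-- The kernel is killed by the index, for `q ≥ 3`. -/
theorem pow_ge3 (hq3 : 3 ≤ q) (hK : Fintype.card K = q ^ 3) {Γ : Type*} [Group Γ] [Finite Γ]
    {σ : Γ →* ↥(twistedD4 K q)} (hs : Function.Surjective σ) (hc : σ.ker ≤ Subgroup.center Γ)
    (hk : σ.ker ≤ commutator Γ) {a : Γ} (ha : a ∈ σ.ker) :
    a ^ ((chevD4.posUnipotent K ⊓ T.Fx).subgroupOf (twistedD4 K q)).index = 1 := by
  have hq : 2 ≤ q := by omega
  obtain ⟨g, hg0, hd1⟩ := exists_g hφ hK hq hq3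
  obtain ⟨u, hu0, huN, hu2⟩ := exists_u hφ hK hq
  have hd0 : g * φ g * φ (φ g) ≠ 0 := by
    simp [hg0]
  have hdf : φ (g * φ g * φ (φ g)) = g * φ g * φ (φ g) := by
    rw [map_mul, map_mul, hφ3]
    ring
  have hfp := hfp_of hφ hφ3 hρ hτ I hd0 hdf hd1
  have hsep := hsep_of hφ hφ3 hρ hτ I hd0 hdf hd1 hg0 hd1 hu0 huN hu2
  have C := I.chainG chain_chk' ab_chk hfp hsep
  have htop : ∀ a b : Γ, σ a ∈ XS sys T (twistedD4 K q) [23] → σ b ∈ XS sys T (twistedD4 K q) [23] → a * b = b * a := by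
    intro a b ha hb
    refine ab_of_comm hs hc (Xb := XS sys T (twistedD4 K q) [22]) (Xc := XS sys T (twistedD4 K q) [14]) ?_ ?_
      (fun x hx => top_comm hφ hρ hτ x hx I) ha hb
    · intro a b ha hb
      exact (C.comm_last hs hc (j := 4) (k := 5) (by norm_num) rfl hb ha).symm
    · intro a b ha hb
      exact (C.comm_last hs hc (j := 0) (k := 5) (by norm_num) rfl hb ha).symm
  refine I.pow_index chain_chk' ab_chk hfp hsep hs hc hk ?_ ha
  intro J hJ a b ha hb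
  simp only [Js, List.mem_cons, List.not_mem_nil, or_false] at hJ
  rcases hJ with rfl | rfl
  · exact ab_short_of_top hρ hτ I hs htop ha hb
  · exact ab_long hφ hφ3 hρ hτ I hq hK hs hc ha hb

end

/-- The theorem, given the case `q = 2`. -/
theorem main_of_two [Fintype K] {q : ℕ} (hq : IsPrimePow q) (hK : Fintype.card K = q ^ 3)
    (h2 : q = 2 → ∀ {φ : K →+* K} {T : Tw (sys (F := K)).toAddRel}
      (_ : ∀ t, φ t = t ^ q) (_ : ∀ t, φ (φ (φ t)) = t) (_ : T.ρ = ρ0)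
      (_ : ∀ r t, T.τ r t = ((ε0 r : ℤ) : K) * φ t)
      (_ : Inst sys tbl_chevD4 T Js cl (twistedD4 K q)) (Γ : Type u) [Group Γ] [Finite Γ]
      (σ : Γ →* ↥(twistedD4 K q)), Function.Surjective σ → σ.ker ≤ Subgroup.center Γ → σ.ker ≤ commutator Γ →
        ∀ a ∈ σ.ker, a ^ ((chevD4.posUnipotent K ⊓ T.Fx).subgroupOf (twistedD4 K q)).index = 1) :
    Cfsg.HasCyclicSchurMultiplier ↥(twistedD4 K q) 1 := by
  obtain ⟨φ, T, hφ, hφ3, hρ, hτ, I⟩ := main hq hK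
  haveI : Finite ↥(twistedD4 K q) := inferInstance
  refine Cfsg.Agent.Lib.Schur.Basic.hasCyclicSchurMultiplier_one_of ?_
  intro Γ _ _ σ hσ
  obtain ⟨p, e, hp, he, hqp⟩ := hq
  have hp' : p.Prime := hp.nat_prime
  have hq' : IsPrimePow q := ⟨p, e, hp, he, hqp⟩
  have hpF : (p : K) = 0 := cast_p hp' he hqp.symm (n := 3) (by norm_num) hK
  have hUp := hU_pe hqp.symm hq' hK I
  have hpow : ∀ a ∈ σ.ker, a ^ ((chevD4.posUnipotent K ⊓ T.Fx).subgroupOf (twistedD4 K q)).index = 1 := by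
    intro a ha
    by_cases h3 : q = 2
    · exact h2 h3 hφ hφ3 hρ hτ I Γ σ hσ.1 hσ.2.1 hσ.2.2 a ha
    · have h4 : 3 ≤ q := by
        have := hq'.two_le
        omega
      exact pow_ge3 hφ hφ3 hρ hτ I h4 hK hσ.1 hσ.2.1 hσ.2.2 ha
  exact ker_bot hφ hφ3 hρ hτ I hp' hpF hUp σ hσ (index_cop hq' hK I hp' he hqp.symm) hpow

end Cfsg.Agent.Lib.Twisted.D4
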