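import Cfsg.Agent.Lib.Twisted.Mult.D4Core

/-!
# `³D₄(q)`: the elements of the torus for the chain of the classes of roots
-/

set_option autoImplicit false
set_option maxRecDepth 1000000

namespace Cfsg.Agent.Lib.Twisted.D4

open Cfsg.Lie Cfsg.Agent.Lib.Chevalley.Reflect
open Cfsg.Agent.Lib.Chevalley.Tbl.D4 (cols colOK sys comm)
open Cfsg.Agent.Lib.ChevBN.Elem Cfsg.Agent.Lib.ChevBN.Table Cfsg.Agent.Lib.ChevBN.Opp
open Cfsg.Agent.Lib.ChevBN.FastData (tbl_chevD4)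
open Cfsg.Agent.Lib.Twisted.Mult Cfsg.Agent.Lib.BNPair.CoxeterExchange
open Cfsg.Agent.Lib.Chevalley

universe u

variable {K : Type u} [Field K]

/-- The scalar of a torus element on a root. -/
noncomputable def kp (φ : K →+* K) (τ' c : K) (r : ℕ) : K :=
  c ^ chevD4.cartan 1 r * (τ' ^ chevD4.cartan 0 r * ((φ τ') ^ chevD4.cartan 2 r * (φ (φ τ')) ^ chevD4.cartan 3 r))

/-- The exponent for the first family. -/
def pA (x y : ℤ) (r : ℕ) : ℤ := y * chevD4.cartan 1 r + x * (chevD4.cartan 0 r + chevD4.cartan 2 r + chevD4.cartan 3 r)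

/-- The exponent for the second family. -/
def pB (x y : ℤ) (r : ℕ) : ℤ := y * chevD4.cartan 1 r + x * chevD4.cartan 0 r

/-- The roots are in the range. -/
theorem cl_lt : ∀ S ∈ cl, ∀ r ∈ S, r < chevD4.nroots := by decide +kernel

theorem kp_A {φ : K →+* K} {s : K} (hs : s ≠ 0) (hf : φ s = s) (x y : ℤ) (r : ℕ) :
    kp φ (s ^ x) (s ^ y) r = s ^ pA x y r := by
  have e : φ (s ^ x) = s ^ x := by rw [map_zpow₀, hf]
  rw [kp, e, e, pA, zpow_add₀ hs, zpow_mul, mul_add, mul_add, zpow_add₀ hs, zpow_add₀ hs, zpow_mul, zpow_mul, zpow_mul, mul_assoc]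

/-- Roots fixed by the permutation. -/
def fixedR (r : ℕ) : Prop := chevD4.cartan 0 r = chevD4.cartan 2 r ∧ chevD4.cartan 0 r = chevD4.cartan 3 r

instance : DecidablePred fixedR := fun r => by
  unfold fixedR
  infer_instance

theorem kp_B {φ : K →+* K} {g d : K} (hg : g ≠ 0) (hd : g * φ g * φ (φ g) = d) (hd0 : d ≠ 0) (x y : ℤ) {r : ℕ} (hr : fixedR r) :
    kp φ (g ^ x) (d ^ y) r = d ^ pB x y r := by
  have h1 : (g ^ x) ^ chevD4.cartan 0 r * ((φ (g ^ x)) ^ chevD4.cartan 0 r * (φ (φ (g ^ x))) ^ chevD4.cartan 0 r) =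
      d ^ (x * chevD4.cartan 0 r) := by
    rw [← hd, map_zpow₀, map_zpow₀, zpow_mul (g * φ g * φ (φ g)), mul_zpow, mul_zpow, mul_zpow, mul_zpow, mul_assoc]
  rw [kp, ← hr.1, ← hr.2, h1, pB, zpow_add₀ hd0, zpow_mul d y]

section
variable [Fintype K] {q : ℕ} {φ : K →+* K} {T : Tw (sys (F := K)).toAddRel}
  (hφ : ∀ t, φ t = t ^ q) (hφ3 : ∀ t, φ (φ (φ t)) = t) (hρ : T.ρ = ρ0)
  (hτ : ∀ r t, T.τ r t = ((ε0 r : ℤ) : K) * φ t)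
  (I : Inst sys tbl_chevD4 T Js cl (twistedD4 K q))

include hφ hφ3 hρ hτ I in
/-- The torus elements. -/
theorem exists_tor {τ' c : K} (hτ0 : τ' ≠ 0) (hc0 : c ≠ 0) (hcf : φ c = c) :
    ∃ h ∈ chevD4.diagonalSubgroup K ⊓ twistedD4 K q, ∀ r, r < chevD4.nroots → ∀ t : K,
      h * X (sys (F := K)).toAddRel r t * h⁻¹ = X (sys (F := K)).toAddRel r (kp φ τ' c r * t) := by
  obtain ⟨h, e⟩ := exists_Θ hφ hφ3 hρ hτ I (Units.mk0 τ' hτ0, ⟨Units.mk0 c hc0, by simpa [mem_fixU] using hcf⟩)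
  refine ⟨h.1, h.2, fun r hr t => ?_⟩
  rw [e]
  simp only [Units.val_mk0]
  have hne : ∀ j ∈ ([1, 0, 2, 3] : List ℕ), dP φ τ' c j ≠ 0 := by
    intro j _
    simp only [dP]
    split_ifs
    · exact hc0
    · exact hτ0
    · simpa using hτ0
    · simpa using hτ0
  rw [torJ_conj sys (J := [1, 0, 2, 3]) (by decide) hne hr t]
  congr 2
  simp [dP, kp]

/-- `FixS` and `FpfS` from scalars. -/
theorem fix_of {h : GL chevD4.Idx K} {Ψ : Set ℕ} {κ : ℕ → K} (hΨ : ∀ r ∈ Ψ, r < chevD4.nroots)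
    (hk : ∀ r, r < chevD4.nroots → ∀ t : K, h * X (sys (F := K)).toAddRel r t * h⁻¹ = X (sys (F := K)).toAddRel r (κ r * t))
    (h1 : ∀ r ∈ Ψ, κ r = 1) : FixS sys h Ψ := by
  intro r hr t
  rw [hk r (hΨ r hr), h1 r hr, one_mul]

theorem fpf_of {h : GL chevD4.Idx K} {Ψ : Set ℕ} {κ : ℕ → K} (hΨ : ∀ r ∈ Ψ, r < chevD4.nroots)
    (hk : ∀ r, r < chevD4.nroots → ∀ t : K, h * X (sys (F := K)).toAddRel r t * h⁻¹ = X (sys (F := K)).toAddRel r (κ r * t))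
    (h1 : ∀ r ∈ Ψ, κ r ≠ 1) : FpfS sys h Ψ := by
  intro r hr
  exact ⟨κ r, h1 r hr, hk r (hΨ r hr)⟩

theorem zpow_ne_one_of {s : K} (h1 : s ≠ 1) {n : ℤ} (hn : n = 1 ∨ n = -1) : s ^ n ≠ 1 := by
  rcases hn with rfl | rfl
  · simpa using h1
  · simpa using h1

theorem getD_lt {l : ℕ} : ∀ r ∈ ({r | r ∈ cl.getD l []} : Set ℕ), r < chevD4.nroots := by
  intro r hr
  by_cases hl : l < cl.length
  · have hS : cl.getD l [] ∈ cl := by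
      rw [List.getD_eq_getElem _ _ hl]
      exact List.getElem_mem _
    exact cl_lt _ hS r hr
  · rw [List.getD_eq_default _ _ (by omega)] at hr
    simp at hr

include hφ hφ3 hρ hτ I in
/-- The first family: fixed on one, fixed-point-free on other. -/
theorem famA {s : K} (hs : s ≠ 0) (hf : φ s = s) (hs1 : s ≠ 1) (x y : ℤ) (j k : ℕ)
    (h1 : ∀ r ∈ cl.getD j [], pA x y r = 0) (h2 : ∀ r ∈ cl.getD k [], pA x y r = 1 ∨ pA x y r = -1) :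
    ∃ h ∈ chevD4.diagonalSubgroup K ⊓ twistedD4 K q,
      FixS sys h {r | r ∈ cl.getD j []} ∧ FpfS sys h {r | r ∈ cl.getD k []} := by
  have hτ0 : s ^ x ≠ 0 := zpow_ne_zero _ hs
  have hc0 : s ^ y ≠ 0 := zpow_ne_zero _ hs
  obtain ⟨h, hh, e⟩ := exists_tor hφ hφ3 hρ hτ I hτ0 hc0 (by rw [map_zpow₀, hf])
  refine ⟨h, hh, fix_of getD_lt e fun r hr => ?_, fpf_of getD_lt e fun r hr => ?_⟩
  · rw [kp_A hs hf, h1 r hr, zpow_zero]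
  · rw [kp_A hs hf]
    exact zpow_ne_one_of hs1 (h2 r hr)

include hφ hφ3 hρ hτ I in
/-- The first family: fixed-point-free. -/
theorem famA' {s : K} (hs : s ≠ 0) (hf : φ s = s) (hs1 : s ≠ 1) (x y : ℤ) (k : ℕ)
    (h2 : ∀ r ∈ cl.getD k [], pA x y r = 1 ∨ pA x y r = -1) :
    ∃ h ∈ chevD4.diagonalSubgroup K ⊓ twistedD4 K q, FpfS sys h {r | r ∈ cl.getD k []} := by
  obtain ⟨h, hh, -, e⟩ := famA hφ hφ3 hρ hτ I hs hf hs1 x y 100 k (fun r hr => by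
    rw [show cl.getD 100 [] = [] from rfl] at hr
    simp at hr) h2
  exact ⟨h, hh, e⟩

include hφ hφ3 hρ hτ I in
/-- The second family. -/
theorem famB {g d : K} (hg : g ≠ 0) (hd : g * φ g * φ (φ g) = d) (hd1 : d ≠ 1) (x y : ℤ) (j k : ℕ)
    (hfix : ∀ r ∈ cl.getD j [], fixedR r) (hfix' : ∀ r ∈ cl.getD k [], fixedR r)
    (h1 : ∀ r ∈ cl.getD j [], pB x y r = 0) (h2 : ∀ r ∈ cl.getD k [], pB x y r = 1 ∨ pB x y r = -1) :
    ∃ h ∈ chevD4.diagonalSubgroup K ⊓ twistedD4 K q,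
      FixS sys h {r | r ∈ cl.getD j []} ∧ FpfS sys h {r | r ∈ cl.getD k []} := by
  have hd0 : d ≠ 0 := by
    rw [← hd]
    simp [hg]
  have hdf : φ d = d := by
    rw [← hd, map_mul, map_mul, hφ3]
    ring
  have hτ0 : g ^ x ≠ 0 := zpow_ne_zero _ hg
  have hc0 : d ^ y ≠ 0 := zpow_ne_zero _ hd0
  obtain ⟨h, hh, e⟩ := exists_tor hφ hφ3 hρ hτ I hτ0 hc0 (by rw [map_zpow₀, hdf])
  refine ⟨h, hh, fix_of getD_lt e fun r hr => ?_, fpf_of getD_lt e fun r hr => ?_⟩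
  · rw [kp_B hg hd hd0 _ _ (hfix r hr), h1 r hr, zpow_zero]
  · rw [kp_B hg hd hd0 _ _ (hfix' r hr)]
    exact zpow_ne_one_of hd1 (h2 r hr)

/-- The shape of a short root for the third family. -/
def shortR (r : ℕ) : Prop :=
  ∃ m ∈ ([-3, -2, -1, 0, 1, 2, 3] : List ℤ), ∃ e ∈ ([1, -1] : List ℤ),
    (chevD4.cartan 0 r = m + 2 * e ∧ chevD4.cartan 2 r = m ∧ chevD4.cartan 3 r = m) ∨
    (chevD4.cartan 0 r = m ∧ chevD4.cartan 2 r = m + 2 * e ∧ chevD4.cartan 3 r = m) ∨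
    (chevD4.cartan 0 r = m ∧ chevD4.cartan 2 r = m ∧ chevD4.cartan 3 r = m + 2 * e)

instance : DecidablePred shortR := fun r => by
  unfold shortR
  infer_instance

include hφ hφ3 hρ hτ I in
/-- The third family. -/
theorem famW {u : K} (hu : u ≠ 0) (hN : u * φ u * φ (φ u) = 1) (hu2 : u ^ 2 ≠ 1) (j k : ℕ)
    (hfix : ∀ r ∈ cl.getD j [], fixedR r) (hsh : ∀ r ∈ cl.getD k [], shortR r) :
    ∃ h ∈ chevD4.diagonalSubgroup K ⊓ twistedD4 K q,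
      FixS sys h {r | r ∈ cl.getD j []} ∧ FpfS sys h {r | r ∈ cl.getD k []} := by
  have hd0 : (1 : K) ≠ 0 := one_ne_zero
  obtain ⟨h, hh, e⟩ := exists_tor hφ hφ3 hρ hτ I hu hd0 (by simp)
  have hu' : φ u ≠ 0 := by simpa using hu
  have hu'' : φ (φ u) ≠ 0 := by simpa using hu
  refine ⟨h, hh, fix_of getD_lt e fun r hr => ?_, fpf_of getD_lt e fun r hr => ?_⟩
  · obtain ⟨h1, h2⟩ := hfix r hr
    rw [kp, ← h1, ← h2, one_zpow, one_mul, ← mul_zpow, ← mul_zpow, ← mul_assoc, hN, one_zpow]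
  · obtain ⟨m, -, ε', hε, hr⟩ := hsh r hr
    have hε' : ε' = 1 ∨ ε' = -1 := by simpa using hε
    have hp : ∀ x : K, x ≠ 0 → x ^ 2 ≠ 1 → (x ^ 2) ^ ε' ≠ 1 := by
      intro x _ hx2
      exact zpow_ne_one_of hx2 hε'
    have hNm : ∀ a b c : K, a * b * c = 1 → a ^ m * (b ^ m * c ^ m) = 1 := by
      intro a b c hh
      rw [← mul_zpow, ← mul_zpow, ← mul_assoc, hh, one_zpow]
    have hNN := hNm _ _ _ hN
    have h2e : ∀ x : K, x ≠ 0 → x ^ (2 * ε') = (x ^ 2) ^ ε' := by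
      intro x _
      rw [zpow_mul]
      norm_cast
    rw [kp, one_zpow, one_mul]
    have hgen : ∀ A B C D : K, A * (B * C) = 1 → A * (B * D * C) = D := by
      intro A B C D hh
      calc A * (B * D * C) = (A * (B * C)) * D := by ring
        _ = D := by rw [hh, one_mul]
    have hφ2 : φ u ^ 2 ≠ 1 := by
      rw [← map_pow]
      intro h5
      apply hu2
      apply φ.injective
      rw [h5, map_one]
    have hφφ2 : φ (φ u) ^ 2 ≠ 1 := by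
      rw [← map_pow, ← map_pow]
      intro h5
      apply hu2
      apply φ.injective
      apply φ.injective
      rw [h5, map_one, map_one]
    rcases hr with ⟨h1, h2, h3⟩ | ⟨h1, h2, h3⟩ | ⟨h1, h2, h3⟩
    · rw [h1, h2, h3, zpow_add₀ hu, h2e u hu]
      have e' : u ^ m * (u ^ 2) ^ ε' * (φ u ^ m * φ (φ u) ^ m) = (u ^ 2) ^ ε' := by
        calc u ^ m * (u ^ 2) ^ ε' * (φ u ^ m * φ (φ u) ^ m) = (u ^ m * (φ u ^ m * φ (φ u) ^ m)) * (u ^ 2) ^ ε' := by ring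
          _ = _ := by rw [hNN, one_mul]
      rw [e']
      exact hp u hu hu2
    · rw [h1, h2, h3, zpow_add₀ hu', h2e _ hu']
      have e' : u ^ m * (φ u ^ m * (φ u ^ 2) ^ ε' * φ (φ u) ^ m) = (φ u ^ 2) ^ ε' := hgen _ _ _ _ hNN
      rw [e']
      exact hp _ hu' hφ2
    · rw [h1, h2, h3, zpow_add₀ hu'', h2e _ hu'']
      have e' : u ^ m * (φ u ^ m * (φ (φ u) ^ m * (φ (φ u) ^ 2) ^ ε')) = (φ (φ u) ^ 2) ^ ε' := by
        calc u ^ m * (φ u ^ m * (φ (φ u) ^ m * (φ (φ u) ^ 2) ^ ε')) = (u ^ m * (φ u ^ m * φ (φ u) ^ m)) * (φ (φ u) ^ 2) ^ ε' := by ring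
          _ = _ := by rw [hNN, one_mul]
      rw [e']
      exact hp _ hu'' hφφ2

end

theorem fp_chk_0 : ∀ r ∈ cl.getD 0 [], pA (-3) (-4) r = 1 ∨ pA (-3) (-4) r = -1 := by decide +kernel
theorem fp_chk_1 : ∀ r ∈ cl.getD 1 [], pA (-2) (-3) r = 1 ∨ pA (-2) (-3) r = -1 := by decide +kernel
theorem fp_chk_2 : ∀ r ∈ cl.getD 2 [], pA (-4) (-3) r = 1 ∨ pA (-4) (-3) r = -1 := by decide +kernel
theorem fp_chk_3 : ∀ r ∈ cl.getD 3 [], pA (-1) (-4) r = 1 ∨ pA (-1) (-4) r = -1 := by decide +kernel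
theorem fp_chk_4 : ∀ r ∈ cl.getD 4 [], pA (-1) (-4) r = 1 ∨ pA (-1) (-4) r = -1 := by decide +kernel
theorem fp_chk_5 : ∀ r ∈ cl.getD 5 [], pA (-4) (-1) r = 1 ∨ pA (-4) (-1) r = -1 := by decide +kernel
theorem s_chk_0_1a : ∀ r ∈ cl.getD 0 [], pA (-2) (-3) r = 0 := by decide +kernel
theorem s_chk_0_1b : ∀ r ∈ cl.getD 1 [], pA (-2) (-3) r = 1 ∨ pA (-2) (-3) r = -1 := by decide +kernel
theorem s_chk_0_2a : ∀ r ∈ cl.getD 0 [], pA (-2) (-3) r = 0 := by decide +kernel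
theorem s_chk_0_2b : ∀ r ∈ cl.getD 2 [], pA (-2) (-3) r = 1 ∨ pA (-2) (-3) r = -1 := by decide +kernel
theorem s_chk_0_3f : ∀ r ∈ cl.getD 0 [], fixedR r := by decide +kernel
theorem s_chk_0_3g : ∀ r ∈ cl.getD 3 [], shortR r := by decide +kernel
theorem s_chk_0_4f : ∀ r ∈ cl.getD 0 [], fixedR r := by decide +kernel
theorem s_chk_0_4g : ∀ r ∈ cl.getD 4 [], fixedR r := by decide +kernel
theorem s_chk_0_4a : ∀ r ∈ cl.getD 0 [], pB (2) (1) r = 0 := by decide +kernel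
theorem s_chk_0_4b : ∀ r ∈ cl.getD 4 [], pB (2) (1) r = 1 ∨ pB (2) (1) r = -1 := by decide +kernel
theorem s_chk_0_5f : ∀ r ∈ cl.getD 0 [], fixedR r := by decide +kernel
theorem s_chk_0_5g : ∀ r ∈ cl.getD 5 [], fixedR r := by decide +kernel
theorem s_chk_0_5a : ∀ r ∈ cl.getD 0 [], pB (2) (1) r = 0 := by decide +kernel
theorem s_chk_0_5b : ∀ r ∈ cl.getD 5 [], pB (2) (1) r = 1 ∨ pB (2) (1) r = -1 := by decide +kernel
theorem s_chk_1_2a : ∀ r ∈ cl.getD 1 [], pA (-1) (-2) r = 0 := by decide +kernel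
theorem s_chk_1_2b : ∀ r ∈ cl.getD 2 [], pA (-1) (-2) r = 1 ∨ pA (-1) (-2) r = -1 := by decide +kernel
theorem s_chk_1_3a : ∀ r ∈ cl.getD 1 [], pA (-1) (-2) r = 0 := by decide +kernel
theorem s_chk_1_3b : ∀ r ∈ cl.getD 3 [], pA (-1) (-2) r = 1 ∨ pA (-1) (-2) r = -1 := by decide +kernel
theorem s_chk_1_4a : ∀ r ∈ cl.getD 4 [], pA (-1) (-3) r = 0 := by decide +kernel
theorem s_chk_1_4b : ∀ r ∈ cl.getD 1 [], pA (-1) (-3) r = 1 ∨ pA (-1) (-3) r = -1 := by decide +kernel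
theorem s_chk_1_5f : ∀ r ∈ cl.getD 5 [], fixedR r := by decide +kernel
theorem s_chk_1_5g : ∀ r ∈ cl.getD 1 [], shortR r := by decide +kernel
theorem s_chk_2_3a : ∀ r ∈ cl.getD 2 [], pA (-1) (-1) r = 0 := by decide +kernel
theorem s_chk_2_3b : ∀ r ∈ cl.getD 3 [], pA (-1) (-1) r = 1 ∨ pA (-1) (-1) r = -1 := by decide +kernel
theorem s_chk_2_4f : ∀ r ∈ cl.getD 4 [], fixedR r := by decide +kernel
theorem s_chk_2_4g : ∀ r ∈ cl.getD 2 [], shortR r := by decide +kernel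
theorem s_chk_2_5a : ∀ r ∈ cl.getD 2 [], pA (-1) (-1) r = 0 := by decide +kernel
theorem s_chk_2_5b : ∀ r ∈ cl.getD 5 [], pA (-1) (-1) r = 1 ∨ pA (-1) (-1) r = -1 := by decide +kernel
theorem s_chk_3_4a : ∀ r ∈ cl.getD 4 [], pA (-1) (-3) r = 0 := by decide +kernel
theorem s_chk_3_4b : ∀ r ∈ cl.getD 3 [], pA (-1) (-3) r = 1 ∨ pA (-1) (-3) r = -1 := by decide +kernel
theorem s_chk_3_5a : ∀ r ∈ cl.getD 5 [], pA (-1) (0) r = 0 := by decide +kernel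
theorem s_chk_3_5b : ∀ r ∈ cl.getD 3 [], pA (-1) (0) r = 1 ∨ pA (-1) (0) r = -1 := by decide +kernel
theorem s_chk_4_5f : ∀ r ∈ cl.getD 5 [], fixedR r := by decide +kernel
theorem s_chk_4_5g : ∀ r ∈ cl.getD 4 [], fixedR r := by decide +kernel
theorem s_chk_4_5a : ∀ r ∈ cl.getD 5 [], pB (1) (0) r = 0 := by decide +kernel
theorem s_chk_4_5b : ∀ r ∈ cl.getD 4 [], pB (1) (0) r = 1 ∨ pB (1) (0) r = -1 := by decide +kernel

section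
variable [Fintype K] {q : ℕ} {φ : K →+* K} {T : Tw (sys (F := K)).toAddRel}
  (hφ : ∀ t, φ t = t ^ q) (hφ3 : ∀ t, φ (φ (φ t)) = t) (hρ : T.ρ = ρ0)
  (hτ : ∀ r t, T.τ r t = ((ε0 r : ℤ) : K) * φ t)
  (I : Inst sys tbl_chevD4 T Js cl (twistedD4 K q))

include hφ hφ3 hρ hτ I in
theorem hfp_of {s : K} (hs0 : s ≠ 0) (hsf : φ s = s) (hs1 : s ≠ 1) :
    ∀ l, l < cl.length → ∃ h ∈ chevD4.diagonalSubgroup K ⊓ twistedD4 K q, FpfS sys h {r | r ∈ cl.getD l []} := by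
  intro l hl
  have hl' : l < 6 := hl
  interval_cases l
  · exact famA' hφ hφ3 hρ hτ I hs0 hsf hs1 _ _ 0 fp_chk_0
  · exact famA' hφ hφ3 hρ hτ I hs0 hsf hs1 _ _ 1 fp_chk_1
  · exact famA' hφ hφ3 hρ hτ I hs0 hsf hs1 _ _ 2 fp_chk_2
  · exact famA' hφ hφ3 hρ hτ I hs0 hsf hs1 _ _ 3 fp_chk_3
  · exact famA' hφ hφ3 hρ hτ I hs0 hsf hs1 _ _ 4 fp_chk_4
  · exact famA' hφ hφ3 hρ hτ I hs0 hsf hs1 _ _ 5 fp_chk_5

include hφ hφ3 hρ hτ I in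
theorem hsep_of {s g u : K} (hs0 : s ≠ 0) (hsf : φ s = s) (hs1 : s ≠ 1) (hg0 : g ≠ 0) (hd1 : g * φ g * φ (φ g) ≠ 1)
    (hu0 : u ≠ 0) (huN : u * φ u * φ (φ u) = 1) (hu2 : u ^ 2 ≠ 1) :
    ∀ j k, j < k → k < cl.length → ∃ h ∈ chevD4.diagonalSubgroup K ⊓ twistedD4 K q,
      (FixS sys h {r | r ∈ cl.getD j []} ∧ FpfS sys h {r | r ∈ cl.getD k []}) ∨
      (FixS sys h {r | r ∈ cl.getD k []} ∧ FpfS sys h {r | r ∈ cl.getD j []}) := by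
  intro j k hjk hk
  have hk' : k < 6 := hk
  obtain ⟨j, rfl⟩ : ∃ j', j' = j := ⟨j, rfl⟩
  have hj' : j < 5 := by omega
  interval_cases j <;> interval_cases k <;> first | omega | skip
  · obtain ⟨h, hh, e1, e2⟩ := famA hφ hφ3 hρ hτ I hs0 hsf hs1 (-2) (-3) 0 1 s_chk_0_1a s_chk_0_1b
    exact ⟨h, hh, Or.inl ⟨e1, e2⟩⟩
  · obtain ⟨h, hh, e1, e2⟩ := famA hφ hφ3 hρ hτ I hs0 hsf hs1 (-2) (-3) 0 2 s_chk_0_2a s_chk_0_2b
    exact ⟨h, hh, Or.inl ⟨e1, e2⟩⟩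
  · obtain ⟨h, hh, e1, e2⟩ := famW hφ hφ3 hρ hτ I hu0 huN hu2 0 3 s_chk_0_3f s_chk_0_3g
    exact ⟨h, hh, Or.inl ⟨e1, e2⟩⟩
  · obtain ⟨h, hh, e1, e2⟩ := famB hφ hφ3 hρ hτ I hg0 rfl hd1 (2) (1) 0 4 s_chk_0_4f s_chk_0_4g s_chk_0_4a s_chk_0_4b
    exact ⟨h, hh, Or.inl ⟨e1, e2⟩⟩
  · obtain ⟨h, hh, e1, e2⟩ := famB hφ hφ3 hρ hτ I hg0 rfl hd1 (2) (1) 0 5 s_chk_0_5f s_chk_0_5g s_chk_0_5a s_chk_0_5b
    exact ⟨h, hh, Or.inl ⟨e1, e2⟩⟩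
  · obtain ⟨h, hh, e1, e2⟩ := famA hφ hφ3 hρ hτ I hs0 hsf hs1 (-1) (-2) 1 2 s_chk_1_2a s_chk_1_2b
    exact ⟨h, hh, Or.inl ⟨e1, e2⟩⟩
  · obtain ⟨h, hh, e1, e2⟩ := famA hφ hφ3 hρ hτ I hs0 hsf hs1 (-1) (-2) 1 3 s_chk_1_3a s_chk_1_3b
    exact ⟨h, hh, Or.inl ⟨e1, e2⟩⟩
  · obtain ⟨h, hh, e1, e2⟩ := famA hφ hφ3 hρ hτ I hs0 hsf hs1 (-1) (-3) 4 1 s_chk_1_4a s_chk_1_4b
    exact ⟨h, hh, Or.inr ⟨e1, e2⟩⟩
  · obtain ⟨h, hh, e1, e2⟩ := famW hφ hφ3 hρ hτ I hu0 huN hu2 5 1 s_chk_1_5f s_chk_1_5g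
    exact ⟨h, hh, Or.inr ⟨e1, e2⟩⟩
  · obtain ⟨h, hh, e1, e2⟩ := famA hφ hφ3 hρ hτ I hs0 hsf hs1 (-1) (-1) 2 3 s_chk_2_3a s_chk_2_3b
    exact ⟨h, hh, Or.inl ⟨e1, e2⟩⟩
  · obtain ⟨h, hh, e1, e2⟩ := famW hφ hφ3 hρ hτ I hu0 huN hu2 4 2 s_chk_2_4f s_chk_2_4g
    exact ⟨h, hh, Or.inr ⟨e1, e2⟩⟩
  · obtain ⟨h, hh, e1, e2⟩ := famA hφ hφ3 hρ hτ I hs0 hsf hs1 (-1) (-1) 2 5 s_chk_2_5a s_chk_2_5b
    exact ⟨h, hh, Or.inl ⟨e1, e2⟩⟩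
  · obtain ⟨h, hh, e1, e2⟩ := famA hφ hφ3 hρ hτ I hs0 hsf hs1 (-1) (-3) 4 3 s_chk_3_4a s_chk_3_4b
    exact ⟨h, hh, Or.inr ⟨e1, e2⟩⟩
  · obtain ⟨h, hh, e1, e2⟩ := famA hφ hφ3 hρ hτ I hs0 hsf hs1 (-1) (0) 5 3 s_chk_3_5a s_chk_3_5b
    exact ⟨h, hh, Or.inr ⟨e1, e2⟩⟩
  · obtain ⟨h, hh, e1, e2⟩ := famB hφ hφ3 hρ hτ I hg0 rfl hd1 (1) (0) 5 4 s_chk_4_5f s_chk_4_5g s_chk_4_5a s_chk_4_5b
    exact ⟨h, hh, Or.inr ⟨e1, e2⟩⟩

end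

end Cfsg.Agent.Lib.Twisted.D4
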