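import Mathlib

/-!
# The field with eight elements: an additive relation
-/

set_option autoImplicit false

namespace Cfsg.Agent.Lib.Twisted.Mult

variable {K : Type*} [Field K] [Fintype K]

/-- An additive relation containing the graph of a map on the field of eight elements is everything. -/
theorem P_all (hK : Fintype.card K = 8) {φ : K →+* K} (hφ : ∀ t, φ t = t ^ 2) (h20 : (2 : K) = 0)
    (P : K → K → K → Prop) (hadd : ∀ x y z x' y' z', P x y z → P x' y' z' → P (x + x') (y + y') (z + z'))
    (hv : ∀ v, P (φ v) (v * φ (φ v)) (v * φ v * φ (φ v))) : ∀ x y, P x y 0 ∧ P x y 1 := by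
  classical
  have h8 : ∀ t : K, t ^ 8 = t := fun t => by
    have := FiniteField.pow_card t
    rwa [hK] at this
  have h7 : ∀ t : K, t ≠ 0 → t ^ 7 = 1 := fun t ht => by
    have := h8 t
    apply mul_left_cancel₀ ht
    calc t * t ^ 7 = t ^ 8 := by ring
      _ = t := this
      _ = t * 1 := (mul_one t).symm
  have hdbl : ∀ t : K, t + t = 0 := fun t => by
    have : t + t = 2 * t := by ring
    rw [this, h20, zero_mul]
  have hv' : ∀ v, P (v ^ 2) (v ^ 5) (v ^ 7) := by
    intro v
    have := hv v
    simp only [hφ] at this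
    convert this using 1 <;> ring
  -- a third element
  obtain ⟨z, hz0, hz1⟩ : ∃ z : K, z ≠ 0 ∧ z ≠ 1 := by
    by_contra hcon
    push Not at hcon
    have : (Finset.univ : Finset K) ⊆ {0, 1} := by
      intro x _
      by_cases hx : x = 0
      · simp [hx]
      · simp [hcon x hx]
    have h2 := Finset.card_le_card this
    rw [Finset.card_univ, hK] at h2
    have h3 := Finset.card_le_two (a := (0 : K)) (b := 1)
    omega
  have hz2 : z ^ 2 + z + 1 ≠ 0 := by
    intro h
    have h3 : z ^ 3 = 1 := by
      have : z ^ 3 - 1 = (z - 1) * (z ^ 2 + z + 1) := by ring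
      rw [h, mul_zero] at this
      exact sub_eq_zero.1 this
    have h4 := h7 z hz0
    have h5 : z ^ 7 = (z ^ 3) ^ 2 * z := by ring
    rw [h3] at h5
    rw [h4] at h5
    apply hz1
    simpa using h5.symm
  have hz1' : 1 + z ≠ 0 := by
    intro h
    apply hz1
    linear_combination h - h20
  set θ := z + z ^ 4 with hθ
  have hθ0 : θ ≠ 0 := by
    have : θ = z * (1 + z) * (z ^ 2 + z + 1) := by
      rw [hθ]
      linear_combination (-z ^ 3 - z ^ 2 : K) * h20
    rw [this]
    exact mul_ne_zero (mul_ne_zero hz0 hz1') hz2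
  have h00 : P 0 0 0 := by
    have := hv' 0
    simpa using this
  -- the elements with second coordinate
  have hY : ∀ t : K, t ≠ 0 → P 0 t 1 := by
    intro t ht
    set v := (t / θ) ^ 3 with hv3
    have hq : t / θ ≠ 0 := div_ne_zero ht hθ0
    have hv0 : v ≠ 0 := pow_ne_zero _ hq
    have hv5 : v ^ 5 * θ = t := by
      have h1 : v ^ 5 = t / θ := by
        rw [hv3, ← pow_mul]
        have h2 := h7 _ hq
        calc (t / θ) ^ (3 * 5) = ((t / θ) ^ 7) ^ 2 * (t / θ) := by ring
          _ = _ := by rw [h2]; ring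
      rw [h1]
      field_simp
    set w := v * z with hw
    have hw0 : w ≠ 0 := mul_ne_zero hv0 hz0
    have hvw : v + w ≠ 0 := by
      rw [hw]
      have : v + v * z = v * (1 + z) := by ring
      rw [this]
      exact mul_ne_zero hv0 hz1'
    have h1 := hv' v
    have h2 := hv' w
    have h3 := hv' (v + w)
    have h4 := hadd _ _ _ _ _ _ (hadd _ _ _ _ _ _ h1 h2) h3
    have e1 : v ^ 2 + w ^ 2 + (v + w) ^ 2 = 0 := by
      linear_combination (v ^ 2 + w ^ 2 + v * w : K) * h20
    have e2 : v ^ 5 + w ^ 5 + (v + w) ^ 5 = t := by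
      rw [← hv5, hθ, hw]
      linear_combination (v ^ 5 * (z ^ 5 + 1 + 2 * z + 5 * z ^ 2 + 5 * z ^ 3 + 2 * z ^ 4) : K) * h20
    have e3 : v ^ 7 + w ^ 7 + (v + w) ^ 7 = 1 := by
      rw [h7 v hv0, h7 w hw0, h7 _ hvw]
      linear_combination h20
    rw [e1, e2, e3] at h4
    exact h4
  have h1 : 1 + z + (1 + z) = (0 : K) := hdbl _
  have h011 : P 0 0 1 := by
    have a1 := hY 1 one_ne_zero
    have a2 := hY z hz0
    have a3 := hY (1 + z) hz1'
    have := hadd _ _ _ _ _ _ (hadd _ _ _ _ _ _ a1 a2) a3
    rw [h1] at this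
    have e : (1 : K) + 1 + 1 = 1 := by
      linear_combination h20
    rw [e] at this
    simpa using this
  have hY0 : ∀ t : K, P 0 t 0 := by
    intro t
    by_cases ht : t = 0
    · rw [ht]
      exact h00
    · have := hadd _ _ _ _ _ _ (hY t ht) h011
      have e : (1 : K) + 1 = 0 := by
        linear_combination h20
      rw [e] at this
      simpa using this
  have hX0 : ∀ x : K, P x 0 0 := by
    intro x
    by_cases hx : x = 0
    · rw [hx]
      exact h00
    · set v := x ^ 4 with hvd
      have hv0 : v ≠ 0 := pow_ne_zero _ hx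
      have e1 : v ^ 2 = x := by
        rw [hvd, ← pow_mul]
        exact h8 x
      have h2 := hv' v
      rw [e1, h7 v hv0] at h2
      have h3 := hadd _ _ _ _ _ _ h2 (hY0 (v ^ 5))
      rw [hdbl, add_zero, add_zero] at h3
      have h4 := hadd _ _ _ _ _ _ h3 h011
      have e : (1 : K) + 1 = 0 := by
        linear_combination h20
      rw [e] at h4
      simpa using h4
  intro x y
  have h5 := hadd _ _ _ _ _ _ (hX0 x) (hY0 y)
  have h6 := hadd _ _ _ _ _ _ h5 h011
  simp only [add_zero, zero_add] at h5 h6
  exact ⟨h5, h6⟩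

/-- An element of nonzero trace on the field of eight elements. -/
theorem exists_trace (hK : Fintype.card K = 8) {φ : K →+* K} (hφ : ∀ t, φ t = t ^ 2) :
    ∃ w : K, w + φ w + φ (φ w) ≠ 0 := by
  classical
  by_contra hcon
  push Not at hcon
  let P : Polynomial K := Polynomial.X ^ 4 + Polynomial.X ^ 2 + Polynomial.X
  have hP : P.natDegree ≤ 4 := by
    simp only [P]
    compute_degree
  have hc : P.coeff 4 = 1 := by
    simp only [P]
    simp [Polynomial.coeff_X, Polynomial.coeff_X_pow]
  have h0 : P = 0 := by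
    refine Polynomial.eq_zero_of_natDegree_lt_card_of_eval_eq_zero' P Finset.univ ?_ ?_
    · intro x _
      have := hcon x
      simp only [hφ] at this
      simp only [P, Polynomial.eval_add, Polynomial.eval_pow, Polynomial.eval_X]
      linear_combination this
    · rw [Finset.card_univ, hK]
      omega
  rw [h0] at hc
  simp at hc

end Cfsg.Agent.Lib.Twisted.Mult
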