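import Cfsg.Agent.Lib.Twisted.Mult.Ab

/-!
# A complement over a group generated by a normal elementary abelian section

Used for `³D₄(2)`, where the torus is too small for the chain of the classes of roots.
-/

set_option autoImplicit false
set_option linter.unusedSectionVars false

namespace Cfsg.Agent.Lib.Twisted.Mult

open scoped commutatorElement

/-- The order of the product of a group and a group normalising it. -/
theorem card_sup_le' {G : Type*} [Group G] [Finite G] (H K : Subgroup G)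
    (hn : ∀ k ∈ K, ∀ h ∈ H, k * h * k⁻¹ ∈ H) : Nat.card ↥(H ⊔ K) ≤ Nat.card ↥H * Nat.card ↥K := by
  have hform : ∀ g ∈ H ⊔ K, ∃ h ∈ H, ∃ k ∈ K, g = h * k := by
    intro g hg
    rw [Subgroup.sup_eq_closure] at hg
    refine Subgroup.closure_induction_left (p := fun g _ => ∃ h ∈ H, ∃ k ∈ K, g = h * k)
      ⟨1, H.one_mem, 1, K.one_mem, by simp⟩ ?_ ?_ hg
    · rintro a (ha | ha) _ _ ⟨h, hh, k, hk, rfl⟩
      · exact ⟨a * h, H.mul_mem ha hh, k, hk, by group⟩
      · exact ⟨a * h * a⁻¹, hn a ha h hh, a * k, K.mul_mem ha hk, by group⟩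
    · rintro a (ha | ha) _ _ ⟨h, hh, k, hk, rfl⟩
      · exact ⟨a⁻¹ * h, H.mul_mem (H.inv_mem ha) hh, k, hk, by group⟩
      · exact ⟨a⁻¹ * h * a⁻¹⁻¹, hn _ (K.inv_mem ha) h hh, a⁻¹ * k, K.mul_mem (K.inv_mem ha) hk, by group⟩
  rw [← Nat.card_prod]
  let f : ↥H × ↥K → ↥(H ⊔ K) := fun p =>
    ⟨p.1 * p.2, Subgroup.mul_mem _ (Subgroup.mem_sup_left p.1.2) (Subgroup.mem_sup_right p.2.2)⟩
  refine Nat.card_le_card_of_surjective f ?_
  rintro ⟨g, hg⟩
  obtain ⟨h, hh, k, hk, rfl⟩ := hform g hg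
  exact ⟨(⟨h, hh⟩, ⟨k, hk⟩), rfl⟩

/-- The order of a group generated by involutions commuting modulo a normalised group. -/
theorem card_gen_le {G ι : Type*} [Group G] [Finite G] (Z : Subgroup G) (y : ι → G) (T : Finset ι)
    (hy2 : ∀ i, y i ^ 2 = 1) (hZ : ∀ i, ∀ z ∈ Z, y i * z * (y i)⁻¹ ∈ Z)
    (hcomm : ∀ i j, ⁅y i, y j⁆ ∈ Z) :
    Nat.card ↥(Subgroup.closure ((Z : Set G) ∪ y '' (T : Set ι))) ≤ Nat.card ↥Z * 2 ^ T.card := by
  classical
  induction T using Finset.induction_on with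
  | empty =>
    simp
  | insert i T hi ih =>
    set H := Subgroup.closure ((Z : Set G) ∪ y '' (T : Set ι)) with hH
    have hle : Subgroup.closure ((Z : Set G) ∪ y '' (↑(insert i T) : Set ι)) ≤ H ⊔ Subgroup.zpowers (y i) := by
      rw [Subgroup.closure_le]
      rintro g (hg | ⟨j, hj, rfl⟩)
      · exact Subgroup.mem_sup_left (Subgroup.subset_closure (Or.inl hg))
      · rcases Finset.mem_insert.1 (Finset.mem_coe.1 hj) with rfl | hj
        · exact Subgroup.mem_sup_right (Subgroup.mem_zpowers _)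
        · exact Subgroup.mem_sup_left (Subgroup.subset_closure (Or.inr ⟨j, hj, rfl⟩))
    have hconj : ∀ h ∈ H, y i * h * (y i)⁻¹ ∈ H := by
      intro h hh
      induction hh using Subgroup.closure_induction with
      | mem a ha =>
        rcases ha with ha | ⟨j, hj, rfl⟩
        · exact Subgroup.subset_closure (Or.inl (hZ i a ha))
        · have e : y i * y j * (y i)⁻¹ = ⁅y i, y j⁆ * y j := by
            rw [commutatorElement_def]
            group
          rw [e]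
          exact H.mul_mem (Subgroup.subset_closure (Or.inl (hcomm i j)))
            (Subgroup.subset_closure (Or.inr ⟨j, hj, rfl⟩))
      | one => simp [H.one_mem]
      | mul a b _ _ ha hb =>
        have e : y i * (a * b) * (y i)⁻¹ = (y i * a * (y i)⁻¹) * (y i * b * (y i)⁻¹) := by group
        rw [e]
        exact H.mul_mem ha hb
      | inv a _ ha =>
        have e : y i * a⁻¹ * (y i)⁻¹ = (y i * a * (y i)⁻¹)⁻¹ := by group
        rw [e]
        exact H.inv_mem ha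
    have hinv : (y i)⁻¹ = y i := by
      rw [inv_eq_iff_mul_eq_one, ← sq, hy2]
    have hnorm : y i ∈ Subgroup.normalizer (H : Set G) := by
      rw [Subgroup.mem_normalizer_iff]
      intro h
      refine ⟨hconj h, fun h2 => ?_⟩
      have := hconj _ h2
      have e : y i * (y i * h * (y i)⁻¹) * (y i)⁻¹ = h := by
        rw [hinv]
        have e2 : y i * y i = 1 := by rw [← sq, hy2]
        calc y i * (y i * h * y i) * y i = (y i * y i) * h * (y i * y i) := by group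
          _ = h := by rw [e2]; group
      rwa [e] at this
    have hz : Subgroup.zpowers (y i) ≤ Subgroup.normalizer (H : Set G) := by
      rw [Subgroup.zpowers_le]
      exact hnorm
    have h1 := card_sup_le' H (Subgroup.zpowers (y i)) (fun k hk h hh =>
      (Subgroup.mem_normalizer_iff.1 (hz hk) h).1 hh)
    have h2 : Nat.card ↥(Subgroup.zpowers (y i)) ≤ 2 := by
      rw [Nat.card_zpowers]
      exact orderOf_le_of_pow_eq_one (by norm_num) (hy2 i)
    have h3 : Nat.card ↥(Subgroup.closure ((Z : Set G) ∪ y '' (↑(insert i T) : Set ι))) ≤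
        Nat.card ↥(H ⊔ Subgroup.zpowers (y i)) := Subgroup.card_le_of_le hle
    rw [Finset.card_insert_of_notMem hi, pow_succ]
    calc _ ≤ _ := h3
      _ ≤ _ := h1
      _ ≤ (Nat.card ↥Z * 2 ^ T.card) * 2 := Nat.mul_le_mul ih h2
      _ = _ := by ring

variable {Γ G E : Type*} [Group Γ] [Group G] [Finite Γ] [Finite G] [AddCommGroup E] [Fintype E]

/-- The section. -/
theorem two_section {σ : Γ →* G} (hs : Function.Surjective σ) (hc : σ.ker ≤ Subgroup.center Γ)
    (A : E → G) (s : E → Γ) (hsA : ∀ u, σ (s u) = A u) (hsadd : ∀ u v, s (u + v) = s u * s v)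
    (B Z n : G) (hB2 : B ^ 2 = 1) (hnZ : n * Z * n⁻¹ = B)
    {w₀ : E} (hw₀ : w₀ ≠ 0)
    (hZc : ∀ w, w ≠ 0 → ⁅B, A w * B * (A w)⁻¹⁆ = Z)
    (hZA : ∀ a b u, σ a = Z → σ b = A u → a * b = b * a)
    (hZB : ∀ a b, σ a = Z → σ b = B → a * b = b * a)
    (hact : ∀ w w', w ≠ 0 → w' ≠ 0 → ∃ h : G, ∃ m, Odd m ∧ h ^ m = 1 ∧ h * B * h⁻¹ = B ∧
       h * (A w * B * (A w)⁻¹) * h⁻¹ = A w' * B * (A w')⁻¹)
    (U : Subgroup G) (hAU : ∀ u, A u ∈ U) (hBU : B ∈ U)
    (hgen : ∀ W : Subgroup G, (∀ u, A u ∈ W) → B ∈ W → U ≤ W)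
    (hcard : 2 * 2 ^ Fintype.card E * Fintype.card E ≤ Nat.card U) :
    ∃ V : Subgroup Γ, (∀ g ∈ V, σ g = 1 → g = 1) ∧ (∀ u ∈ U, ∃ g ∈ V, σ g = u) ∧ ∀ g ∈ V, σ g ∈ U := by
  classical
  have hcen : ∀ x : Γ, σ x = 1 → ∀ g, g * x = x * g := fun x hx g =>
    Subgroup.mem_center_iff.mp (hc (MonoidHom.mem_ker.mpr hx)) g
  obtain ⟨b, hb⟩ := hs B
  -- the lifts
  let e : E → Γ := fun w => s w * b * (s w)⁻¹
  have he : ∀ w, σ (e w) = A w * B * (A w)⁻¹ := by
    intro w
    simp only [e, map_mul, map_inv, hsA, hb]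
  let g : E → Γ := fun w => ⁅b, e w⁆
  have hg : ∀ w, w ≠ 0 → σ (g w) = Z := by
    intro w hw
    simp only [g, map_commutatorElement, hb, he, hZc w hw]
  have hbsq : σ (b ^ 2) = 1 := by rw [map_pow, hb, hB2]
  have hgb : ∀ w, w ≠ 0 → g w * b = b * g w := fun w hw => hZB _ _ (hg w hw) hb
  have hgs : ∀ w, w ≠ 0 → ∀ u, g w * s u = s u * g w := fun w hw u => hZA _ _ u (hg w hw) (hsA u)
  have hsq : ∀ w, w ≠ 0 → g w * g w = 1 := by
    intro w hw
    have h1 : b * e w * b⁻¹ = g w * e w := by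
      simp only [g, commutatorElement_def]
      group
    have h2 : b * (b * e w * b⁻¹) * b⁻¹ = e w := by
      have h3 := hcen _ hbsq (e w)
      rw [sq] at h3
      calc b * (b * e w * b⁻¹) * b⁻¹ = (b * b) * e w * (b * b)⁻¹ := by group
        _ = e w * (b * b) * (b * b)⁻¹ := by rw [hcen _ (by rw [← sq]; exact hbsq) (e w) |>.symm]
        _ = e w := by group
    rw [h1] at h2
    have h4 : b * (g w * e w) * b⁻¹ = g w * (b * e w * b⁻¹) := by
      calc b * (g w * e w) * b⁻¹ = (b * g w) * e w * b⁻¹ := by group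
        _ = (g w * b) * e w * b⁻¹ := by rw [hgb w hw]
        _ = _ := by group
    rw [h4, h1] at h2
    calc g w * g w = (g w * (g w * e w)) * (e w)⁻¹ := by group
      _ = e w * (e w)⁻¹ := by rw [h2]
      _ = 1 := by group
  -- all the commutators are equal
  have hgeq : ∀ w w', w ≠ 0 → w' ≠ 0 → g w = g w' := by
    intro w w' hw hw'
    obtain ⟨h, m, hm, hhm, hhB, hhE⟩ := hact w w' hw hw'
    obtain ⟨γ, rfl⟩ := hs h
    have h1 : γ * g w * γ⁻¹ = g w' := by
      have e1 : γ * g w * γ⁻¹ = ⁅γ * b * γ⁻¹, γ * e w * γ⁻¹⁆ := by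
        simp only [g, commutatorElement_def]
        group
      rw [e1]
      refine comm_eq_of_eq hc ?_ ?_
      · simp only [map_mul, map_inv]
        rw [hb, hhB]
      · simp only [map_mul, map_inv]
        rw [he, he, hhE]
    set z := (g w)⁻¹ * g w' with hz
    have hz1 : σ z = 1 := by
      rw [hz, map_mul, map_inv, hg w hw, hg w' hw']
      group
    have hzc := hcen z hz1
    have e2 : g w' = g w * z := by rw [hz]; group
    have hpow : ∀ k : ℕ, γ ^ k * g w * (γ ^ k)⁻¹ = g w * z ^ k := by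
      intro k
      induction k with
      | zero => simp
      | succ k ih =>
        have e3 : γ * z * γ⁻¹ = z := by
          rw [hzc γ]
          group
        have hzk : γ * z ^ k * γ⁻¹ = z ^ k := by
          rw [← conj_pow, e3]
        calc γ ^ (k + 1) * g w * (γ ^ (k + 1))⁻¹ = γ * (γ ^ k * g w * (γ ^ k)⁻¹) * γ⁻¹ := by
              rw [pow_succ']
              group
          _ = γ * (g w * z ^ k) * γ⁻¹ := by rw [ih]
          _ = (γ * g w * γ⁻¹) * (γ * z ^ k * γ⁻¹) := by group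
          _ = g w * z ^ (k + 1) := by
            rw [h1, hzk, e2, pow_succ']
            group
    have h2 : σ (γ ^ m) = 1 := by rw [map_pow, hhm]
    have h3 := hpow m
    have h4 : γ ^ m * g w * (γ ^ m)⁻¹ = g w := by
      rw [← hcen _ h2 (g w)]
      group
    rw [h4] at h3
    have hzm : z ^ m = 1 := by
      have := mul_left_cancel (a := g w) (b := 1) (c := z ^ m) (by rw [mul_one]; exact h3)
      exact this.symm
    have hz2 : z * z = 1 := by
      have h5 := hsq w' hw'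
      rw [e2] at h5
      have h6 : g w * z * (g w * z) = (g w * g w) * (z * z) := by
        calc g w * z * (g w * z) = g w * (z * g w) * z := by group
          _ = g w * (g w * z) * z := by rw [hzc (g w)]
          _ = _ := by group
      rw [h6, hsq w hw, one_mul] at h5
      exact h5
    obtain ⟨k, rfl⟩ := hm
    have hz3 : z = 1 := by
      have h5 : z ^ (2 * k) = 1 := by
        rw [pow_mul, sq, hz2, one_pow]
      rw [pow_succ, h5, one_mul] at hzm
      exact hzm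
    rw [e2, hz3, mul_one]
  set g₁ := g w₀ with hg₁
  have hg₁σ : σ g₁ = Z := hg w₀ hw₀
  have hg₁2 : g₁ ^ 2 = 1 := by
    rw [sq]
    exact hsq w₀ hw₀
  obtain ⟨ν, hν⟩ := hs n
  let y₀ : Γ := ν * g₁ * ν⁻¹
  have hy₀ : σ y₀ = B := by
    simp only [y₀, map_mul, map_inv, hν, hg₁σ, hnZ]
  have hy₀2 : y₀ ^ 2 = 1 := by
    simp only [y₀]
    rw [conj_pow, hg₁2]
    group
  let y : E → Γ := fun u => s u * y₀ * (s u)⁻¹
  have hyσ : ∀ u, σ (y u) = A u * B * (A u)⁻¹ := by
    intro u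
    simp only [y, map_mul, map_inv, hsA, hy₀]
  have hy2 : ∀ u, y u ^ 2 = 1 := by
    intro u
    simp only [y]
    rw [conj_pow, hy₀2]
    group
  have hg₁s : ∀ u, g₁ * s u = s u * g₁ := fun u => hgs w₀ hw₀ u
  have hg₁y₀ : g₁ * y₀ = y₀ * g₁ := hZB _ _ hg₁σ hy₀
  have hg₁y : ∀ u, g₁ * y u = y u * g₁ := by
    intro u
    simp only [y]
    calc g₁ * (s u * y₀ * (s u)⁻¹) = (g₁ * s u) * y₀ * (s u)⁻¹ := by group
      _ = s u * (g₁ * y₀) * (s u)⁻¹ := by rw [hg₁s u]; group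
      _ = s u * y₀ * (g₁ * (s u)⁻¹) := by rw [hg₁y₀]; group
      _ = s u * y₀ * ((s u)⁻¹ * g₁) := by
        have : g₁ * (s u)⁻¹ = (s u)⁻¹ * g₁ := by
          have h := hg₁s u
          calc g₁ * (s u)⁻¹ = (s u)⁻¹ * (s u * g₁) * (s u)⁻¹ := by group
            _ = (s u)⁻¹ * (g₁ * s u) * (s u)⁻¹ := by rw [h]
            _ = _ := by group
        rw [this]
      _ = _ := by group
  have hs0 : s 0 = 1 := by
    have := hsadd 0 0
    rw [add_zero] at this
    exact mul_eq_left.mp this.symm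
  have hconj : ∀ u v, s u * y v * (s u)⁻¹ = y (u + v) := by
    intro u v
    simp only [y]
    rw [hsadd]
    group
  have hcomm0 : ∀ w, w ≠ 0 → ⁅y 0, y w⁆ = g₁ := by
    intro w hw
    have h1 : ⁅y 0, y w⁆ = g w := by
      refine comm_eq_of_eq hc (a := b) (b := e w) ?_ ?_
      · simp only [y, hs0]
        rw [map_mul, map_mul, map_inv, map_one, hb, hy₀]
        group
      · rw [he, hyσ]
    rw [h1]
    exact hgeq w w₀ hw hw₀
  have hcomm : ∀ u v, ⁅y u, y v⁆ ∈ Subgroup.zpowers g₁ := by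
    intro u v
    by_cases huv : u = v
    · subst huv
      simp [Subgroup.one_mem]
    · have hw : v - u ≠ 0 := sub_ne_zero.2 (Ne.symm huv)
      have e1 : ⁅y u, y v⁆ = s u * ⁅y 0, y (v - u)⁆ * (s u)⁻¹ := by
        have e2 : y u = s u * y 0 * (s u)⁻¹ := by
          rw [hconj, add_zero]
        have e3 : y v = s u * y (v - u) * (s u)⁻¹ := by
          rw [hconj]
          congr 1
          abel
        rw [e2, e3, commutatorElement_def, commutatorElement_def]
        conv_lhs => rw [← e2]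
        rw [← e3]
        have e4 : y 0 = (s u)⁻¹ * y u * s u := by
          rw [e2]
          simp only [mul_assoc, inv_mul_cancel_left, inv_mul_cancel, mul_one]
        have e5 : y (v - u) = (s u)⁻¹ * y v * s u := by
          rw [e3]
          simp only [mul_assoc, inv_mul_cancel_left, inv_mul_cancel, mul_one]
        rw [e4, e5]
        group
      rw [e1, hcomm0 _ hw]
      have e2 : s u * g₁ * (s u)⁻¹ = g₁ := by
        rw [← hg₁s u]
        group
      rw [e2]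
      exact Subgroup.mem_zpowers g₁
  have hZ₁ : ∀ u, ∀ z ∈ Subgroup.zpowers g₁, y u * z * (y u)⁻¹ ∈ Subgroup.zpowers g₁ := by
    intro u z hz
    obtain ⟨k, rfl⟩ := Subgroup.mem_zpowers_iff.1 hz
    have e : y u * g₁ * (y u)⁻¹ = g₁ := by
      rw [← hg₁y u]
      group
    rw [← conj_zpow, e]
    exact Subgroup.zpow_mem_zpowers g₁ k
  set Q₁ := Subgroup.closure ((Subgroup.zpowers g₁ : Set Γ) ∪ y '' ((Finset.univ : Finset E) : Set E)) with hQ₁
  have hQ₁card : Nat.card ↥Q₁ ≤ 2 * 2 ^ Fintype.card E := by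
    have h1 := card_gen_le (Subgroup.zpowers g₁) y Finset.univ hy2 hZ₁ hcomm
    have h2 : Nat.card ↥(Subgroup.zpowers g₁) ≤ 2 := by
      rw [Nat.card_zpowers]
      exact orderOf_le_of_pow_eq_one (by norm_num) hg₁2
    rw [Finset.card_univ] at h1
    exact h1.trans (Nat.mul_le_mul_right _ h2)
  let S₁ : Subgroup Γ :=
    { carrier := Set.range s
      mul_mem' := by
        rintro _ _ ⟨u, rfl⟩ ⟨v, rfl⟩
        exact ⟨u + v, hsadd u v⟩
      one_mem' := ⟨0, hs0⟩
      inv_mem' := by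
        rintro _ ⟨u, rfl⟩
        refine ⟨-u, ?_⟩
        have := hsadd (-u) u
        rw [neg_add_cancel, hs0] at this
        exact eq_inv_of_mul_eq_one_left this.symm }
  have hS₁card : Nat.card ↥S₁ ≤ Fintype.card E := by
    rw [← Nat.card_eq_fintype_card]
    refine Nat.card_le_card_of_surjective (fun u => (⟨s u, ⟨u, rfl⟩⟩ : ↥S₁)) ?_
    rintro ⟨_, ⟨u, rfl⟩⟩
    exact ⟨u, rfl⟩
  have hnorm : ∀ k ∈ S₁, ∀ h ∈ Q₁, k * h * k⁻¹ ∈ Q₁ := by
    rintro _ ⟨u, rfl⟩ h hh
    induction hh using Subgroup.closure_induction with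
    | mem a ha =>
      rcases ha with ha | ⟨v, -, rfl⟩
      · obtain ⟨k, rfl⟩ := Subgroup.mem_zpowers_iff.1 ha
        have e : s u * g₁ * (s u)⁻¹ = g₁ := by
          rw [← hg₁s u]
          group
        rw [← conj_zpow, e]
        exact Subgroup.subset_closure (Or.inl (Subgroup.zpow_mem_zpowers g₁ k))
      · rw [hconj]
        exact Subgroup.subset_closure (Or.inr ⟨_, by simp, rfl⟩)
    | one => simp [Q₁.one_mem]
    | mul a b _ _ ha hb =>
      have e : s u * (a * b) * (s u)⁻¹ = (s u * a * (s u)⁻¹) * (s u * b * (s u)⁻¹) := by group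
      rw [e]
      exact Q₁.mul_mem ha hb
    | inv a _ ha =>
      have e : s u * a⁻¹ * (s u)⁻¹ = (s u * a * (s u)⁻¹)⁻¹ := by group
      rw [e]
      exact Q₁.inv_mem ha
  have hVcard := card_sup_le' Q₁ S₁ hnorm
  have hVU : ∀ x ∈ Q₁ ⊔ S₁, σ x ∈ U := by
    have h1 : Q₁ ⊔ S₁ ≤ U.comap σ := by
      refine sup_le ?_ ?_
      · rw [hQ₁, Subgroup.closure_le]
        rintro _ (ha | ⟨v, -, rfl⟩)
        · obtain ⟨k, rfl⟩ := Subgroup.mem_zpowers_iff.1 ha
          refine Subgroup.zpow_mem _ ?_ k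
          show σ g₁ ∈ U
          rw [hg₁σ, ← hZc w₀ hw₀, commutatorElement_def]
          have h2 : A w₀ * B * (A w₀)⁻¹ ∈ U := U.mul_mem (U.mul_mem (hAU _) hBU) (U.inv_mem (hAU _))
          exact U.mul_mem (U.mul_mem (U.mul_mem hBU h2) (U.inv_mem hBU)) (U.inv_mem h2)
        · show σ (y v) ∈ U
          rw [hyσ]
          exact U.mul_mem (U.mul_mem (hAU _) hBU) (U.inv_mem (hAU _))
      · rintro _ ⟨u, rfl⟩
        show σ (s u) ∈ U
        rw [hsA]
        exact hAU u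
    exact fun x hx => h1 hx
  have hsurj : ∀ u ∈ U, ∃ x ∈ Q₁ ⊔ S₁, σ x = u := by
    have h1 : U ≤ (Q₁ ⊔ S₁).map σ := by
      refine hgen _ ?_ ?_
      · intro u
        exact ⟨s u, Subgroup.mem_sup_right ⟨u, rfl⟩, hsA u⟩
      · refine ⟨y 0, Subgroup.mem_sup_left (Subgroup.subset_closure (Or.inr ⟨0, by simp, rfl⟩)), ?_⟩
        rw [hyσ, ← hsA 0, hs0, map_one]
        group
    intro u hu
    obtain ⟨x, hx, e⟩ := h1 hu
    exact ⟨x, hx, e⟩
  refine ⟨Q₁ ⊔ S₁, ?_, hsurj, hVU⟩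
  let f : ↥(Q₁ ⊔ S₁) → ↥U := fun x => ⟨σ x.1, hVU x.1 x.2⟩
  have hf : Function.Surjective f := by
    rintro ⟨u, hu⟩
    obtain ⟨x, hx, e⟩ := hsurj u hu
    exact ⟨⟨x, hx⟩, Subtype.ext e⟩
  have hle : Nat.card ↥(Q₁ ⊔ S₁) ≤ Nat.card ↥U :=
    hVcard.trans ((Nat.mul_le_mul hQ₁card hS₁card).trans hcard)
  have hb' := hf.bijective_of_nat_card_le hle
  intro x hx h1
  have e : f ⟨x, hx⟩ = f ⟨1, Subgroup.one_mem _⟩ := Subtype.ext (by
    show σ x = σ 1
    rw [h1, map_one])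
  exact congrArg Subtype.val (hb'.1 e)

/-- An additive section over a group with a fixed-point-free element. -/
theorem exists_add_section {σ : Γ →* G} (hs : Function.Surjective σ) (hc : σ.ker ≤ Subgroup.center Γ)
    {X : Subgroup G} (hab : ∀ a b, σ a ∈ X → σ b ∈ X → a * b = b * a) {h : G} (hn : ∀ x ∈ X, h * x * h⁻¹ ∈ X)
    (hX : ∀ x ∈ X, ∀ y ∈ X, x * y = y * x) (hf : ∀ x ∈ X, h * x * h⁻¹ = x → x = 1)
    (A : E → G) (hA : ∀ u, A u ∈ X) (hadd : ∀ u v, A (u + v) = A u * A v) :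
    ∃ s : E → Γ, (∀ u, σ (s u) = A u) ∧ ∀ u v, s (u + v) = s u * s v := by
  obtain ⟨γ, rfl⟩ := hs h
  have hex : ∀ u, ∃ g ∈ Yg σ X γ hab hn, σ g = A u := fun u => Yg_surj hs hab hn hX hf (hA u)
  choose s hs1 hs2 using hex
  refine ⟨s, hs2, fun u v => ?_⟩
  have h1 : (s u * s v)⁻¹ * s (u + v) ∈ Yg σ X γ hab hn :=
    Subgroup.mul_mem _ (Subgroup.inv_mem _ (Subgroup.mul_mem _ (hs1 u) (hs1 v))) (hs1 _)
  have h2 : σ ((s u * s v)⁻¹ * s (u + v)) = 1 := by
    rw [map_mul, map_inv, map_mul, hs2, hs2, hs2, hadd]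
    group
  have h3 := Yg_inj hc hab hn hf h1 h2
  exact (inv_mul_eq_one.mp h3).symm

/-- Elements commuting with preimages of two groups commute with the preimages of their commutators. -/
theorem comm_of_comm' {σ : Γ →* G} (hs : Function.Surjective σ) (hc : σ.ker ≤ Subgroup.center Γ) {Xb Xc : Subgroup G} {a : Γ}
    (h1 : ∀ b, σ b ∈ Xb → a * b = b * a) (h2 : ∀ b, σ b ∈ Xc → a * b = b * a) {a' : Γ}
    (ha' : σ a' ∈ Subgroup.closure {g | ∃ y ∈ Xb, ∃ z ∈ Xc, g = ⁅y, z⁆}) : a * a' = a' * a := by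
  let C : Subgroup Γ := Subgroup.centralizer {a}
  have hmem : ∀ g : Γ, g * a = a * g → g ∈ C := by
    intro g hg
    rw [Subgroup.mem_centralizer_iff]
    intro h hh
    rw [Set.mem_singleton_iff] at hh
    rw [hh]
    exact hg.symm
  have hle : Subgroup.closure {g | ∃ y ∈ Xb, ∃ z ∈ Xc, g = ⁅y, z⁆} ≤ C.map σ := by
    rw [Subgroup.closure_le]
    rintro _ ⟨y, hy, w, hw, rfl⟩
    obtain ⟨y0, rfl⟩ := hs y
    obtain ⟨w0, rfl⟩ := hs w
    refine ⟨⁅y0, w0⁆, ?_, map_commutatorElement σ y0 w0⟩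
    have hy' := hmem y0 (h1 y0 hy).symm
    have hw' := hmem w0 (h2 w0 hw).symm
    rw [commutatorElement_def]
    exact Subgroup.mul_mem _ (Subgroup.mul_mem _ (Subgroup.mul_mem _ hy' hw') (Subgroup.inv_mem _ hy'))
      (Subgroup.inv_mem _ hw')
  obtain ⟨c, hcC, e⟩ := hle ha'
  have hk : c⁻¹ * a' ∈ σ.ker := by
    rw [MonoidHom.mem_ker, map_mul, map_inv, e, inv_mul_cancel]
  have e2 : a' = c * (c⁻¹ * a') := by group
  have h3 : c * a = a * c := by
    have := Subgroup.mem_centralizer_iff.mp hcC a (Set.mem_singleton a)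
    exact this.symm
  have h4 : a * (c⁻¹ * a') = (c⁻¹ * a') * a := Subgroup.mem_center_iff.mp (hc hk) a
  rw [e2]
  calc a * (c * (c⁻¹ * a')) = (a * c) * (c⁻¹ * a') := by group
    _ = (c * a) * (c⁻¹ * a') := by rw [h3]
    _ = c * (a * (c⁻¹ * a')) := by group
    _ = c * ((c⁻¹ * a') * a) := by rw [h4]
    _ = _ := by group

/-- The commutator of products of three factors. -/
theorem tri_comm {G : Type*} [Group G] {a1 a2 a3 b1 b2 b3 z1 z2 z3 : G}
    (h11 : a1 * b1 = b1 * a1 * z1) (h22 : a2 * b2 = b2 * a2 * z2) (h33 : a3 * b3 = b3 * a3 * z3)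
    (c12 : a1 * b2 = b2 * a1) (c13 : a1 * b3 = b3 * a1) (c21 : a2 * b1 = b1 * a2) (c23 : a2 * b3 = b3 * a2)
    (c31 : a3 * b1 = b1 * a3) (c32 : a3 * b2 = b2 * a3)
    (z1b2 : z1 * b2 = b2 * z1) (z1b3 : z1 * b3 = b3 * z1) (z2b3 : z2 * b3 = b3 * z2)
    (z1a2 : z1 * a2 = a2 * z1) (z1a3 : z1 * a3 = a3 * z1) (z2a3 : z2 * a3 = a3 * z2) :
    (a1 * a2 * a3) * (b1 * b2 * b3) = (b1 * b2 * b3) * (a1 * a2 * a3) * (z1 * z2 * z3) := by
  have e3 : a3 * (b1 * b2 * b3) = (b1 * b2 * b3) * a3 * z3 := by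
    calc a3 * (b1 * b2 * b3) = (a3 * b1) * b2 * b3 := by group
      _ = b1 * (a3 * b2) * b3 := by rw [c31]; group
      _ = b1 * b2 * (a3 * b3) := by rw [c32]; group
      _ = _ := by rw [h33]; group
  have e2 : a2 * (b1 * b2 * b3) = (b1 * b2 * b3) * a2 * z2 := by
    calc a2 * (b1 * b2 * b3) = (a2 * b1) * b2 * b3 := by group
      _ = b1 * (a2 * b2) * b3 := by rw [c21]; group
      _ = b1 * b2 * a2 * (z2 * b3) := by rw [h22]; group
      _ = b1 * b2 * (a2 * b3) * z2 := by rw [z2b3]; group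
      _ = _ := by rw [c23]; group
  have e1 : a1 * (b1 * b2 * b3) = (b1 * b2 * b3) * a1 * z1 := by
    calc a1 * (b1 * b2 * b3) = (a1 * b1) * b2 * b3 := by rw [mul_assoc a1 b1 b2, ← mul_assoc]
      _ = b1 * a1 * (z1 * b2) * b3 := by rw [h11]; group
      _ = b1 * (a1 * b2) * (z1 * b3) := by rw [z1b2]; group
      _ = b1 * b2 * (a1 * b3) * z1 := by rw [c12, z1b3]; group
      _ = _ := by rw [c13]; group
  set y := b1 * b2 * b3
  calc a1 * a2 * a3 * y = a1 * a2 * (a3 * y) := by group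
    _ = a1 * (a2 * y) * a3 * z3 := by rw [e3]; group
    _ = (a1 * y) * a2 * (z2 * a3) * z3 := by rw [e2]; group
    _ = y * a1 * (z1 * a2) * a3 * z2 * z3 := by rw [e1, z2a3]; group
    _ = y * a1 * a2 * (z1 * a3) * z2 * z3 := by rw [z1a2]; group
    _ = _ := by rw [z1a3]; group

end Cfsg.Agent.Lib.Twisted.Mult
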