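import Cfsg.Agent.Lib.Twisted.Mult.D4Main
import Cfsg.Agent.Lib.Twisted.Mult.TwoSec
import Cfsg.Agent.Lib.Twisted.Mult.F8

/-!
# `³D₄(2)`: a complement over the unipotent group
-/

set_option autoImplicit false
set_option maxRecDepth 1000000
set_option linter.unusedSectionVars false
set_option linter.unusedVariables false

namespace Cfsg.Agent.Lib.Twisted.D4

open Cfsg.Lie Cfsg.Agent.Lib.Chevalley.Reflect
open Cfsg.Agent.Lib.Chevalley.Tbl.D4 (cols colOK sys comm)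
open Cfsg.Agent.Lib.ChevBN.Elem Cfsg.Agent.Lib.ChevBN.Table Cfsg.Agent.Lib.ChevBN.Opp
open Cfsg.Agent.Lib.ChevBN.FastData (tbl_chevD4)
open Cfsg.Agent.Lib.Twisted.Mult Cfsg.Agent.Lib.BNPair.CoxeterExchange
open Cfsg.Agent.Lib.Chevalley
open scoped commutatorElement

universe u

variable {K : Type u} [Field K]

set_option quotPrecheck false in
/-- The root elements. -/
local notation "Xr" => X (sys (F := _)).toAddRel

/-- Commuting root elements. -/
theorem cmt {a b : ℕ} (h : a < chevD4.nroots ∧ b < chevD4.nroots ∧ b ≠ a ∧ b ≠ chevD4.neg a ∧ chevD4.commTerms a b = [])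
    (x y : K) : Xr a x * Xr b y = Xr b y * Xr a x :=
  (comm_p h.1 h.2.1 h.2.2.1 h.2.2.2.1 h.2.2.2.2 x y).eq

/-- Conjugating a root element. -/
theorem stp {r s k : ℕ} {c : ℤ}
    (h : chevD4.IsPosRoot r ∧ chevD4.IsPosRoot s ∧ s ≠ r ∧ chevD4.commTerms r s = [(k, c, 1, 1)]) (t u : K) :
    Xr r t * Xr s u * (Xr r t)⁻¹ = Xr s u * Xr k ((c : K) * t * u) := by
  have h3 := Cfsg.Agent.Lib.ChevBN.Rel.commPos sys r s h.1 h.2.1 h.2.2.1 (-t) u
  rw [ChevalleyDatum.commWord, h.2.2.2] at h3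
  simp only [List.map_cons, List.map_nil, pow_one, neg_neg, W_cons, W_nil, mul_one] at h3
  rw [X_inv]
  have e : Xr r t * Xr r (-t) = 1 := by
    rw [X_mul, add_neg_cancel, X_zero]
  calc Xr r t * Xr s u * Xr r (-t) = Xr r t * (Xr s u * Xr r (-t)) := by group
    _ = (Xr r t * Xr r (-t)) * (Xr s u * Xr k ((c : K) * t * u)) := by rw [h3]; group
    _ = _ := by rw [e, one_mul]

/-- The commutator formula for the pairs with sum the highest root. -/
theorem cf {r s k : ℕ}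
    (h : chevD4.IsPosRoot r ∧ chevD4.IsPosRoot s ∧ s ≠ r ∧ chevD4.commTerms r s = [(k, -1, 1, 1)]) (t u : K) :
    Xr s u * Xr r t = Xr r t * Xr s u * Xr k (t * u) := by
  have h3 := Cfsg.Agent.Lib.ChevBN.Rel.commPos sys r s h.1 h.2.1 h.2.2.1 t u
  rw [ChevalleyDatum.commWord, h.2.2.2] at h3
  simp only [List.map_cons, List.map_nil, pow_one, W_cons, W_nil, mul_one] at h3
  rw [h3]
  congr 2
  push_cast
  ring

theorem conj_mul' {G : Type*} [Group G] (g x y : G) : g * (x * y) * g⁻¹ = (g * x * g⁻¹) * (g * y * g⁻¹) := by group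

/-- The orbit in the second class. -/
noncomputable def oA (φ : K →+* K) (t : K) : GL chevD4.Idx K := Xr 16 t * Xr 15 (φ t) * Xr 19 (φ (φ t))

/-- The orbit in the third class. -/
noncomputable def oB (φ : K →+* K) (t : K) : GL chevD4.Idx K := Xr 20 t * Xr 21 (φ t) * Xr 17 (φ (φ t))

section Formulas

variable {φ : K →+* K}

theorem f2_add (s t : K) : oA φ (s + t) = oA φ s * oA φ t := by
  simp only [oA, map_add]
  rw [← X_mul, ← X_mul, ← X_mul]
  have c1 := cmt (K := K) (a := 15) (b := 16) (by decide +kernel) (φ s) t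
  have c2 := cmt (K := K) (a := 19) (b := 16) (by decide +kernel) (φ (φ s)) t
  have c3 := cmt (K := K) (a := 19) (b := 15) (by decide +kernel) (φ (φ s)) (φ t)
  calc Xr 16 s * Xr 16 t * (Xr 15 (φ s) * Xr 15 (φ t)) * (Xr 19 (φ (φ s)) * Xr 19 (φ (φ t)))
      = Xr 16 s * (Xr 16 t * Xr 15 (φ s)) * Xr 15 (φ t) * (Xr 19 (φ (φ s)) * Xr 19 (φ (φ t))) := by group
    _ = Xr 16 s * Xr 15 (φ s) * (Xr 16 t * Xr 15 (φ t) * Xr 19 (φ (φ s))) * Xr 19 (φ (φ t)) := by rw [← c1]; group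
    _ = Xr 16 s * Xr 15 (φ s) * (Xr 16 t * (Xr 15 (φ t) * Xr 19 (φ (φ s)))) * Xr 19 (φ (φ t)) := by group
    _ = Xr 16 s * Xr 15 (φ s) * ((Xr 16 t * Xr 19 (φ (φ s))) * Xr 15 (φ t)) * Xr 19 (φ (φ t)) := by rw [← c3]; group
    _ = Xr 16 s * Xr 15 (φ s) * (Xr 19 (φ (φ s)) * Xr 16 t * Xr 15 (φ t)) * Xr 19 (φ (φ t)) := by rw [← c2]
    _ = _ := by group

theorem f3_add (s t : K) : oB φ (s + t) = oB φ s * oB φ t := by
  simp only [oB, map_add]
  rw [← X_mul, ← X_mul, ← X_mul]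
  have c1 := cmt (K := K) (a := 21) (b := 20) (by decide +kernel) (φ s) t
  have c2 := cmt (K := K) (a := 17) (b := 20) (by decide +kernel) (φ (φ s)) t
  have c3 := cmt (K := K) (a := 17) (b := 21) (by decide +kernel) (φ (φ s)) (φ t)
  calc Xr 20 s * Xr 20 t * (Xr 21 (φ s) * Xr 21 (φ t)) * (Xr 17 (φ (φ s)) * Xr 17 (φ (φ t)))
      = Xr 20 s * (Xr 20 t * Xr 21 (φ s)) * Xr 21 (φ t) * (Xr 17 (φ (φ s)) * Xr 17 (φ (φ t))) := by group
    _ = Xr 20 s * Xr 21 (φ s) * (Xr 20 t * Xr 21 (φ t) * Xr 17 (φ (φ s))) * Xr 17 (φ (φ t)) := by rw [← c1]; group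
    _ = Xr 20 s * Xr 21 (φ s) * (Xr 20 t * (Xr 21 (φ t) * Xr 17 (φ (φ s)))) * Xr 17 (φ (φ t)) := by group
    _ = Xr 20 s * Xr 21 (φ s) * ((Xr 20 t * Xr 17 (φ (φ s))) * Xr 21 (φ t)) * Xr 17 (φ (φ t)) := by rw [← c3]; group
    _ = Xr 20 s * Xr 21 (φ s) * (Xr 17 (φ (φ s)) * Xr 20 t * Xr 21 (φ t)) * Xr 17 (φ (φ t)) := by rw [← c2]
    _ = _ := by group

theorem f2_zero : oA φ 0 = 1 := by
  simp [oA]

theorem f3_zero : oB φ 0 = 1 := by
  simp [oB]

/-- The highest root element commutes with the elements of the class of a root. -/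
theorem top_cm {r : ℕ} (h : r < chevD4.nroots ∧ 23 ≠ r ∧ 23 ≠ chevD4.neg r ∧ chevD4.commTerms r 23 = []) (s t : K) :
    Xr 23 s * Xr r t = Xr r t * Xr 23 s :=
  (cmt (a := r) (b := 23) ⟨h.1, by decide +kernel, h.2.1, h.2.2.1, h.2.2.2⟩ t s).symm

theorem top_f2 (s t : K) : Xr 23 s * oA φ t = oA φ t * Xr 23 s := by
  have c1 := top_cm (K := K) (r := 16) (by decide +kernel) s t
  have c2 := top_cm (K := K) (r := 15) (by decide +kernel) s (φ t)
  have c3 := top_cm (K := K) (r := 19) (by decide +kernel) s (φ (φ t))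
  simp only [oA]
  calc Xr 23 s * (Xr 16 t * Xr 15 (φ t) * Xr 19 (φ (φ t))) = (Xr 23 s * Xr 16 t) * Xr 15 (φ t) * Xr 19 (φ (φ t)) := by group
    _ = Xr 16 t * (Xr 23 s * Xr 15 (φ t)) * Xr 19 (φ (φ t)) := by rw [c1]; group
    _ = Xr 16 t * Xr 15 (φ t) * (Xr 23 s * Xr 19 (φ (φ t))) := by rw [c2]; group
    _ = _ := by rw [c3]; group

theorem top_f3 (s t : K) : Xr 23 s * oB φ t = oB φ t * Xr 23 s := by
  have c1 := top_cm (K := K) (r := 20) (by decide +kernel) s t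
  have c2 := top_cm (K := K) (r := 21) (by decide +kernel) s (φ t)
  have c3 := top_cm (K := K) (r := 17) (by decide +kernel) s (φ (φ t))
  simp only [oB]
  calc Xr 23 s * (Xr 20 t * Xr 21 (φ t) * Xr 17 (φ (φ t))) = (Xr 23 s * Xr 20 t) * Xr 21 (φ t) * Xr 17 (φ (φ t)) := by group
    _ = Xr 20 t * (Xr 23 s * Xr 21 (φ t)) * Xr 17 (φ (φ t)) := by rw [c1]; group
    _ = Xr 20 t * Xr 21 (φ t) * (Xr 23 s * Xr 17 (φ (φ t))) := by rw [c2]; group
    _ = _ := by rw [c3]; group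

theorem top_22 (s t : K) : Xr 23 s * Xr 22 t = Xr 22 t * Xr 23 s :=
  top_cm (K := K) (r := 22) (by decide +kernel) s t

theorem top_14 (s t : K) : Xr 23 s * Xr 14 t = Xr 14 t * Xr 23 s :=
  top_cm (K := K) (r := 14) (by decide +kernel) s t

/-- The element `X₂₂` commutes with the other classes. -/
theorem x22_f2 (s t : K) : Xr 22 s * oA φ t = oA φ t * Xr 22 s := by
  have c1 := cmt (K := K) (a := 22) (b := 16) (by decide +kernel) s t
  have c2 := cmt (K := K) (a := 22) (b := 15) (by decide +kernel) s (φ t)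
  have c3 := cmt (K := K) (a := 22) (b := 19) (by decide +kernel) s (φ (φ t))
  simp only [oA]
  calc Xr 22 s * (Xr 16 t * Xr 15 (φ t) * Xr 19 (φ (φ t))) = (Xr 22 s * Xr 16 t) * Xr 15 (φ t) * Xr 19 (φ (φ t)) := by group
    _ = Xr 16 t * (Xr 22 s * Xr 15 (φ t)) * Xr 19 (φ (φ t)) := by rw [c1]; group
    _ = Xr 16 t * Xr 15 (φ t) * (Xr 22 s * Xr 19 (φ (φ t))) := by rw [c2]; group
    _ = _ := by rw [c3]; group

theorem x22_f3 (s t : K) : Xr 22 s * oB φ t = oB φ t * Xr 22 s := by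
  have c1 := cmt (K := K) (a := 22) (b := 20) (by decide +kernel) s t
  have c2 := cmt (K := K) (a := 22) (b := 21) (by decide +kernel) s (φ t)
  have c3 := cmt (K := K) (a := 22) (b := 17) (by decide +kernel) s (φ (φ t))
  simp only [oB]
  calc Xr 22 s * (Xr 20 t * Xr 21 (φ t) * Xr 17 (φ (φ t))) = (Xr 22 s * Xr 20 t) * Xr 21 (φ t) * Xr 17 (φ (φ t)) := by group
    _ = Xr 20 t * (Xr 22 s * Xr 21 (φ t)) * Xr 17 (φ (φ t)) := by rw [c1]; group
    _ = Xr 20 t * Xr 21 (φ t) * (Xr 22 s * Xr 17 (φ (φ t))) := by rw [c2]; group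
    _ = _ := by rw [c3]; group

/-- The root element of the simple long root commutes with the classes `2`, `3`. -/
theorem x14_f2 (s t : K) : Xr 14 s * oA φ t = oA φ t * Xr 14 s := by
  have c1 := cmt (K := K) (a := 14) (b := 16) (by decide +kernel) s t
  have c2 := cmt (K := K) (a := 14) (b := 15) (by decide +kernel) s (φ t)
  have c3 := cmt (K := K) (a := 14) (b := 19) (by decide +kernel) s (φ (φ t))
  simp only [oA]
  calc Xr 14 s * (Xr 16 t * Xr 15 (φ t) * Xr 19 (φ (φ t))) = (Xr 14 s * Xr 16 t) * Xr 15 (φ t) * Xr 19 (φ (φ t)) := by group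
    _ = Xr 16 t * (Xr 14 s * Xr 15 (φ t)) * Xr 19 (φ (φ t)) := by rw [c1]; group
    _ = Xr 16 t * Xr 15 (φ t) * (Xr 14 s * Xr 19 (φ (φ t))) := by rw [c2]; group
    _ = _ := by rw [c3]; group

theorem x14_f3 (s t : K) : Xr 14 s * oB φ t = oB φ t * Xr 14 s := by
  have c1 := cmt (K := K) (a := 14) (b := 20) (by decide +kernel) s t
  have c2 := cmt (K := K) (a := 14) (b := 21) (by decide +kernel) s (φ t)
  have c3 := cmt (K := K) (a := 14) (b := 17) (by decide +kernel) s (φ (φ t))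
  simp only [oB]
  calc Xr 14 s * (Xr 20 t * Xr 21 (φ t) * Xr 17 (φ (φ t))) = (Xr 14 s * Xr 20 t) * Xr 21 (φ t) * Xr 17 (φ (φ t)) := by group
    _ = Xr 20 t * (Xr 14 s * Xr 21 (φ t)) * Xr 17 (φ (φ t)) := by rw [c1]; group
    _ = Xr 20 t * Xr 21 (φ t) * (Xr 14 s * Xr 17 (φ (φ t))) := by rw [c2]; group
    _ = _ := by rw [c3]; group

/-- The commutator of the third and second classes. -/
theorem f3_f2 (y x : K) : oB φ y * oA φ x =
    oA φ x * oB φ y * (Xr 23 (x * y) * Xr 23 (φ x * φ y) * Xr 23 (φ (φ x) * φ (φ y))) := by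
  refine tri_comm (cf (r := 16) (s := 20) (k := 23) (by decide +kernel) x y)
    (cf (r := 15) (s := 21) (k := 23) (by decide +kernel) (φ x) (φ y))
    (cf (r := 19) (s := 17) (k := 23) (by decide +kernel) (φ (φ x)) (φ (φ y)))
    (cmt (a := 20) (b := 15) (by decide +kernel) _ _) (cmt (a := 20) (b := 19) (by decide +kernel) _ _)
    (cmt (a := 21) (b := 16) (by decide +kernel) _ _) (cmt (a := 21) (b := 19) (by decide +kernel) _ _)
    (cmt (a := 17) (b := 16) (by decide +kernel) _ _) (cmt (a := 17) (b := 15) (by decide +kernel) _ _)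
    (top_cm (r := 15) (by decide +kernel) _ _) (top_cm (r := 19) (by decide +kernel) _ _) (top_cm (r := 19) (by decide +kernel) _ _)
    (top_cm (r := 21) (by decide +kernel) _ _) (top_cm (r := 17) (by decide +kernel) _ _) (top_cm (r := 17) (by decide +kernel) _ _)

/-- The commutator with the trace. -/
theorem f3_f2' (y x : K) : oB φ y * oA φ x = oA φ x * oB φ y * Xr 23 (x * y + φ (x * y) + φ (φ (x * y))) := by
  rw [f3_f2, X_mul, X_mul, map_mul, map_mul]

/-- The product of two elements of the form `f₂ f₃ X₂₂`. -/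
theorem prod_form (x y z x' y' z' : K) :
    (oA φ x * oB φ y * Xr 22 z) * (oA φ x' * oB φ y' * Xr 22 z') =
      (oA φ (x + x') * oB φ (y + y') * Xr 22 (z + z')) * Xr 23 (x' * y + φ (x' * y) + φ (φ (x' * y))) := by
  rw [f2_add, f3_add, ← X_mul]
  set T' := Xr 23 (x' * y + φ (x' * y) + φ (φ (x' * y))) with hT'
  have c0 := f3_f2' (φ := φ) y x'
  rw [← hT'] at c0
  have c1 := x22_f2 (φ := φ) z x'
  have c2 := x22_f3 (φ := φ) z y'
  have c3 : T' * oB φ y' = oB φ y' * T' := top_f3 _ _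
  have c4 : T' * Xr 22 z = Xr 22 z * T' := top_22 _ _
  have c5 : T' * Xr 22 z' = Xr 22 z' * T' := top_22 _ _
  calc oA φ x * oB φ y * Xr 22 z * (oA φ x' * oB φ y' * Xr 22 z')
      = oA φ x * oB φ y * (Xr 22 z * oA φ x') * oB φ y' * Xr 22 z' := by group
    _ = oA φ x * (oB φ y * oA φ x') * Xr 22 z * oB φ y' * Xr 22 z' := by rw [c1]; group
    _ = oA φ x * oA φ x' * oB φ y * T' * (Xr 22 z * oB φ y') * Xr 22 z' := by rw [c0]; group
    _ = oA φ x * oA φ x' * oB φ y * (T' * oB φ y') * Xr 22 z * Xr 22 z' := by rw [c2]; group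
    _ = oA φ x * oA φ x' * oB φ y * oB φ y' * (T' * Xr 22 z) * Xr 22 z' := by rw [c3]; group
    _ = oA φ x * oA φ x' * oB φ y * oB φ y' * Xr 22 z * (T' * Xr 22 z') := by rw [c4]; group
    _ = _ := by rw [c5]; group

/-- The conjugate of the simple long root element by the elements of the class of the short simple roots. -/
theorem E_form (hn1 : (-1 : K) = 1) (a b c : K) :
    (Xr 18 a * (Xr 13 b * (Xr 12 c * 1))) * Xr 14 1 * (Xr 18 a * (Xr 13 b * (Xr 12 c * 1)))⁻¹ =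
      Xr 14 1 * (Xr 19 a * Xr 16 b * Xr 21 (a * b) * Xr 15 c * Xr 20 (a * c) * Xr 17 (b * c) * Xr 22 (a * b * c)) := by
  have hc : ((-1 : ℤ) : K) = 1 := by
    push_cast
    exact hn1
  have s1 : Xr 12 c * Xr 14 1 * (Xr 12 c)⁻¹ = Xr 14 1 * Xr 15 c := by
    have := stp (K := K) (r := 12) (s := 14) (k := 15) (c := 1) (by decide +kernel) c 1
    simpa using this
  have s2a : Xr 13 b * Xr 14 1 * (Xr 13 b)⁻¹ = Xr 14 1 * Xr 16 b := by
    have := stp (K := K) (r := 13) (s := 14) (k := 16) (c := 1) (by decide +kernel) b 1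
    simpa using this
  have s2b : Xr 13 b * Xr 15 c * (Xr 13 b)⁻¹ = Xr 15 c * Xr 17 (b * c) := by
    have := stp (K := K) (r := 13) (s := 15) (k := 17) (c := 1) (by decide +kernel) b c
    simpa using this
  have s3a : Xr 18 a * Xr 14 1 * (Xr 18 a)⁻¹ = Xr 14 1 * Xr 19 a := by
    have := stp (K := K) (r := 18) (s := 14) (k := 19) (c := -1) (by decide +kernel) a 1
    rw [hc] at this
    simpa using this
  have s3b : Xr 18 a * Xr 16 b * (Xr 18 a)⁻¹ = Xr 16 b * Xr 21 (a * b) := by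
    have := stp (K := K) (r := 18) (s := 16) (k := 21) (c := -1) (by decide +kernel) a b
    rw [hc] at this
    simpa using this
  have s3c : Xr 18 a * Xr 15 c * (Xr 18 a)⁻¹ = Xr 15 c * Xr 20 (a * c) := by
    have := stp (K := K) (r := 18) (s := 15) (k := 20) (c := -1) (by decide +kernel) a c
    rw [hc] at this
    simpa using this
  have s3d : Xr 18 a * Xr 17 (b * c) * (Xr 18 a)⁻¹ = Xr 17 (b * c) * Xr 22 (a * b * c) := by
    have := stp (K := K) (r := 18) (s := 17) (k := 22) (c := -1) (by decide +kernel) a (b * c)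
    rw [hc] at this
    simpa [mul_assoc] using this
  have e : (Xr 18 a * (Xr 13 b * (Xr 12 c * 1))) * Xr 14 1 * (Xr 18 a * (Xr 13 b * (Xr 12 c * 1)))⁻¹ =
      Xr 18 a * (Xr 13 b * (Xr 12 c * Xr 14 1 * (Xr 12 c)⁻¹) * (Xr 13 b)⁻¹) * (Xr 18 a)⁻¹ := by
    group
  have h1 : Xr 13 b * (Xr 14 1 * Xr 15 c) * (Xr 13 b)⁻¹ = (Xr 14 1 * Xr 16 b) * (Xr 15 c * Xr 17 (b * c)) := by
    rw [conj_mul', s2a, s2b]
  have h2 : Xr 18 a * ((Xr 14 1 * Xr 16 b) * (Xr 15 c * Xr 17 (b * c))) * (Xr 18 a)⁻¹ =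
      ((Xr 14 1 * Xr 19 a) * (Xr 16 b * Xr 21 (a * b))) * ((Xr 15 c * Xr 20 (a * c)) * (Xr 17 (b * c) * Xr 22 (a * b * c))) := by
    rw [conj_mul' _ (Xr 14 1 * Xr 16 b), conj_mul' _ (Xr 14 1), conj_mul' _ (Xr 15 c), s3a, s3b, s3c, s3d]
  rw [e, s1, h1, h2]
  group

end Formulas

theorem reorder {G : Type*} [Group G] {x19 x16 x21 x15 x20 x17 x22 x23 : G}
    (h1 : x19 * x16 = x16 * x19) (h2 : x19 * x15 = x15 * x19) (h3 : x21 * x15 = x15 * x21 * x23)
    (h4 : x21 * x20 = x20 * x21) (h5 : x23 * x20 = x20 * x23) (h6 : x23 * x17 = x17 * x23)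
    (h7 : x23 * x22 = x22 * x23) :
    x19 * x16 * x21 * x15 * x20 * x17 * x22 = (x16 * x15 * x19) * (x20 * x21 * x17) * x22 * x23 := by
  calc x19 * x16 * x21 * x15 * x20 * x17 * x22 = x19 * x16 * (x21 * x15) * x20 * x17 * x22 := by group
    _ = x19 * x16 * x15 * x21 * (x23 * x20) * x17 * x22 := by rw [h3]; group
    _ = x19 * x16 * x15 * (x21 * x20) * (x23 * x17) * x22 := by rw [h5]; group
    _ = x19 * x16 * x15 * x20 * x21 * x17 * (x23 * x22) := by rw [h4, h6]; group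
    _ = (x19 * x16) * x15 * x20 * x21 * x17 * x22 * x23 := by rw [h7]; group
    _ = x16 * (x19 * x15) * x20 * x21 * x17 * x22 * x23 := by rw [h1]; group
    _ = _ := by rw [h2]; group

section NormalForm

variable {φ : K →+* K} (hφ3 : ∀ t, φ (φ (φ t)) = t) (hn1 : (-1 : K) = 1)
include hφ3 hn1

/-- The conjugate of the root element in normal form. -/
theorem E_norm (v : K) : w3 φ 18 13 12 v * Xr 14 1 * (w3 φ 18 13 12 v)⁻¹ =
    Xr 14 1 * (oA φ (φ v) * oB φ (v * φ (φ v)) * Xr 22 (v * φ v * φ (φ v)) * Xr 23 (v * φ v * φ (φ v))) := by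
  rw [w3, E_form hn1]
  refine congrArg (fun g => Xr 14 1 * g) ?_
  have e1 : φ (φ (φ v)) = v := hφ3 v
  have e2 : φ (v * φ (φ v)) = v * φ v := by
    rw [map_mul, e1, mul_comm]
  have e3 : φ (v * φ v) = φ v * φ (φ v) := map_mul _ _ _
  have e4 : φ (φ v) * (v * φ v) = v * φ v * φ (φ v) := by ring
  have h := reorder (x19 := Xr 19 v) (x16 := Xr 16 (φ v)) (x21 := Xr 21 (v * φ v)) (x15 := Xr 15 (φ (φ v)))
    (x20 := Xr 20 (v * φ (φ v))) (x17 := Xr 17 (φ v * φ (φ v))) (x22 := Xr 22 (v * φ v * φ (φ v)))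
    (x23 := Xr 23 (v * φ v * φ (φ v)))
    (cmt (a := 19) (b := 16) (by decide +kernel) _ _) (cmt (a := 19) (b := 15) (by decide +kernel) _ _)
    (by
      have := cf (K := K) (r := 15) (s := 21) (k := 23) (by decide +kernel) (φ (φ v)) (v * φ v)
      rwa [e4] at this)
    (cmt (a := 21) (b := 20) (by decide +kernel) _ _) (top_cm (r := 20) (by decide +kernel) _ _)
    (top_cm (r := 17) (by decide +kernel) _ _) (top_cm (r := 22) (by decide +kernel) _ _)
  rw [h]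
  simp only [oA, oB, e1, e2, e3]

/-- The commutator of the root element and its conjugate. -/
theorem comm_B (v : K) : ⁅(Xr 14 1 : GL chevD4.Idx K), w3 φ 18 13 12 v * Xr 14 1 * (w3 φ 18 13 12 v)⁻¹⁆ = Xr 23 (v * φ v * φ (φ v)) := by
  rw [E_norm hφ3 hn1]
  set z := v * φ v * φ (φ v)
  set A' := oA φ (φ v)
  set C' := oB φ (v * φ (φ v))
  set B' : GL chevD4.Idx K := Xr 14 1
  set Y := Xr 22 z
  set Z' := Xr 23 z
  have c1 : B' * A' = A' * B' := x14_f2 _ _
  have c2 : B' * C' = C' * B' := x14_f3 _ _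
  have c3 : Z' * B' = B' * Z' := top_14 _ _
  have c4 : Z' * A' = A' * Z' := top_f2 _ _
  have c5 : Z' * C' = C' * Z' := top_f3 _ _
  have c6 : Z' * Y = Y * Z' := top_22 _ _
  have c7 : B' * Y * B'⁻¹ = Y * Z' := by
    have := stp (K := K) (r := 14) (s := 22) (k := 23) (c := 1) (by decide +kernel) 1 z
    rw [Int.cast_one, one_mul, one_mul] at this
    exact this
  have e1 : B' * (A' * C' * Y * Z') * B'⁻¹ = A' * C' * Y * Z' * Z' := by
    calc B' * (A' * C' * Y * Z') * B'⁻¹ = (B' * A') * C' * Y * Z' * B'⁻¹ := by group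
      _ = A' * (B' * C') * Y * Z' * B'⁻¹ := by rw [c1]; group
      _ = A' * C' * B' * Y * (Z' * B'⁻¹) := by rw [c2]; group
      _ = A' * C' * B' * Y * (B'⁻¹ * Z') := by
        have : Z' * B'⁻¹ = B'⁻¹ * Z' := by
          calc Z' * B'⁻¹ = B'⁻¹ * (B' * Z') * B'⁻¹ := by group
            _ = B'⁻¹ * (Z' * B') * B'⁻¹ := by rw [c3]
            _ = _ := by group
        rw [this]
      _ = A' * C' * (B' * Y * B'⁻¹) * Z' := by group
      _ = _ := by rw [c7]; group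
  set g := A' * C' * Y * Z' with hg
  have c8 : Z' * g = g * Z' := by
    rw [hg]
    calc Z' * (A' * C' * Y * Z') = (Z' * A') * C' * Y * Z' := by group
      _ = A' * (Z' * C') * Y * Z' := by rw [c4]; group
      _ = A' * C' * (Z' * Y) * Z' := by rw [c5]; group
      _ = _ := by rw [c6]; group
  rw [commutatorElement_def]
  calc B' * (B' * g) * B'⁻¹ * (B' * g)⁻¹ = B' * (B' * g * B'⁻¹) * g⁻¹ * B'⁻¹ := by group
    _ = B' * (g * Z' * g⁻¹) * B'⁻¹ := by rw [e1]; group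
    _ = B' * Z' * B'⁻¹ := by rw [← c8]; group
    _ = Z' := by rw [← c3]; group

end NormalForm


end Cfsg.Agent.Lib.Twisted.D4
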