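import Cfsg.Agent.Lib.Twisted.Mult.D4Two

/-!
# `³D₄(2)`: a complement over the unipotent group, the generators
-/

set_option autoImplicit false
set_option maxRecDepth 1000000
set_option linter.unusedSectionVars false
set_option linter.unusedVariables false

namespace Cfsg.Agent.Lib.Twisted.D4

open Cfsg.Lie Cfsg.Agent.Lib.Chevalley.Reflect
open Cfsg.Agent.Lib.Chevalley.Tbl.D4 (cols colOK sys comm)
open Cfsg.Agent.Lib.ChevBN.Elem Cfsg.Agent.Lib.ChevBN.Table Cfsg.Agent.Lib.ChevBN.Opp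
open Cfsg.Agent.Lib.ChevBN.FastData (tbl_chevD4)
open Cfsg.Agent.Lib.Twisted.Mult Cfsg.Agent.Lib.BNPair.CoxeterExchange
open Cfsg.Agent.Lib.Chevalley
open scoped commutatorElement

universe u

variable {K : Type u} [Field K]

set_option quotPrecheck false in
/-- The root elements. -/
local notation "Xr" => X (sys (F := _)).toAddRel

section
variable [Fintype K] {φ : K →+* K} {T : Tw (sys (F := K)).toAddRel}
  (hK : Fintype.card K = 2 ^ 3) (h20 : (2 : K) = 0) (hφ : ∀ t, φ t = t ^ 2) (hφ3 : ∀ t, φ (φ (φ t)) = t) (hρ : T.ρ = ρ0)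
  (hτ : ∀ r t, T.τ r t = ((ε0 r : ℤ) : K) * φ t)
  (I : Inst sys tbl_chevD4 T Js cl (twistedD4 K 2))

include hφ in
theorem fix_cases {s : K} (hs : φ s = s) : s = 0 ∨ s = 1 := by
  rw [hφ] at hs
  have : s * (s - 1) = 0 := by linear_combination hs
  rcases mul_eq_zero.1 this with h | h
  · exact Or.inl h
  · exact Or.inr (sub_eq_zero.1 h)

include hφ hK in
theorem norm_one {v : K} (hv : v ≠ 0) : v * φ v * φ (φ v) = 1 := by
  have h8 : v ^ 8 = v := by
    have := FiniteField.pow_card v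
    rwa [hK] at this
  rw [hφ, hφ]
  apply mul_left_cancel₀ hv
  calc v * (v * v ^ 2 * (v ^ 2) ^ 2) = v ^ 8 := by ring
    _ = v := h8
    _ = v * 1 := (mul_one v).symm

include h20 in
theorem cast_eps {e : ℤ} (he : e = 1 ∨ e = -1) : ((e : ℤ) : K) = 1 := by
  rcases he with rfl | rfl
  · simp
  · push_cast
    linear_combination (-1 : K) * h20

include h20 hρ hτ in
theorem s_X' {r : ℕ} (h : r < chevD4.nroots ∧ (ε0 r = 1 ∨ ε0 r = -1)) (t : K) : T.s (Xr r t) = Xr (ρ0 r) (φ t) := by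
  rw [T.s_X r h.1, hρ, hτ, cast_eps h20 h.2, one_mul]

include h20 hρ hτ in
/-- A fixed root element. -/
theorem fix_one {r : ℕ} (h : r < chevD4.nroots ∧ (ε0 r = 1 ∨ ε0 r = -1) ∧ ρ0 r = r) {t : K} (ht : φ t = t) :
    Xr r t ∈ T.Fx := by
  refine ⟨Tw.X_mem_group h.1 t, ?_⟩
  rw [s_X' h20 hρ hτ ⟨h.1, h.2.1⟩, h.2.2, ht]

include h20 hρ hτ hφ3 in
/-- A fixed product of three root elements along an orbit. -/
theorem fix_three {r1 r2 r3 : ℕ} (h : r1 < chevD4.nroots ∧ r2 < chevD4.nroots ∧ r3 < chevD4.nroots ∧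
      (ε0 r1 = 1 ∨ ε0 r1 = -1) ∧ (ε0 r2 = 1 ∨ ε0 r2 = -1) ∧ (ε0 r3 = 1 ∨ ε0 r3 = -1) ∧
      ρ0 r1 = r2 ∧ ρ0 r2 = r3 ∧ ρ0 r3 = r1)
    (c1 : r2 < chevD4.nroots ∧ r1 < chevD4.nroots ∧ r1 ≠ r2 ∧ r1 ≠ chevD4.neg r2 ∧ chevD4.commTerms r2 r1 = [])
    (c2 : r3 < chevD4.nroots ∧ r1 < chevD4.nroots ∧ r1 ≠ r3 ∧ r1 ≠ chevD4.neg r3 ∧ chevD4.commTerms r3 r1 = []) (t : K) :
    Xr r1 t * Xr r2 (φ t) * Xr r3 (φ (φ t)) ∈ T.Fx := by
  obtain ⟨h1, h2, h3, e1, e2, e3, p1, p2, p3⟩ := h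
  have m : ∀ (r : ℕ), r < chevD4.nroots → ∀ u : K, Xr r u ∈ chevD4.group K := fun r hr u => Tw.X_mem_group hr u
  refine ⟨Subgroup.mul_mem _ (Subgroup.mul_mem _ (m _ h1 _) (m _ h2 _)) (m _ h3 _), ?_⟩
  rw [T.s_mul _ (Subgroup.mul_mem _ (m _ h1 _) (m _ h2 _)) _ (m _ h3 _), T.s_mul _ (m _ h1 _) _ (m _ h2 _),
    s_X' h20 hρ hτ ⟨h1, e1⟩, s_X' h20 hρ hτ ⟨h2, e2⟩, s_X' h20 hρ hτ ⟨h3, e3⟩, p1, p2, p3, hφ3]
  have c1' := cmt (K := K) c1 (φ t) t
  have c2' := cmt (K := K) c2 (φ (φ t)) t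
  calc Xr r2 (φ t) * Xr r3 (φ (φ t)) * Xr r1 t = Xr r2 (φ t) * (Xr r3 (φ (φ t)) * Xr r1 t) := by group
    _ = (Xr r2 (φ t) * Xr r1 t) * Xr r3 (φ (φ t)) := by rw [c2']; group
    _ = _ := by rw [c1']

include h20 hρ hτ hφ3 in
theorem oA_fx (t : K) : oA φ t ∈ T.Fx :=
  fix_three h20 hφ3 hρ hτ (r1 := 16) (r2 := 15) (r3 := 19) (by decide +kernel) (by decide +kernel) (by decide +kernel) t

include h20 hρ hτ hφ3 in
theorem oB_fx (t : K) : oB φ t ∈ T.Fx :=
  fix_three h20 hφ3 hρ hτ (r1 := 20) (r2 := 21) (r3 := 17) (by decide +kernel) (by decide +kernel) (by decide +kernel) t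

theorem oA_gen (t : K) : oA φ t ∈ gen (sys (F := K)).toAddRel {r | r ∈ ([15, 19, 16] : List ℕ)} := by
  unfold oA
  exact Subgroup.mul_mem _ (Subgroup.mul_mem _ (X_mem_gen _ (by simp) _) (X_mem_gen _ (by simp) _)) (X_mem_gen _ (by simp) _)

theorem oB_gen (t : K) : oB φ t ∈ gen (sys (F := K)).toAddRel {r | r ∈ ([17, 20, 21] : List ℕ)} := by
  unfold oB
  exact Subgroup.mul_mem _ (Subgroup.mul_mem _ (X_mem_gen _ (by simp) _) (X_mem_gen _ (by simp) _)) (X_mem_gen _ (by simp) _)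

/-- The orbit map is injective. -/
theorem oA_inj : Function.Injective (oA (K := K) φ) := by
  intro s t e
  have key : ∀ u : K, oA φ u = W (sys (F := K)).toAddRel (([15, 16, 19] : List ℕ).map fun r =>
      (r, if r = 15 then φ u else if r = 16 then u else φ (φ u))) := by
    intro u
    simp only [oA, List.map_cons, List.map_nil, W_cons, W_nil, mul_one]
    simp only [show (16 : ℕ) ≠ 15 by norm_num, show (19 : ℕ) ≠ 15 by norm_num, show (19 : ℕ) ≠ 16 by norm_num, if_true, if_false]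
    rw [cmt (K := K) (a := 16) (b := 15) (by decide +kernel)]
    group
  rw [key, key] at e
  have := Cfsg.Agent.Lib.ChevBN.Collect.ordered_unique (hA := (sys (F := K)).toAddRel) tbl_chevD4 [15, 16, 19] (by decide)
    (by decide +kernel) _ _ e 16 (by simp)
  simpa using this

theorem oB_inj : Function.Injective (oB (K := K) φ) := by
  intro s t e
  have key : ∀ u : K, oB φ u = W (sys (F := K)).toAddRel (([17, 20, 21] : List ℕ).map fun r =>
      (r, if r = 17 then φ (φ u) else if r = 20 then u else φ u)) := by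
    intro u
    simp only [oB, List.map_cons, List.map_nil, W_cons, W_nil, mul_one]
    simp only [show (20 : ℕ) ≠ 17 by norm_num, show (21 : ℕ) ≠ 17 by norm_num, show (21 : ℕ) ≠ 20 by norm_num, if_true, if_false]
    have c1 := cmt (K := K) (a := 20) (b := 17) (by decide +kernel) u (φ (φ u))
    have c2 := cmt (K := K) (a := 21) (b := 17) (by decide +kernel) (φ u) (φ (φ u))
    calc Xr 20 u * Xr 21 (φ u) * Xr 17 (φ (φ u)) = Xr 20 u * (Xr 21 (φ u) * Xr 17 (φ (φ u))) := by group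
      _ = (Xr 20 u * Xr 17 (φ (φ u))) * Xr 21 (φ u) := by rw [c2]; group
      _ = _ := by rw [c1]; group
  rw [key, key] at e
  have := Cfsg.Agent.Lib.ChevBN.Collect.ordered_unique (hA := (sys (F := K)).toAddRel) tbl_chevD4 [17, 20, 21] (by decide)
    (by decide +kernel) _ _ e 20 (by simp)
  simpa using this

theorem move_2 : moves chevD4 [15, 19, 16] ([[1]] : List (List ℕ)).flatten [0, 2, 3] = true := by decide +kernel
theorem move_3 : moves chevD4 [17, 20, 21] ([[1], [0, 2, 3]] : List (List ℕ)).flatten [0, 2, 3] = true := by decide +kernel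

include h20 hφ3 hρ hτ hφ I in
/-- The elements of the second class. -/
theorem form_A {x : GL chevD4.Idx K} (hx : x ∈ gen (sys (F := K)).toAddRel {r | r ∈ ([15, 19, 16] : List ℕ)} ⊓ T.Fx) :
    ∃ t, x = oA φ t := by
  have hc := I.class_card (S := [15, 19, 16]) (by decide) (w := [[1]]) (by decide) (J₀ := [0, 2, 3]) (by decide) move_2
  rw [card3 hρ hτ hφ3 hφ] at hc
  let f : K → ↥(gen (sys (F := K)).toAddRel {r | r ∈ ([15, 19, 16] : List ℕ)} ⊓ T.Fx) := fun t =>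
    ⟨oA φ t, oA_gen t, oA_fx h20 hφ3 hρ hτ t⟩
  have hf : Function.Injective f := fun a b e => oA_inj (congrArg Subtype.val e)
  have hb := hf.bijective_of_nat_card_le (by rw [hc, Nat.card_eq_fintype_card])
  obtain ⟨t, e⟩ := hb.2 ⟨x, hx⟩
  exact ⟨t, (congrArg Subtype.val e).symm⟩

include h20 hφ3 hρ hτ hφ I in
/-- The elements of the third class. -/
theorem form_B {x : GL chevD4.Idx K} (hx : x ∈ gen (sys (F := K)).toAddRel {r | r ∈ ([17, 20, 21] : List ℕ)} ⊓ T.Fx) :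
    ∃ t, x = oB φ t := by
  have hc := I.class_card (S := [17, 20, 21]) (by decide) (w := [[1], [0, 2, 3]]) (by decide) (J₀ := [0, 2, 3]) (by decide) move_3
  rw [card3 hρ hτ hφ3 hφ] at hc
  let f : K → ↥(gen (sys (F := K)).toAddRel {r | r ∈ ([17, 20, 21] : List ℕ)} ⊓ T.Fx) := fun t =>
    ⟨oB φ t, oB_gen t, oB_fx h20 hφ3 hρ hτ t⟩
  have hf : Function.Injective f := fun a b e => oB_inj (congrArg Subtype.val e)
  have hb := hf.bijective_of_nat_card_le (by rw [hc, Nat.card_eq_fintype_card])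
  obtain ⟨t, e⟩ := hb.2 ⟨x, hx⟩
  exact ⟨t, (congrArg Subtype.val e).symm⟩

include h20 hφ hφ3 hρ hτ in
/-- The elements of a root group over the prime field. -/
theorem form_one {r : ℕ} (h : r < chevD4.nroots ∧ (ε0 r = 1 ∨ ε0 r = -1) ∧ ρ0 r = r) {x : GL chevD4.Idx K}
    (hx : x ∈ gen (sys (F := K)).toAddRel {r' | r' ∈ [r]} ⊓ T.Fx) : x = 1 ∨ x = Xr r 1 := by
  obtain ⟨s, rfl⟩ := single_form hx.1
  have h1 := hx.2.2
  rw [s_X' h20 hρ hτ ⟨h.1, h.2.1⟩, h.2.2] at h1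
  have h2 := X_inj sys tbl_chevD4 h.1 h1
  rcases fix_cases hφ h2 with rfl | rfl
  · left
    simp
  · right
    rfl

include h20 hφ hφ3 hρ hτ hK in
/-- The subgroup generated by the two simple classes contains the chain. -/
theorem gen_chain (W' : Subgroup (GL chevD4.Idx K)) (hB : Xr 14 1 ∈ W') (hA : ∀ t, w3 φ 18 13 12 t ∈ W') :
    (∀ t, oA φ t ∈ W') ∧ (∀ t, oB φ t ∈ W') ∧ Xr 22 1 ∈ W' ∧ Xr 23 1 ∈ W' := by
  have hn1 : (-1 : K) = 1 := by linear_combination (-1 : K) * h20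
  have hK' : Fintype.card K = 8 := by rw [hK]; norm_num
  have hE : ∀ v, w3 φ 18 13 12 v * Xr 14 1 * (w3 φ 18 13 12 v)⁻¹ ∈ W' := fun v =>
    W'.mul_mem (W'.mul_mem (hA v) hB) (W'.inv_mem (hA v))
  have hZ : Xr 23 1 ∈ W' := by
    have h1 := comm_B hφ3 hn1 (1 : K)
    simp only [map_one, mul_one] at h1
    rw [← h1, commutatorElement_def]
    have h2 := hE 1
    exact W'.mul_mem (W'.mul_mem (W'.mul_mem hB h2) (W'.inv_mem hB)) (W'.inv_mem h2)
  have h23 : ∀ s : K, φ s = s → Xr 23 s ∈ W' := by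
    intro s hs
    rcases fix_cases hφ hs with rfl | rfl
    · simp [W'.one_mem]
    · exact hZ
  have hadd : ∀ x y z x' y' z', oA φ x * oB φ y * Xr 22 z ∈ W' → oA φ x' * oB φ y' * Xr 22 z' ∈ W' →
      oA φ (x + x') * oB φ (y + y') * Xr 22 (z + z') ∈ W' := by
    intro x y z x' y' z' h1 h2
    have h3 := prod_form (φ := φ) x y z x' y' z'
    have h4 : oA φ (x + x') * oB φ (y + y') * Xr 22 (z + z') =
        (oA φ x * oB φ y * Xr 22 z) * (oA φ x' * oB φ y' * Xr 22 z') *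
          (Xr 23 (x' * y + φ (x' * y) + φ (φ (x' * y))))⁻¹ := by
      rw [h3]
      group
    rw [h4]
    refine W'.mul_mem (W'.mul_mem h1 h2) (W'.inv_mem (h23 _ ?_))
    rw [map_add, map_add, hφ3]
    ring
  have hv : ∀ v, oA φ (φ v) * oB φ (v * φ (φ v)) * Xr 22 (v * φ v * φ (φ v)) ∈ W' := by
    intro v
    have h1 := E_norm hφ3 hn1 v
    have h2 : oA φ (φ v) * oB φ (v * φ (φ v)) * Xr 22 (v * φ v * φ (φ v)) =
        (Xr 14 1)⁻¹ * (w3 φ 18 13 12 v * Xr 14 1 * (w3 φ 18 13 12 v)⁻¹) * (Xr 23 (v * φ v * φ (φ v)))⁻¹ := by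
      rw [h1]
      group
    rw [h2]
    refine W'.mul_mem (W'.mul_mem (W'.inv_mem hB) (hE v)) (W'.inv_mem (h23 _ ?_))
    rw [map_mul, map_mul, hφ3]
    ring
  have hall := P_all hK' hφ h20 (fun x y z => oA φ x * oB φ y * Xr 22 z ∈ W') hadd hv
  refine ⟨fun t => ?_, fun t => ?_, ?_, hZ⟩
  · have := (hall t 0).1
    simpa [f3_zero] using this
  · have := (hall 0 t).1
    simpa [f2_zero] using this
  · have := (hall 0 0).2
    simpa [f2_zero, f3_zero] using this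

end

end Cfsg.Agent.Lib.Twisted.D4
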