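import Cfsg.Agent.Lib.Twisted.Mult.D4Two2

/-!
# `³D₄(2)`: a complement over the unipotent group, the conclusion
-/

set_option autoImplicit false
set_option maxRecDepth 1000000
set_option linter.unusedSectionVars false
set_option linter.unusedVariables false

namespace Cfsg.Agent.Lib.Twisted.D4

open Cfsg.Lie Cfsg.Agent.Lib.Chevalley.Reflect
open Cfsg.Agent.Lib.Chevalley.Tbl.D4 (cols colOK sys comm)
open Cfsg.Agent.Lib.ChevBN.Elem Cfsg.Agent.Lib.ChevBN.Table Cfsg.Agent.Lib.ChevBN.Opp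
open Cfsg.Agent.Lib.ChevBN.FastData (tbl_chevD4)
open Cfsg.Agent.Lib.Twisted.Mult Cfsg.Agent.Lib.BNPair.CoxeterExchange
open Cfsg.Agent.Lib.Chevalley
open scoped commutatorElement

universe u

variable {K : Type u} [Field K]

set_option quotPrecheck false in
/-- The root elements. -/
local notation "Xr" => X (sys (F := _)).toAddRel

section
variable [Fintype K] {φ : K →+* K} {T : Tw (sys (F := K)).toAddRel}
  (hK : Fintype.card K = 2 ^ 3) (h20 : (2 : K) = 0) (hφ : ∀ t, φ t = t ^ 2) (hφ3 : ∀ t, φ (φ (φ t)) = t) (hρ : T.ρ = ρ0)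
  (hτ : ∀ r t, T.τ r t = ((ε0 r : ℤ) : K) * φ t)
  (I : Inst sys tbl_chevD4 T Js cl (twistedD4 K 2))

include hK h20 hφ hφ3 hρ hτ I in
/-- The torus of `³D₄(2)`. -/
theorem tor2 {κ : K} (hκ : κ ≠ 0) : ∃ h ∈ chevD4.diagonalSubgroup K ⊓ twistedD4 K 2,
    (∀ t, h * w3 φ 18 13 12 t * h⁻¹ = w3 φ 18 13 12 (κ * t)) ∧
    ∀ r, r < chevD4.nroots → fixedR r → ∀ t : K, h * Xr r t * h⁻¹ = Xr r t := by
  obtain ⟨τ', c, hτ0, hc0, hcf, e⟩ := exists_scal hφ hK (le_refl 2) hφ3 hκ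
  have hc1 : c = 1 := by
    rcases fix_cases hφ hcf with h | h
    · exact absurd h hc0
    · exact h
  subst hc1
  obtain ⟨h, hh, hconj⟩ := exists_tor hφ hφ3 hρ hτ I hτ0 hc0 hcf
  refine ⟨h, hh, fun t => ?_, fun r hr hf t => ?_⟩
  · rw [w3, w3]
    obtain ⟨a1, a2, a3, a4, b1, b2, b3, b4, c1, c2, c3, c4⟩ := cart_18
    have k1 : kp φ τ' 1 18 = κ := by
      rw [kp, a1, a2, a3, a4, ← e]
      simp only [zpow_neg, zpow_one, zpow_zero, mul_one, one_mul, inv_one]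
      norm_cast
    have k2 : kp φ τ' 1 13 = φ κ := by
      rw [kp, b1, b2, b3, b4, ← e, map_mul, map_inv₀, map_one, map_pow]
      simp only [zpow_neg, zpow_one, zpow_zero, mul_one, one_mul, inv_one]
      norm_cast
    have k3 : kp φ τ' 1 12 = φ (φ κ) := by
      rw [kp, c1, c2, c3, c4, ← e, map_mul, map_mul, map_inv₀, map_inv₀, map_one, map_one, map_pow, map_pow]
      simp only [zpow_neg, zpow_one, zpow_zero, mul_one, one_mul, inv_one]
      norm_cast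
    have e1 := hconj 18 (by decide +kernel) t
    have e2 := hconj 13 (by decide +kernel) (φ t)
    have e3 := hconj 12 (by decide +kernel) (φ (φ t))
    rw [k1] at e1
    rw [k2] at e2
    rw [k3] at e3
    rw [map_mul, map_mul, ← e1, ← e2, ← e3]
    group
  · rw [hconj r hr t]
    have hN := norm_one hK hφ hτ0
    have : kp φ τ' 1 r = 1 := by
      rw [kp, ← hf.1, ← hf.2, one_zpow, one_mul, ← mul_zpow, ← mul_zpow, ← mul_assoc, hN, one_zpow]
    rw [this, one_mul]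

/-- The element `X₁₄(1)` as an element of the group. -/
noncomputable def bB : ↥(twistedD4 K 2) := ⟨Xr 14 1, X14_mem hφ (map_one φ)⟩

include h20 hρ hτ hφ3 in
theorem x23_fix : Xr 23 (1 : K) ∈ gen (sys (F := K)).toAddRel {r | r ∈ ([23] : List ℕ)} ⊓ T.Fx :=
  ⟨X_mem_gen _ (by simp) _, fix_one h20 hρ hτ (by decide +kernel) (map_one φ)⟩

include h20 hρ hτ in
theorem x14_fix : Xr 14 (1 : K) ∈ gen (sys (F := K)).toAddRel {r | r ∈ ([14] : List ℕ)} ⊓ T.Fx :=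
  ⟨X_mem_gen _ (by simp) _, fix_one h20 hρ hτ (by decide +kernel) (map_one φ)⟩

/-- The element `X₂₃(1)` as an element of the group. -/
noncomputable def zZ : ↥(twistedD4 K 2) :=
  ⟨Xr 23 1, I.class_le (S := [23]) (by decide) (x23_fix h20 hφ3 hρ hτ)⟩

include hK h20 hφ hφ3 hρ hτ I

/-- The long simple orbit. -/
theorem mem_X3 (t : K) : fL hφ hρ hτ I t ∈ Xg sys T (twistedD4 K 2) (psiL chevD4 [0, 2, 3]) := by
  refine mem_Xg.2 ⟨?_, I.fix (fL hφ hρ hτ I t).2⟩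
  rw [fL_coe, w3_xJ]
  exact xJ_mem _ _

theorem form_X3 {x : ↥(twistedD4 K 2)} (hx : x ∈ Xg sys T (twistedD4 K 2) (psiL chevD4 [0, 2, 3])) :
    ∃ t, x = fL hφ hρ hτ I t := by
  obtain ⟨⟨t, ht⟩, e⟩ := (orb3 hφ hρ hτ I).surj_x _ x.2 (mem_Xg.1 hx).1
  exact ⟨t, Subtype.ext e⟩

theorem fL_inj {s t : K} (e : fL hφ hρ hτ I s = fL hφ hρ hτ I t) : s = t := by
  have := (orb3 hφ hρ hτ I).inj_x ⟨s, trivial⟩ ⟨t, trivial⟩ (congrArg Subtype.val e)
  exact congrArg Subtype.val this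

theorem fL_comm (s t : K) : fL hφ hρ hτ I s * fL hφ hρ hτ I t = fL hφ hρ hτ I t * fL hφ hρ hτ I s := by
  rw [← fL_add, ← fL_add, add_comm]

/-- The torus on the long orbit, in the group. -/
theorem tor2G {κ : K} (hκ : κ ≠ 0) : ∃ h : ↥(twistedD4 K 2), (h : GL chevD4.Idx K) ∈ chevD4.diagonalSubgroup K ∧
    (∀ t, h * fL hφ hρ hτ I t * h⁻¹ = fL hφ hρ hτ I (κ * t)) ∧
    ∀ r, r < chevD4.nroots → fixedR r → ∀ t : K, (h : GL chevD4.Idx K) * Xr r t * (h : GL chevD4.Idx K)⁻¹ = Xr r t := by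
  obtain ⟨h, hh, h1, h2⟩ := tor2 hK h20 hφ hφ3 hρ hτ I hκ
  refine ⟨⟨h, hh.2⟩, hh.1, fun t => Subtype.ext ?_, h2⟩
  show h * ((fL hφ hρ hτ I t : ↥(twistedD4 K 2)) : GL chevD4.Idx K) * h⁻¹ = ((fL hφ hρ hτ I (κ * t) : ↥(twistedD4 K 2)) : GL chevD4.Idx K)
  rw [fL_coe, fL_coe, h1]

/-- An element without fixed points on the long orbit. -/
theorem exists_fpf : ∃ h : ↥(twistedD4 K 2), (h : GL chevD4.Idx K) ∈ chevD4.diagonalSubgroup K ∧
    (∀ x ∈ Xg sys T (twistedD4 K 2) (psiL chevD4 [0, 2, 3]), h * x * h⁻¹ ∈ Xg sys T (twistedD4 K 2) (psiL chevD4 [0, 2, 3])) ∧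
    (∀ x ∈ Xg sys T (twistedD4 K 2) (psiL chevD4 [0, 2, 3]), h * x * h⁻¹ = x → x = 1) ∧
    ∀ r, r < chevD4.nroots → fixedR r → ∀ t : K, (h : GL chevD4.Idx K) * Xr r t * (h : GL chevD4.Idx K)⁻¹ = Xr r t := by
  obtain ⟨κ, hκ0, -, hκ2⟩ := exists_u hφ hK (le_refl 2)
  have hκ1 : κ ≠ 1 := by
    rintro rfl
    simp at hκ2
  obtain ⟨h, hd, h1, h2⟩ := tor2G hK h20 hφ hφ3 hρ hτ I hκ0
  refine ⟨h, hd, ?_, ?_, h2⟩
  · intro x hx
    obtain ⟨t, rfl⟩ := form_X3 hK h20 hφ hφ3 hρ hτ I hx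
    rw [h1]
    exact mem_X3 hK h20 hφ hφ3 hρ hτ I _
  · intro x hx e
    obtain ⟨t, rfl⟩ := form_X3 hK h20 hφ hφ3 hρ hτ I hx
    rw [h1] at e
    have e2 := fL_inj hK h20 hφ hφ3 hρ hτ I e
    have e3 : (κ - 1) * t = 0 := by linear_combination e2
    have ht : t = 0 := by
      rcases mul_eq_zero.1 e3 with h3 | h3
      · exact absurd (sub_eq_zero.1 h3) hκ1
      · exact h3
    subst ht
    apply Subtype.ext
    rw [fL_coe, w3]
    simp

/-- Preimages of the highest root group and of the class of short simple roots commute. -/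
theorem pre_top_long {Γ : Type*} [Group Γ] {σ : Γ →* ↥(twistedD4 K 2)} (hs : Function.Surjective σ)
    (hc : σ.ker ≤ Subgroup.center Γ) {a b : Γ}
    (ha : σ a ∈ XS sys T (twistedD4 K 2) [23]) (hb : σ b ∈ Xg sys T (twistedD4 K 2) (psiL chevD4 [0, 2, 3])) : a * b = b * a := by
  obtain ⟨h, hd, h1, h2, h3⟩ := exists_fpf hK h20 hφ hφ3 hρ hτ I
  refine comm_of_sep σ hs hc ?_ ?_ h1 ?_ h2 ha hb
  · intro x hx y hy
    obtain ⟨s, e⟩ := single_form (mem_Xg.1 hx).1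
    obtain ⟨t, rfl⟩ := form_X3 hK h20 hφ hφ3 hρ hτ I hy
    apply Subtype.ext
    show (x : GL chevD4.Idx K) * ((fL hφ hρ hτ I t : ↥(twistedD4 K 2)) : GL chevD4.Idx K) =
      ((fL hφ hρ hτ I t : ↥(twistedD4 K 2)) : GL chevD4.Idx K) * (x : GL chevD4.Idx K)
    rw [e, fL_coe, w3]
    have c1 := top_cm (K := K) (r := 18) (by decide +kernel) s t
    have c2 := top_cm (K := K) (r := 13) (by decide +kernel) s (φ t)
    have c3 := top_cm (K := K) (r := 12) (by decide +kernel) s (φ (φ t))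
    calc Xr 23 s * (Xr 18 t * (Xr 13 (φ t) * (Xr 12 (φ (φ t)) * 1))) = (Xr 23 s * Xr 18 t) * Xr 13 (φ t) * Xr 12 (φ (φ t)) := by group
      _ = Xr 18 t * (Xr 23 s * Xr 13 (φ t)) * Xr 12 (φ (φ t)) := by rw [c1]; group
      _ = Xr 18 t * Xr 13 (φ t) * (Xr 23 s * Xr 12 (φ (φ t))) := by rw [c2]; group
      _ = _ := by rw [c3]; group
  · intro x hx y hy
    obtain ⟨s, rfl⟩ := form_X3 hK h20 hφ hφ3 hρ hτ I hx
    obtain ⟨t, rfl⟩ := form_X3 hK h20 hφ hφ3 hρ hτ I hy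
    exact fL_comm hK h20 hφ hφ3 hρ hτ I s t
  · intro x hx
    obtain ⟨s, e⟩ := single_form (mem_Xg.1 hx).1
    apply Subtype.ext
    show (h : GL chevD4.Idx K) * (x : GL chevD4.Idx K) * (h : GL chevD4.Idx K)⁻¹ = x
    rw [e]
    exact h3 23 (by decide +kernel) (by decide +kernel) s

/-- A fixed-point-free element on a class and fixing another gives commuting preimages. -/
theorem pre_of_fix {Γ : Type*} [Group Γ] {σ : Γ →* ↥(twistedD4 K 2)} (hs : Function.Surjective σ)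
    (hc : σ.ker ≤ Subgroup.center Γ) {j k : ℕ} (hk : k < cl.length) {h : GL chevD4.Idx K}
    (hh : h ∈ chevD4.diagonalSubgroup K ⊓ twistedD4 K 2)
    (h1 : FixS sys h {r | r ∈ cl.getD j []}) (h2 : FpfS sys h {r | r ∈ cl.getD k []})
    (hcomm : ∀ x ∈ XS sys T (twistedD4 K 2) (cl.getD j []), ∀ y ∈ XS sys T (twistedD4 K 2) (cl.getD k []), x * y = y * x)
    (hX' : ∀ x ∈ XS sys T (twistedD4 K 2) (cl.getD k []), ∀ y ∈ XS sys T (twistedD4 K 2) (cl.getD k []), x * y = y * x) {a b : Γ}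
    (ha : σ a ∈ XS sys T (twistedD4 K 2) (cl.getD j [])) (hb : σ b ∈ XS sys T (twistedD4 K 2) (cl.getD k [])) : a * b = b * a := by
  refine comm_of_sep σ hs hc (h := ⟨h, hh.2⟩) hcomm hX' ?_ ?_ ?_ ha hb
  · intro x hx
    refine mem_Xg.2 ⟨Cfsg.Agent.Lib.Twisted.H_conj_gen sys tbl_chevD4 hh.1 (fun r hr => ((I.S_closed hk).pos r hr).1) (mem_Xg.1 hx).1, ?_⟩
    have h2' := I.fix hh.2
    exact Subgroup.mul_mem _ (Subgroup.mul_mem _ h2' (mem_Xg.1 hx).2) (Subgroup.inv_mem _ h2')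
  · intro x hx
    exact Subtype.ext (h1.conj_eq (mem_Xg.1 hx).1)
  · intro x hx e
    exact Subtype.ext (h2.eq_one tbl_chevD4 (I.S_closed hk) (mem_Xg.1 hx).1 (congrArg Subtype.val e))

/-- The element `X₂₃(1)` is a commutator. -/
theorem z_comm (hK8 : Fintype.card K = 8) : zZ h20 hφ3 hρ hτ I ∈ Subgroup.closure {g : ↥(twistedD4 K 2) |
    ∃ y ∈ XS sys T (twistedD4 K 2) [17, 20, 21], ∃ z ∈ XS sys T (twistedD4 K 2) [15, 19, 16], g = ⁅y, z⁆} := by
  obtain ⟨w, hw⟩ := exists_trace hK8 hφ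
  have hT1 : w + φ w + φ (φ w) = 1 := by
    rcases fix_cases hφ (s := w + φ w + φ (φ w)) (by rw [map_add, map_add, hφ3]; ring) with h | h
    · exact absurd h hw
    · exact h
  have hy : oB φ w ∈ gen (sys (F := K)).toAddRel {r | r ∈ ([17, 20, 21] : List ℕ)} ⊓ T.Fx := ⟨oB_gen w, oB_fx h20 hφ3 hρ hτ w⟩
  have hz : oA φ (1 : K) ∈ gen (sys (F := K)).toAddRel {r | r ∈ ([15, 19, 16] : List ℕ)} ⊓ T.Fx :=
    ⟨oA_gen 1, oA_fx h20 hφ3 hρ hτ 1⟩
  refine Subgroup.subset_closure ⟨⟨_, I.class_le (S := [17, 20, 21]) (by decide) hy⟩, mem_Xg.2 hy,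
    ⟨_, I.class_le (S := [15, 19, 16]) (by decide) hz⟩, mem_Xg.2 hz, Subtype.ext ?_⟩
  show Xr 23 (1 : K) = ⁅oB φ w, oA φ (1 : K)⁆
  have h1 := f3_f2' (φ := φ) w (1 : K)
  rw [one_mul, hT1] at h1
  rw [commutatorElement_def, h1]
  have c1 := top_f3 (φ := φ) (1 : K) w
  have c2 := top_f2 (φ := φ) (1 : K) (1 : K)
  calc Xr 23 (1 : K) = oA φ 1 * Xr 23 1 * (oA φ 1)⁻¹ := by rw [← c2]; group
    _ = oA φ 1 * (oB φ w * Xr 23 1 * (oB φ w)⁻¹) * (oA φ 1)⁻¹ := by rw [← c1]; group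
    _ = _ := by group

/-- Preimages of the highest root group and of the long simple root commute. -/
theorem pre_top_14 {Γ : Type*} [Group Γ] [Finite Γ] {σ : Γ →* ↥(twistedD4 K 2)} (hs : Function.Surjective σ)
    (hc : σ.ker ≤ Subgroup.center Γ) {a b : Γ}
    (ha : σ a = zZ h20 hφ3 hρ hτ I) (hb : σ b = bB hφ) : a * b = b * a := by
  have hK8 : Fintype.card K = 8 := by rw [hK]; norm_num
  obtain ⟨u, hu0, huN, hu2⟩ := exists_u hφ hK (le_refl 2)
  have hb14 : σ b ∈ XS sys T (twistedD4 K 2) [14] := by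
    rw [hb]
    exact mem_Xg.2 (x14_fix h20 hρ hτ)
  have hform14 : ∀ x ∈ XS sys T (twistedD4 K 2) [14], (x : GL chevD4.Idx K) = 1 ∨ (x : GL chevD4.Idx K) = Xr 14 1 :=
    fun x hx => form_one h20 hφ hφ3 hρ hτ (by decide +kernel) (mem_Xg.1 hx)
  have h1 : ∀ y, σ y ∈ XS sys T (twistedD4 K 2) [17, 20, 21] → b * y = y * b := by
    intro y hy
    obtain ⟨h, hh, e1, e2⟩ := famW hφ hφ3 hρ hτ I hu0 huN hu2 0 3 s_chk_0_3f s_chk_0_3g
    refine pre_of_fix hK h20 hφ hφ3 hρ hτ I hs hc (j := 0) (k := 3) (by decide) hh e1 e2 ?_ ?_ hb14 hy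
    · intro x hx z hz
      obtain ⟨t, e⟩ := form_B h20 hφ hφ3 hρ hτ I (mem_Xg.1 hz)
      apply Subtype.ext
      show (x : GL chevD4.Idx K) * (z : GL chevD4.Idx K) = (z : GL chevD4.Idx K) * (x : GL chevD4.Idx K)
      rw [e]
      rcases hform14 x hx with e1 | e1
      · rw [e1]
        group
      · rw [e1]
        exact x14_f3 _ _
    · intro x hx z hz
      obtain ⟨s, e⟩ := form_B h20 hφ hφ3 hρ hτ I (mem_Xg.1 hx)
      obtain ⟨t, e'⟩ := form_B h20 hφ hφ3 hρ hτ I (mem_Xg.1 hz)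
      apply Subtype.ext
      show (x : GL chevD4.Idx K) * (z : GL chevD4.Idx K) = (z : GL chevD4.Idx K) * (x : GL chevD4.Idx K)
      rw [e, e', ← f3_add, ← f3_add, add_comm]
  have h2 : ∀ y, σ y ∈ XS sys T (twistedD4 K 2) [15, 19, 16] → b * y = y * b := by
    intro y hy
    obtain ⟨h, hh, e1, e2⟩ := famW hφ hφ3 hρ hτ I hu0 huN hu2 0 2 s_chk_0_3f s_chk_2_4g
    refine pre_of_fix hK h20 hφ hφ3 hρ hτ I hs hc (j := 0) (k := 2) (by decide) hh e1 e2 ?_ ?_ hb14 hy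
    · intro x hx z hz
      obtain ⟨t, e⟩ := form_A h20 hφ hφ3 hρ hτ I (mem_Xg.1 hz)
      apply Subtype.ext
      show (x : GL chevD4.Idx K) * (z : GL chevD4.Idx K) = (z : GL chevD4.Idx K) * (x : GL chevD4.Idx K)
      rw [e]
      rcases hform14 x hx with e1 | e1
      · rw [e1]
        group
      · rw [e1]
        exact x14_f2 _ _
    · intro x hx z hz
      obtain ⟨s, e⟩ := form_A h20 hφ hφ3 hρ hτ I (mem_Xg.1 hx)
      obtain ⟨t, e'⟩ := form_A h20 hφ hφ3 hρ hτ I (mem_Xg.1 hz)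
      apply Subtype.ext
      show (x : GL chevD4.Idx K) * (z : GL chevD4.Idx K) = (z : GL chevD4.Idx K) * (x : GL chevD4.Idx K)
      rw [e, e', ← f2_add, ← f2_add, add_comm]
  have h3 := comm_of_comm' hs hc h1 h2 (a' := a) (by
    rw [ha]
    exact z_comm hK h20 hφ hφ3 hρ hτ I hK8)
  exact h3.symm

/-- The unipotent group is generated by the two orbits. -/
theorem U_gen (W : Subgroup ↥(twistedD4 K 2)) (hA : ∀ t, fL hφ hρ hτ I t ∈ W) (hB : bB hφ ∈ W) :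
    (chevD4.posUnipotent K ⊓ T.Fx).subgroupOf (twistedD4 K 2) ≤ W := by
  set W' := W.map (twistedD4 K 2).subtype with hW'
  have hmem : ∀ x : ↥(twistedD4 K 2), (x : GL chevD4.Idx K) ∈ W' → x ∈ W := by
    intro x hx
    obtain ⟨y, hy, e⟩ := hx
    have : y = x := Subtype.ext e
    rwa [← this]
  have hB' : Xr 14 1 ∈ W' := ⟨bB hφ, hB, rfl⟩
  have hA' : ∀ t, w3 φ 18 13 12 t ∈ W' := fun t => ⟨fL hφ hρ hτ I t, hA t, fL_coe hφ hρ hτ I t⟩
  obtain ⟨hoA, hoB, h22, h23⟩ := gen_chain hK h20 hφ hφ3 hρ hτ W' hB' hA'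
  rw [← I.Qq_zero]
  intro x hx
  apply hmem
  have hgen : Qq (Xl sys T (twistedD4 K 2) cl) cl.length 0 ≤ W := by
    rw [Qq, Subgroup.closure_le]
    rintro a ⟨k, -, hk, ha⟩
    apply hmem
    have hk' : k < 6 := hk
    have ha' := mem_Xg.1 ha
    interval_cases k
    · rcases form_one h20 hφ hφ3 hρ hτ (r := 14) (by decide +kernel) ha' with e | e
      · rw [e]
        exact W'.one_mem
      · rw [e]
        exact hB'
    · have e : ({r | r ∈ cl.getD 1 []} : Set ℕ) = psiL chevD4 [0, 2, 3] := by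
        ext r
        constructor
        · intro hr
          have hr' : r = 12 ∨ r = 18 ∨ r = 13 := by simpa [cl, cs] using hr
          rcases hr' with rfl | rfl | rfl
          · exact ⟨3, by simp, e_s3.symm⟩
          · exact ⟨0, by simp, e_s0.symm⟩
          · exact ⟨2, by simp, e_s2.symm⟩
        · rintro ⟨i, hi, rfl⟩
          simp only [List.mem_cons, List.not_mem_nil, or_false] at hi
          rcases hi with rfl | rfl | rfl
          · rw [e_s0]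
            simp [cl, cs]
          · rw [e_s2]
            simp [cl, cs]
          · rw [e_s3]
            simp [cl, cs]
      have h1 : a ∈ Xg sys T (twistedD4 K 2) (psiL chevD4 [0, 2, 3]) := by
        rw [← e]
        exact ha
      obtain ⟨t, rfl⟩ := form_X3 hK h20 hφ hφ3 hρ hτ I h1
      rw [fL_coe]
      exact hA' t
    · obtain ⟨t, e⟩ := form_A h20 hφ hφ3 hρ hτ I ha'
      rw [e]
      exact hoA t
    · obtain ⟨t, e⟩ := form_B h20 hφ hφ3 hρ hτ I ha'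
      rw [e]
      exact hoB t
    · rcases form_one h20 hφ hφ3 hρ hτ (r := 22) (by decide +kernel) ha' with e | e
      · rw [e]
        exact W'.one_mem
      · rw [e]
        exact h22
    · rcases form_one h20 hφ hφ3 hρ hτ (r := 23) (by decide +kernel) ha' with e | e
      · rw [e]
        exact W'.one_mem
      · rw [e]
        exact h23
  exact ⟨x, hgen hx, rfl⟩

/-- The kernel is killed by the index, for `q = 2`. -/
theorem pow_two {Γ : Type*} [Group Γ] [Finite Γ] {σ : Γ →* ↥(twistedD4 K 2)} (hs : Function.Surjective σ)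
    (hc : σ.ker ≤ Subgroup.center Γ) (hk : σ.ker ≤ commutator Γ) {a : Γ} (ha : a ∈ σ.ker) :
    a ^ ((chevD4.posUnipotent K ⊓ T.Fx).subgroupOf (twistedD4 K 2)).index = 1 := by
  have hK8 : Fintype.card K = 8 := by rw [hK]; norm_num
  have hq2 : IsPrimePow 2 := Nat.prime_two.isPrimePow
  obtain ⟨h₀, hd₀, h0a, h0b, h0c⟩ := exists_fpf hK h20 hφ hφ3 hρ hτ I
  obtain ⟨s, hs1, hs2⟩ := exists_add_section (E := K) (σ := σ) hs hc
    (X := Xg sys T (twistedD4 K 2) (psiL chevD4 [0, 2, 3]))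
    (fun a b ha hb => ab_long hφ hφ3 hρ hτ I (le_refl 2) hK hs hc ha hb) h0a
    (fun x hx y hy => by
      obtain ⟨s, rfl⟩ := form_X3 hK h20 hφ hφ3 hρ hτ I hx
      obtain ⟨t, rfl⟩ := form_X3 hK h20 hφ hφ3 hρ hτ I hy
      exact fL_comm hK h20 hφ hφ3 hρ hτ I s t) h0b
    (fL hφ hρ hτ I) (mem_X3 hK h20 hφ hφ3 hρ hτ I) (fL_add hφ hρ hτ I)
  have hw : ∀ J ∈ ([[0, 2, 3], [1]] : List (List ℕ)), J ∈ Js := by decide
  have hn := I.prodA_mem hw
  suffices key : ∃ V : Subgroup Γ, (∀ g ∈ V, σ g = 1 → g = 1) ∧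
      (∀ u ∈ ((chevD4.posUnipotent K ⊓ T.Fx).subgroupOf (twistedD4 K 2)), ∃ g ∈ V, σ g = u) ∧
      ∀ g ∈ V, σ g ∈ ((chevD4.posUnipotent K ⊓ T.Fx).subgroupOf (twistedD4 K 2)) by
    obtain ⟨V, h1, h2, h3⟩ := key
    exact pow_index_of_section hs hc hk h1 h2 h3 ha
  refine two_section (E := K) (σ := σ) hs hc (fL hφ hρ hτ I) s hs1 hs2 (bB hφ) (zZ h20 hφ3 hρ hτ I)
    ⟨_, hn⟩ ?_ ?_ (w₀ := 1) one_ne_zero ?_ ?_ ?_ ?_ ((chevD4.posUnipotent K ⊓ T.Fx).subgroupOf (twistedD4 K 2)) ?_ ?_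
    (U_gen hK h20 hφ hφ3 hρ hτ I) ?_
  · apply Subtype.ext
    show Xr 14 1 ^ 2 = 1
    rw [sq, X_mul]
    have : (1 : K) + 1 = 0 := by linear_combination h20
    rw [this, X_zero]
  · -- the conjugation
    apply Subtype.ext
    show prodA sys ([[0, 2, 3], [1]] : List (List ℕ)).flatten * Xr 23 1 * (prodA sys ([[0, 2, 3], [1]] : List (List ℕ)).flatten)⁻¹ = Xr 14 1
    have hy : Xr 14 (1 : K) ∈ gen (sys (F := K)).toAddRel (psiL chevD4 [1]) ⊓ T.Fx := by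
      have hmem : (14 : ℕ) ∈ psiL chevD4 [1] := ⟨1, by simp, e_s1.symm⟩
      exact ⟨X_mem_gen _ hmem _, fix_one h20 hρ hτ (by decide +kernel) (map_one φ)⟩
    have h4 := I.conj2 (S := [23]) (fun r hr => by
      have : r = 23 := by simpa using hr
      subst this
      decide +kernel) (I.flat_lt hw) hn cert_23 (by decide) hy
    rcases form_one h20 hφ hφ3 hρ hτ (r := 23) (by decide +kernel) h4 with e | e
    · exfalso
      have e2 : Xr 14 (1 : K) = 1 := by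
        set n' := prodA (sys (F := K)) ([[0, 2, 3], [1]] : List (List ℕ)).flatten
        calc Xr 14 (1 : K) = n' * (n'⁻¹ * Xr 14 (1 : K) * n') * n'⁻¹ := by group
          _ = n' * 1 * n'⁻¹ := by rw [e]
          _ = 1 := by group
      have e3 : Xr 14 (1 : K) = Xr 14 0 := by rw [e2, X_zero]
      exact one_ne_zero (X_inj sys tbl_chevD4 (by decide +kernel) e3)
    · rw [← e]
      group
  · -- the commutator
    intro w hw0
    apply Subtype.ext
    show ⁅(Xr 14 1 : GL chevD4.Idx K), ((fL hφ hρ hτ I w : ↥(twistedD4 K 2)) : GL chevD4.Idx K) * Xr 14 1 * ((fL hφ hρ hτ I w : ↥(twistedD4 K 2)) : GL chevD4.Idx K)⁻¹⁆ = Xr 23 1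
    have hn1 : (-1 : K) = 1 := by linear_combination (-1 : K) * h20
    rw [fL_coe, comm_B hφ3 hn1, norm_one hK hφ hw0]
  · -- preimages of the highest root group and the short simple roots
    intro a b u ha hb
    refine pre_top_long hK h20 hφ hφ3 hρ hτ I hs hc (a := a) (b := b) ?_ ?_
    · rw [ha]
      exact mem_Xg.2 (x23_fix h20 hφ3 hρ hτ)
    · rw [hb]
      exact mem_X3 hK h20 hφ hφ3 hρ hτ I u
  · intro a b ha hb
    exact pre_top_14 hK h20 hφ hφ3 hρ hτ I hs hc ha hb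
  · -- the action
    intro w w' hw hw'
    obtain ⟨h, hd, h4, h5⟩ := tor2G hK h20 hφ hφ3 hρ hτ I (div_ne_zero hw' hw)
    have hB : h * bB hφ * h⁻¹ = bB hφ := by
      apply Subtype.ext
      exact h5 14 (by decide +kernel) (by decide +kernel) 1
    refine ⟨h, 7, by decide, ?_, hB, ?_⟩
    · have hm : (h : GL chevD4.Idx K) ∈ chevD4.diagonalSubgroup K ⊓ twistedD4 K 2 := ⟨hd, h.2⟩
      have hcard := card_H1 hq2 hK
      have h7 : Nat.card ↥(chevD4.diagonalSubgroup K ⊓ twistedD4 K 2) = 7 := by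
        rw [hcard]
        norm_num
      have h8 := pow_card_eq_one' (x := (⟨h, hm⟩ : ↥(chevD4.diagonalSubgroup K ⊓ twistedD4 K 2)))
      rw [h7] at h8
      apply Subtype.ext
      have h9 := congrArg Subtype.val h8
      exact h9
    · have e : h * (fL hφ hρ hτ I w * bB hφ * (fL hφ hρ hτ I w)⁻¹) * h⁻¹ =
          (h * fL hφ hρ hτ I w * h⁻¹) * (h * bB hφ * h⁻¹) * (h * fL hφ hρ hτ I w * h⁻¹)⁻¹ := by group
      rw [e, h4, hB, div_mul_cancel₀ _ hw]
  · intro u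
    refine Subgroup.mem_subgroupOf.2 ⟨?_, I.fix (fL hφ hρ hτ I u).2⟩
    exact (orb3 hφ hρ hτ I).x_mem_U ⟨u, trivial⟩
  · refine Subgroup.mem_subgroupOf.2 ⟨?_, I.fix (bB hφ).2⟩
    show Xr 14 1 ∈ chevD4.posUnipotent K
    rw [posUnipotent_eq]
    exact X_mem_gen _ (by decide +kernel) _
  · -- the order
    have e : (chevD4.posUnipotent K ⊓ T.Fx) ⊓ twistedD4 K 2 = chevD4.posUnipotent K ⊓ T.Fx :=
      inf_eq_left.2 (fun x hx => I.U_le hx)
    rw [card_subgroupOf', e, ← I.U_inf_eq, card_U hq2 hK, hK8]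
    norm_num

end

end Cfsg.Agent.Lib.Twisted.D4
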