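import Cfsg.Agent.Lib.Twisted.Mult.E6Tor

/-!
# `²E₆(q)`: commutativity of the preimages of the root groups
-/

set_option autoImplicit false
set_option maxRecDepth 1000000

namespace Cfsg.Agent.Lib.Twisted.E6

open Cfsg.Lie Cfsg.Agent.Lib.Chevalley.Reflect
open Cfsg.Agent.Lib.Chevalley.Tbl.E6 (cols colOK sys comm)
open Cfsg.Agent.Lib.ChevBN.Elem Cfsg.Agent.Lib.ChevBN.Table Cfsg.Agent.Lib.ChevBN.Opp
open Cfsg.Agent.Lib.ChevBN.FastData (tbl_chevE6)
open Cfsg.Agent.Lib.Twisted.Mult Cfsg.Agent.Lib.BNPair.CoxeterExchange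
open Cfsg.Agent.Lib.Chevalley
open scoped commutatorElement

universe u

variable {K : Type u} [Field K]

section
variable [Fintype K] {q : ℕ} {φ : K →+* K} (hφ : ∀ t, φ t = t ^ q)

include hφ in
theorem norm_eq (t : K) : t * φ t = t ^ (q + 1) := by
  rw [hφ, pow_succ]
  ring

variable (hK : Fintype.card K = q ^ 2)
include hφ hK

/-- The element with a norm different from one. -/
theorem exists_g (hq3 : 3 ≤ q) : ∃ g : K, g ≠ 0 ∧ g * φ g ≠ 1 := by
  obtain ⟨g, hg⟩ := IsCyclic.exists_generator (α := Kˣ)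
  have ho : orderOf g = q ^ 2 - 1 := by
    rw [orderOf_eq_card_of_forall_mem_zpowers hg, Nat.card_units, Nat.card_eq_fintype_card, hK]
  obtain ⟨k, rfl⟩ : ∃ k, q = k + 1 := ⟨q - 1, by omega⟩
  have hk : 2 ≤ k := by omega
  have e : (k + 1) ^ 2 - 1 = k * (k + 1 + 1) := by
    rw [Nat.sub_eq_iff_eq_add (Nat.one_le_pow _ _ (by omega))]
    ring
  refine ⟨(g : K), Units.ne_zero _, ?_⟩
  rw [norm_eq hφ]
  intro h
  have h2 : g ^ (k + 1 + 1) = 1 := by
    apply Units.ext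
    simpa using h
  have h3 := orderOf_dvd_of_pow_eq_one h2
  rw [ho, e] at h3
  have h4 := Nat.le_of_dvd (by omega) h3
  nlinarith

end

section
variable [Fintype K] {q : ℕ} {φ : K →+* K} {T : Tw (sys (F := K)).toAddRel}
  (hφ : ∀ t, φ t = t ^ q) (hφ2 : ∀ t, φ (φ t) = t) (hρ : T.ρ = ρ0)
  (hτ : ∀ r t, T.τ r t = ((ε0 r : ℤ) : K) * φ t)
  (I : Inst sys tbl_chevE6 T Js cl (twistedE6 K q))

include hφ hφ2 hρ hτ in
/-- Preimages of a long orbit commute. -/
theorem ab_long {i j a b : ℕ} (O : OrbD I [i, j] (fun k => (e2 i φ k).comp (⊤ : Subfield K).subtype))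
    (hij : j ≠ i) (e : chevE6.simple i = a) (e' : chevE6.simple j = b)
    (ha : a < chevE6.nroots) (hb : b < chevE6.nroots)
    (hscal : ∀ κ : K, κ ≠ 0 → ∃ t₀ t₂ c₁ c₃ : K, t₀ ≠ 0 ∧ t₂ ≠ 0 ∧ c₁ ≠ 0 ∧ c₃ ≠ 0 ∧ φ c₁ = c₁ ∧ φ c₃ = c₃ ∧
      kp φ t₀ t₂ c₁ c₃ a = κ ∧ kp φ t₀ t₂ c₁ c₃ b = φ κ)
    (hK5 : 5 ≤ Fintype.card K) {Γ : Type*} [Group Γ] {σ : Γ →* ↥(twistedE6 K q)}
    (hs : Function.Surjective σ) (hc : σ.ker ≤ Subgroup.center Γ) {x y : Γ}
    (hx : σ x ∈ Xg sys T (twistedE6 K q) (psiL chevE6 [i, j]))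
    (hy : σ y ∈ Xg sys T (twistedE6 K q) (psiL chevE6 [i, j])) : x * y = y * x := by
  let fL : K → ↥(twistedE6 K q) := fun t => O.xG ⟨t, trivial⟩
  have fL_coe : ∀ t, ((fL t : ↥(twistedE6 K q)) : GL chevE6.Idx K) = w2 φ a b t := fun t => x2_eq hij e e' t
  have fL_add : ∀ s t, fL (s + t) = fL s * fL t := fun s t =>
    ((O.relG hc_E6 hη_E6).addx ⟨s, trivial⟩ ⟨t, trivial⟩).symm
  have hform : ∀ c : Γ, σ c ∈ Xg sys T (twistedE6 K q) (psiL chevE6 [i, j]) → ∃ t, σ c = fL t := by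
    intro c hc
    obtain ⟨⟨t, ht⟩, e⟩ := O.surj_x _ (σ c).2 (mem_Xg.1 hc).1
    exact ⟨t, Subtype.ext e⟩
  obtain ⟨s, es⟩ := hform x hx
  obtain ⟨t, et⟩ := hform y hy
  refine ab_of_scal hK5 hs hc fL fL_add ?_ (fun κ hκ => ?_) es et
  · intro s t
    rw [← fL_add, ← fL_add, add_comm]
  · obtain ⟨t₀, t₂, c₁, c₃, h1, h2, h3, h4, h5, h6, k1, k2⟩ := hscal κ hκ
    obtain ⟨h, hh, hconj⟩ := exists_tor hφ hφ2 hρ hτ I h1 h2 h3 h4 h5 h6
    refine ⟨⟨h, hh.2⟩, fun t => Subtype.ext ?_⟩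
    show h * ((fL t : ↥(twistedE6 K q)) : GL chevE6.Idx K) * h⁻¹ = ((fL (κ * t) : ↥(twistedE6 K q)) : GL chevE6.Idx K)
    rw [fL_coe, fL_coe, w2, w2]
    have e1 := hconj a ha t
    have e2 := hconj b hb (φ t)
    rw [k1] at e1
    rw [k2] at e2
    rw [map_mul, ← e1, ← e2]
    group

theorem cert_1 : moves chevE6 [71] ([[3], [2, 4], [0, 5], [3], [2, 4], [3], [1]] : List (List ℕ)).flatten [1] = true := by
  decide +kernel

theorem cert_3 : moves chevE6 [71] ([[2, 4], [0, 5], [1], [3], [2, 4], [3], [1]] : List (List ℕ)).flatten [3] = true := by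
  decide +kernel

include I in
/-- Preimages of a short root group from those of the highest root. -/
theorem ab_short_of_top {J : List ℕ} {w : List (List ℕ)} (hw : ∀ J ∈ w, J ∈ Js) (hJ : J ∈ Js)
    (cert : moves chevE6 [71] w.flatten J = true)
    {Γ : Type*} [Group Γ] {σ : Γ →* ↥(twistedE6 K q)} (hs : Function.Surjective σ)
    (htop : ∀ a b : Γ, σ a ∈ XS sys T (twistedE6 K q) [71] → σ b ∈ XS sys T (twistedE6 K q) [71] → a * b = b * a) {a b : Γ}
    (ha : σ a ∈ Xg sys T (twistedE6 K q) (psiL chevE6 J))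
    (hb : σ b ∈ Xg sys T (twistedE6 K q) (psiL chevE6 J)) : a * b = b * a := by
  have hn := I.prodA_mem hw
  refine ab_of_conj hs (g := (⟨_, hn⟩ : ↥(twistedE6 K q))⁻¹) (fun x hx => ?_) htop ha hb
  refine mem_Xg.2 ?_
  have h1 := I.conj2 (S := [71]) (fun r hr => by
    have : r = 71 := by simpa using hr
    subst this
    decide +kernel) (I.flat_lt hw) hn cert hJ (mem_Xg.1 hx)
  simpa using h1

theorem comm_chk' : chevE6.commTerms 46 70 = [(71, 1, 1, 1)] := by decide +kernel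

include hφ hρ hτ in
/-- The elements of the highest root group as commutators. -/
theorem top_comm (x : ↥(twistedE6 K q)) (hx : x ∈ XS sys T (twistedE6 K q) [71])
    (I : Inst sys tbl_chevE6 T Js cl (twistedE6 K q)) :
    x ∈ Subgroup.closure {g | ∃ y ∈ XS sys T (twistedE6 K q) [70], ∃ z ∈ XS sys T (twistedE6 K q) [46], g = ⁅y, z⁆} := by
  obtain ⟨h1, h2⟩ := mem_Xg.1 hx
  obtain ⟨s, e⟩ := single_form h1
  have hs : φ s = s := by
    have h3 := h2.2
    rw [e, T.s_X 71 (by decide +kernel), hρ, hτ, (by decide +kernel : ρ0 71 = 71), (by decide +kernel : ε0 71 = 1)] at h3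
    simpa using X_inj sys tbl_chevE6 (by decide +kernel) h3
  have hfix : ∀ (r : ℕ), r < chevE6.nroots → chevE6.IsPosRoot r → ρ0 r = r → ε0 r = 1 → ∀ t : K, φ t = t →
      X (sys (F := K)).toAddRel r t ∈ gen (sys (F := K)).toAddRel {r' | r' ∈ [r]} ⊓ T.Fx := by
    intro r hr hp e1 e2 t ht
    refine ⟨X_mem_gen _ (by simp) _, Tw.X_mem_group hr _, ?_⟩
    rw [T.s_X r hr, hρ, hτ, e1, e2]
    simp [ht]
  have m46 : ∀ t : K, φ t = t → X (sys (F := K)).toAddRel 46 t ∈ twistedE6 K q :=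
    fun t ht => X_single_mem hφ (r := 46) (by simp [e6p2]) ht
  have f46 := hfix 46 (by decide +kernel) (by decide +kernel) (by decide +kernel) (by decide +kernel) (-s) (by rw [map_neg, hs])
  have f70 := hfix 70 (by decide +kernel) (by decide +kernel) (by decide +kernel) (by decide +kernel) (1 : K) (by simp)
  have m70 : X (sys (F := K)).toAddRel 70 (1 : K) ∈ twistedE6 K q := I.class_le (S := [70]) (by decide) f70
  have hcm := Cfsg.Agent.Lib.ChevBN.Rel.commPos sys 46 70 (by decide +kernel) (by decide +kernel) (by decide) (-s) (1 : K)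
  rw [ChevalleyDatum.commWord, comm_chk'] at hcm
  simp only [List.map_cons, List.map_nil, pow_one, W_cons, W_nil, mul_one, neg_neg, one_mul, Int.cast_one, one_pow] at hcm
  refine Subgroup.subset_closure ⟨⟨_, m70⟩⁻¹, Subgroup.inv_mem _ (mem_Xg.2 f70), ⟨_, m46 _ (by rw [map_neg, hs])⟩⁻¹,
    Subgroup.inv_mem _ (mem_Xg.2 f46), Subtype.ext ?_⟩
  rw [e]
  show _ = ⁅(X (sys (F := K)).toAddRel 70 (1 : K))⁻¹, (X (sys (F := K)).toAddRel 46 (-s))⁻¹⁆
  rw [commutatorElement_def, inv_inv, inv_inv, mul_assoc _ _ (X (sys (F := K)).toAddRel 46 (-s)), hcm]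
  group

end

end Cfsg.Agent.Lib.Twisted.E6
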