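import Cfsg.Agent.Lib.Twisted.E6Out
import Cfsg.Agent.Lib.Twisted.E6Order
import Cfsg.Agent.Lib.Twisted.Mult.InstFinal
import Cfsg.Agent.Lib.Twisted.Mult.D4Core

/-!
# `²E₆(q)`: the part of the kernel prime to `p`
-/

set_option autoImplicit false
set_option maxRecDepth 1000000

namespace Cfsg.Agent.Lib.Twisted.E6

open Cfsg.Lie Cfsg.Agent.Lib.Chevalley.Reflect
open Cfsg.Agent.Lib.Chevalley.Tbl.E6 (cols colOK sys comm)
open Cfsg.Agent.Lib.ChevBN.Elem Cfsg.Agent.Lib.ChevBN.Table Cfsg.Agent.Lib.ChevBN.Opp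
open Cfsg.Agent.Lib.ChevBN.FastData (tbl_chevE6)
open Cfsg.Agent.Lib.Twisted.Mult Cfsg.Agent.Lib.BNPair.CoxeterExchange
open Cfsg.Agent.Lib.Chevalley

universe u

variable {K : Type u} [Field K]

theorem chain_chk' : chainChk chevE6 cl := by decide +kernel
theorem ab_chk : abChk chevE6 cl := by decide +kernel

theorem br_chk : ∀ i j : Fin 4, i ≠ j → ∃ k, alt i j (CoxeterMatrix.F₄ i j) = alt i j (CoxeterMatrix.F₄ i j - 1) ++ [k] ∧
    moveB chevE6 (Jn k) ((alt i j (CoxeterMatrix.F₄ i j - 1)).flatMap Jn) (Jn j) = true := by decide +kernel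

/-- `p`-elements of the unipotent group. -/
theorem hU_pe [Fintype K] {q p e : ℕ} (hq : q = p ^ e) (hpr : IsPrimePow q) (hK : Fintype.card K = q ^ 2) {T : Tw (sys (F := K)).toAddRel}
    (I : Inst sys tbl_chevE6 T Js cl (twistedE6 K q)) :
    ∀ u ∈ chevE6.posUnipotent K ⊓ T.Fx, PE p u := by
  intro u hu
  have h1 : Nat.card ↥(chevE6.posUnipotent K ⊓ T.Fx) = q ^ 36 := by
    rw [← I.U_inf_eq]
    exact card_U hpr hK
  have h2 := pow_card_eq_one' (x := (⟨u, hu⟩ : ↥(chevE6.posUnipotent K ⊓ T.Fx)))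
  rw [h1, hq, ← pow_mul] at h2
  exact ⟨e * 36, congrArg Subtype.val h2⟩

section

variable [Fintype K] {q : ℕ} {φ : K →+* K} {T : Tw (sys (F := K)).toAddRel}
  (hφ : ∀ t, φ t = t ^ q) (hφ2 : ∀ t, φ (φ t) = t) (hρ : T.ρ = ρ0)
  (hτ : ∀ r t, T.τ r t = ((ε0 r : ℤ) : K) * φ t)
  (I : Inst sys tbl_chevE6 T Js cl (twistedE6 K q))

/-- The data of the group. -/
noncomputable def core {p : ℕ} (hpF : (p : K) = 0) (hUp : ∀ u ∈ chevE6.posUnipotent K ⊓ T.Fx, PE p u) :=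
  letI : ∀ a, Fintype ↥((fam hφ hρ hτ I).S a) := fun a => Fintype.ofFinite _
  (fam hφ hρ hτ I).toCore hc_E6 hη_E6 CoxeterMatrix.F₄ hpF hUp ord_chk br_chk

end

end Cfsg.Agent.Lib.Twisted.E6
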