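import Cfsg.Agent.Lib.Twisted.Mult.E6Stem

/-!
# The Schur multiplier of `²E₆(q)`, `q ≠ 2`
-/

set_option autoImplicit false
set_option maxRecDepth 1000000

namespace Cfsg.Agent.Lib.Twisted.E6

open Cfsg.Lie Cfsg.Agent.Lib.Chevalley.Reflect
open Cfsg.Agent.Lib.Chevalley.Tbl.E6 (cols colOK sys comm)
open Cfsg.Agent.Lib.ChevBN.Elem Cfsg.Agent.Lib.ChevBN.Table Cfsg.Agent.Lib.ChevBN.Opp
open Cfsg.Agent.Lib.ChevBN.FastData (tbl_chevE6)
open Cfsg.Agent.Lib.Steinberg.Gen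
open Cfsg.Agent.Lib.Twisted.Mult

universe u v

section Uni

variable {K : Type u} [Field K] [Fintype K] {q : ℕ}

/-- The structure of the kernel of a stem extension. -/
theorem stem_ker (hq : IsPrimePow q) (hK : Fintype.card K = q ^ 2) (h2 : q ≠ 2) {Γ : Type u} [Group Γ] [Finite Γ]
    (σ : Γ →* ↥(twistedE6 K q)) (hσ : Cfsg.IsStemExtension σ) :
    ∃ (S : Fin 4 → Subfield K) (F : (∀ i, (↥(S i))ˣ) →* Γ), ∀ a ∈ σ.ker, ∃ t : ∀ i, (↥(S i))ˣ, a = F t ∧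
      (((t 0 : ↥(S 0)) : K)) = 1 ∧ (((t 1 : ↥(S 1)) : K)) = 1 ∧
      (((t 2 : ↥(S 2)) : K)) = (((t 3 : ↥(S 3)) : K)) ^ 2 ∧
      (((t 3 : ↥(S 3)) : K)) ^ Nat.gcd 3 (q + 1) = 1 := by
  obtain ⟨φ, T, hφ, hφ2, hρ, hτ, I⟩ := main hq hK
  obtain ⟨p, e, hp, he, hqp⟩ := hq
  have hp' : p.Prime := hp.nat_prime
  have hq' : IsPrimePow q := ⟨p, e, hp, he, hqp⟩
  have hpF : (p : K) = 0 := Cfsg.Agent.Lib.Twisted.D4.cast_p hp' he hqp.symm (n := 2) (by norm_num) hK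
  have hUp := hU_pe hqp.symm hq' hK I
  have hq3 : 3 ≤ q := by
    have := hq'.two_le
    omega
  have hpow : ∀ a ∈ σ.ker, a ^ ((chevE6.posUnipotent K ⊓ T.Fx).subgroupOf (twistedE6 K q)).index = 1 := by
    intro a ha
    exact pow_ge3 hφ hφ2 hρ hτ I hq3 hK hσ.1 hσ.2.1 hσ.2.2 ha
  obtain ⟨F, hF⟩ := ker_main hφ hφ2 hρ hτ I hp' hpF hUp σ hσ (index_cop hq' hK I hp' he hqp.symm) hpow
  exact ⟨_, F, hF⟩

omit [Fintype K] in
theorem eq_pow_of {S : Fin 4 → Subfield K} {t t' : ∀ i, (↥(S i))ˣ}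
    (h0 : (((t 0 : ↥(S 0)) : K)) = 1) (h1 : (((t 1 : ↥(S 1)) : K)) = 1)
    (h2 : (((t 2 : ↥(S 2)) : K)) = (((t 3 : ↥(S 3)) : K)) ^ 2)
    (h0' : (((t' 0 : ↥(S 0)) : K)) = 1) (h1' : (((t' 1 : ↥(S 1)) : K)) = 1)
    (h2' : (((t' 2 : ↥(S 2)) : K)) = (((t' 3 : ↥(S 3)) : K)) ^ 2) (k : ℕ)
    (h : (((t' 3 : ↥(S 3)) : K)) = (((t 3 : ↥(S 3)) : K)) ^ k) : t' = t ^ k := by
  have hc : ∀ i, (((t ^ k) i : ↥(S i)) : K) = (((t i : ↥(S i)) : K)) ^ k := by
    intro i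
    simp [Pi.pow_apply]
  funext i
  apply Units.ext
  apply Subtype.ext
  rw [hc i]
  have hi : i = 0 ∨ i = 1 ∨ i = 2 ∨ i = 3 := by
    revert i
    decide
  rcases hi with rfl | rfl | rfl | rfl
  · rw [h0, h0', one_pow]
  · rw [h1, h1', one_pow]
  · rw [h2, h2', h, ← pow_mul, ← pow_mul, mul_comm]
  · exact h

/-- Trivial kernel when `3 ∤ q + 1`. -/
theorem stem_ker_one (hq : IsPrimePow q) (hK : Fintype.card K = q ^ 2) (h2 : q ≠ 2) (hd : Nat.gcd 3 (q + 1) = 1)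
    {Γ : Type u} [Group Γ] [Finite Γ] (σ : Γ →* ↥(twistedE6 K q)) (hσ : Cfsg.IsStemExtension σ) : σ.ker = ⊥ := by
  obtain ⟨S, F, hF⟩ := stem_ker hq hK h2 σ hσ
  rw [eq_bot_iff]
  intro a ha
  obtain ⟨t, rfl, h0, h1, h2', h3⟩ := hF a ha
  rw [hd, pow_one] at h3
  have ht : t = 1 := by
    have := eq_pow_of (t := 1) (t' := t) (by simp) (by simp) (by simp) h0 h1 h2' 0 (by simp [h3])
    simpa using this
  rw [ht, map_one]
  exact Subgroup.one_mem _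

/-- A cyclic kernel when `3 ∣ q + 1`. -/
theorem stem_ker_three (hq : IsPrimePow q) (hK : Fintype.card K = q ^ 2) (h2 : q ≠ 2) (hd : Nat.gcd 3 (q + 1) = 3)
    {Γ : Type u} [Group Γ] [Finite Γ] (σ : Γ →* ↥(twistedE6 K q)) (hσ : Cfsg.IsStemExtension σ) :
    ∃ c ∈ σ.ker, c ^ 3 = 1 ∧ ∀ x ∈ σ.ker, ∃ k : ℕ, x = c ^ k := by
  by_cases hbot : σ.ker = ⊥
  · refine ⟨1, Subgroup.one_mem _, one_pow _, fun x hx => ⟨0, ?_⟩⟩
    rw [hbot, Subgroup.mem_bot] at hx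
    simp [hx]
  obtain ⟨⟨c, hc⟩, hc1'⟩ := Subgroup.ne_bot_iff_exists_ne_one.1 hbot
  have hc1 : c ≠ 1 := fun h => hc1' (Subtype.ext h)
  obtain ⟨S, F, hF⟩ := stem_ker hq hK h2 σ hσ
  obtain ⟨t, rfl, h0, h1, h2', h3⟩ := hF c hc
  rw [hd] at h3
  set ζ := (((t 3 : ↥(S 3)) : K)) with hζ
  have hζ1 : ζ ≠ 1 := by
    intro h
    apply hc1
    have ht : t = 1 := by
      have := eq_pow_of (t := 1) (t' := t) (by simp) (by simp) (by simp) h0 h1 h2' 0 (by simp [← hζ, h])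
      simpa using this
    rw [ht, map_one]
  have hsum : 1 + ζ + ζ ^ 2 = 0 := by
    have h4 : (ζ - 1) * (1 + ζ + ζ ^ 2) = 0 := by
      linear_combination h3
    exact (mul_eq_zero.1 h4).resolve_left (sub_ne_zero.2 hζ1)
  refine ⟨_, hc, ?_, fun x hx => ?_⟩
  · rw [← map_pow]
    have ht : t ^ 3 = 1 := by
      have h5 : (1 : ∀ i, (↥(S i))ˣ) = t ^ 3 := by
        refine eq_pow_of h0 h1 h2' (by simp) (by simp) (by simp) 3 ?_
        simpa using h3.symm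
      exact h5.symm
    rw [ht, map_one]
  · obtain ⟨t', rfl, h0', h1', h2'', h3'⟩ := hF x hx
    rw [hd] at h3'
    set ζ' := (((t' 3 : ↥(S 3)) : K)) with hζ'
    have h5 : (ζ' - 1) * ((ζ' - ζ) * (ζ' - ζ ^ 2)) = 0 := by
      linear_combination h3' + (ζ * ζ' - ζ' ^ 2) * hsum - h3
    have hk : ∃ k : ℕ, ζ' = ζ ^ k := by
      rcases mul_eq_zero.1 h5 with h6 | h6
      · exact ⟨0, by rw [pow_zero]; linear_combination h6⟩
      · rcases mul_eq_zero.1 h6 with h6 | h6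
        · exact ⟨1, by rw [pow_one]; linear_combination h6⟩
        · exact ⟨2, by linear_combination h6⟩
    obtain ⟨k, hk⟩ := hk
    refine ⟨k, ?_⟩
    rw [← map_pow, eq_pow_of h0 h1 h2' h0' h1' h2'' k hk]

end Uni

section Ex

variable {D : ChevalleyDatum} {η : ℕ → ℕ → ℤ} {n r₀ a₀ b₀ e a' b' : ℕ} {N₀ N' : ℤ}
  {L : List (ℕ × ℕ × ℕ × ℕ × ℕ)} {covL bfs : List (ℕ × ℕ)} {m j₀ : ℕ} {tb : ℕ → Sp}

/-- A product of the `h_j` which is trivial has trivial component at `j₀`, from the tables. -/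
theorem hprod_eq_one_of_data {K : Type*} [Field K] {Δ : Type*} [Group Δ]
    (T : PureTbl D n r₀ a₀ b₀ e a' b' 0 N₀ N' L covL bfs)
    (hbase : baseChk D n m r₀ tb = true)
    (hconj : ∀ i < D.rank, ∃ U V, conjChk D n m i tb U V (η i) = true)
    (hW0 : hwChk D m tb j₀ = true) (dat : Dat D K η)
    (C : Ctx D K η Δ) (ρ : Δ →* GL (Fin m) K)
    (hρ : ∀ hF : RepFacts K D m tb, ∀ r t, ρ (C.Y.y r t) = repY K hF r t)
    {c : ℕ → K} (hc : ∀ j < D.rank, c j ≠ 0) (h : C.hprod c = 1) : c j₀ = 1 := by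
  have hF := repFacts_of_data T hbase hconj dat
  have hn := T.hn
  subst hn
  have hcol : ∀ r < D.nroots, ∀ a ∈ tb r, a.2.1 < m := by
    intro r hr a ha
    simp only [baseChk, Bool.and_eq_true, List.all_eq_true, List.mem_range] at hbase
    exact Nat.le_of_ble_eq_true ((hbase.1 r hr).1 a ha)
  have hW := hwFacts_of_chk C.hT hcol hW0
  exact eq_one_of_hprod hF hW C ρ (hρ hF) hc h

end Ex

section Ex2

variable {K : Type u} [Field K] [Fintype K] {q : ℕ}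

/-- The weights of the central element. -/
def wE : ℕ → ℤ := fun j => RepData.E6.wL.getD j 0

/-- The existence of the cover. -/
theorem exists_stem3 (hq : IsPrimePow q) (hK : Fintype.card K = q ^ 2) (h2 : q ≠ 2) (h3 : 3 ∣ q + 1) :
    ∃ (Γ : Type u) (_ : Group Γ) (_ : Finite Γ) (σ : Γ →* ↥(twistedE6 K q)), Cfsg.IsStemExtension σ ∧
      Nonempty (σ.ker ≃* Multiplicative (ZMod 3)) := by
  obtain ⟨φ, T, hφ, hφ2, hρ, hτ, I⟩ := main hq hK
  have hq3 : 3 ≤ q := by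
    have := hq.two_le
    omega
  have dat := datE6 K
  set C := (datE6 K).cover with hC
  have hD : chevE6 ∈ [chevG2, chevB2, chevD4, chevF4, chevE6, chevE7, chevE8] := by simp
  have hF := repFacts_of_data PureData.E6.tbl RepData.E6.c1 RepData.E6.conj_all dat
  have h3R : C.HasR3 := C.hasR3_of_finite (Cfsg.Agent.Lib.Chevalley.AllEta.cartan_self _ hD) hη_E6
  obtain ⟨ek⟩ := ker_equiv_of_data PureData.E6.tbl RepData.E6.c1 RepData.E6.conj_all RepData.E6.c2 RepData.E6.c3 dat C h3R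
    (repHom K hF) (fun hF' r t => repHom_gen K hF r t)
  haveI : Finite (C.θG.ker) := Finite.of_equiv _ ek.symm.toEquiv
  haveI : Finite (chevE6.SteinbergCover K ⧸ C.θG.ker) :=
    Finite.of_equiv _ (QuotientGroup.quotientKerEquivOfSurjective _ C.θG_surj).symm.toEquiv
  haveI : Finite (chevE6.SteinbergCover K) := Finite.of_subgroup_quotient C.θG.ker
  have hdv : 3 ∣ q ^ 2 - 1 := by
    have h1 : q + 1 ∣ q ^ 2 - 1 := by
      obtain ⟨k, rfl⟩ : ∃ k, q = k + 1 := ⟨q - 1, by omega⟩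
      refine ⟨k, ?_⟩
      rw [Nat.sub_eq_iff_eq_add (Nat.one_le_pow _ _ (by omega))]
      ring
    exact h3.trans h1
  have hmu : Nat.card (Mu K 3) = 3 := by
    rw [mu_card hK, Nat.gcd_eq_left hdv]
  haveI : Fact (Nat.Prime 3) := ⟨Nat.prime_three⟩
  -- the root of unity
  obtain ⟨ζ, hζo⟩ : ∃ ζ : Kˣ, orderOf ζ = 3 := by
    apply exists_prime_orderOf_dvd_card'
    rw [Nat.card_units, Nat.card_eq_fintype_card, hK]
    exact hdv
  have hζ3 : ζ ^ 3 = 1 := by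
    rw [← hζo]
    exact pow_orderOf_eq_one ζ
  have hζ1 : ζ ≠ 1 := by
    intro h
    rw [h, orderOf_one] at hζo
    omega
  have hζm : ζ ∈ Mu K 3 := hζ3
  set u : K := (ζ : K) with hu
  have hu0 : u ≠ 0 := ζ.ne_zero
  have hu3 : u ^ 3 = 1 := by
    have := congrArg (fun x : Kˣ => (x : K)) hζ3
    simpa using this
  have hφu : φ u = u ^ 2 := by
    obtain ⟨k, hk⟩ := h3
    have h5 : u ^ q * u = 1 := by
      rw [← pow_succ, hk, pow_mul, hu3, one_pow]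
    rw [hφ]
    apply mul_right_cancel₀ hu0
    rw [h5, ← pow_succ, hu3]
  have hφu2 : φ (u ^ 2) = u := by
    rw [map_pow, hφu, ← pow_mul]
    calc u ^ (2 * 2) = u ^ 3 * u := by ring
      _ = u := by rw [hu3, one_mul]
  -- the central element
  let z := C.fμ h3R wE ζ
  have hzk : z ∈ C.θG.ker := C.ker_θG.mpr (C.θ_fμ_of_mem h3R RepData.E6.c3 hζm)
  have hz1 : z ≠ 1 := by
    intro h
    have h5 := hprod_eq_one_of_data PureData.E6.tbl RepData.E6.c1 RepData.E6.conj_all RepData.E6.c2 dat C (repHom K hF)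
      (fun hF' r t => repHom_gen K hF r t) (c := Ctx.cμ wE ζ) (fun j _ => Ctx.cμ_ne wE ζ j) h
    apply hζ1
    apply Units.ext
    simpa [Ctx.cμ, wE, RepData.E6.wL] using h5
  have hzmem : z ∈ scG C φ := by
    have e1 : z = (C.hh 0 u * C.hh 5 (φ u)) * (C.hh 2 (u ^ 2) * C.hh 4 (φ (u ^ 2))) := by
      show C.hprod (Ctx.cμ wE ζ) = _
      have r6 : List.range chevE6.rank = [0, 1, 2, 3, 4, 5] := by decide +kernel
      have v0 : Ctx.cμ wE ζ 0 = u := by simp [Ctx.cμ, wE, RepData.E6.wL, hu]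
      have v1 : Ctx.cμ wE ζ 1 = 1 := by simp [Ctx.cμ, wE, RepData.E6.wL]
      have v2 : Ctx.cμ wE ζ 2 = u ^ 2 := by
        simp only [Ctx.cμ, wE, RepData.E6.wL, hu]
        norm_num
      have v3 : Ctx.cμ wE ζ 3 = 1 := by simp [Ctx.cμ, wE, RepData.E6.wL]
      have v4 : Ctx.cμ wE ζ 4 = u := by simp [Ctx.cμ, wE, RepData.E6.wL, hu]
      have v5 : Ctx.cμ wE ζ 5 = u ^ 2 := by
        simp only [Ctx.cμ, wE, RepData.E6.wL, hu]
        norm_num
      rw [Ctx.hprod, r6]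
      simp only [Ctx.hl_cons, Ctx.hl_nil, v0, v1, v2, v3, v4, v5, hφu, hφu2]
      rw [Ctx.hh_one (by decide +kernel : 1 < chevE6.rank), Ctx.hh_one (by decide +kernel : 3 < chevE6.rank)]
      have c1 := Ctx.hh_comm h3R (i := 2) (j := 5) (by decide +kernel) (by decide +kernel) (t := u ^ 2) (s := u ^ 2)
        (pow_ne_zero _ hu0) (pow_ne_zero _ hu0)
      have c2 := Ctx.hh_comm h3R (i := 4) (j := 5) (by decide +kernel) (by decide +kernel) (t := u) (s := u ^ 2)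
        hu0 (pow_ne_zero _ hu0)
      calc C.hh 0 u * (1 * (C.hh 2 (u ^ 2) * (1 * (C.hh 4 u * (C.hh 5 (u ^ 2) * 1)))))
          = C.hh 0 u * (C.hh 2 (u ^ 2) * (C.hh 4 u * C.hh 5 (u ^ 2))) := by simp only [one_mul, mul_one]
        _ = C.hh 0 u * (C.hh 2 (u ^ 2) * (C.hh 5 (u ^ 2) * C.hh 4 u)) := by rw [c2]
        _ = C.hh 0 u * ((C.hh 2 (u ^ 2) * C.hh 5 (u ^ 2)) * C.hh 4 u) := by group
        _ = C.hh 0 u * ((C.hh 5 (u ^ 2) * C.hh 2 (u ^ 2)) * C.hh 4 u) := by rw [c1]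
        _ = _ := by group
    rw [e1]
    exact Subgroup.mul_mem _ (hh_05_mem u) (hh_24_mem _)
  -- the kernel
  have hcard : Nat.card (C.θG.ker) = 3 := by
    rw [Nat.card_congr ek.toEquiv, hmu]
  have hle : C.θG.ker ≤ scG C φ := by
    intro x hx
    have hne : (⟨z, hzk⟩ : ↥C.θG.ker) ≠ 1 := fun h => hz1 (congrArg Subtype.val h)
    have htop := zpowers_eq_top_of_prime_card hcard hne
    have hx' : (⟨x, hx⟩ : ↥C.θG.ker) ∈ Subgroup.zpowers (⟨z, hzk⟩ : ↥C.θG.ker) := by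
      rw [htop]
      exact Subgroup.mem_top _
    obtain ⟨k, hk⟩ := hx'
    have e2 : z ^ k = x := congrArg Subtype.val hk
    rw [← e2]
    exact Subgroup.zpow_mem _ hzmem k
  -- the scalar
  obtain ⟨g, hg0, hd1⟩ := exists_g hφ hK hq3
  have hd0 : g * φ g ≠ 0 := by
    simp [hg0]
  have hdf : φ (g * φ g) = g * φ g := by
    rw [map_mul, hφ2, mul_comm]
  have hperf : commutator ↥(scG C φ) = ⊤ := scG_perfect hd0 hd1 hdf
  refine ⟨↥(scG C φ), inferInstance, inferInstance, σS C φ hφ, ⟨σS_surj C φ hφ, ker_σS_le_center C φ hφ, ?_⟩, ?_⟩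
  · rw [hperf]
    exact le_top
  · have e2 : Multiplicative (ZMod (Nat.card (Mu K 3))) ≃* Mu K 3 := zmodCyclicMulEquiv inferInstance
    rw [hmu] at e2
    let e1 : (σS C φ hφ).ker ≃* C.θG.ker :=
      { toFun := fun x => ⟨x.1.1, C.ker_θG.mpr ((mem_ker_σS C φ hφ).1 x.2)⟩
        invFun := fun y => ⟨⟨y.1, hle y.2⟩, (mem_ker_σS C φ hφ).2 (C.ker_θG.mp y.2)⟩
        left_inv := fun _ => rfl
        right_inv := fun _ => rfl
        map_mul' := fun _ _ => rfl }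
    exact ⟨e1.trans (ek.trans e2.symm)⟩

/-- The Schur multiplier of `²E₆(q)`, for `q ≠ 2`. -/
theorem multiplier (hq : IsPrimePow q) (hK : Fintype.card K = q ^ 2) (h2 : q ≠ 2) :
    Cfsg.HasCyclicSchurMultiplier ↥(twistedE6 K q) (Nat.gcd 3 (q + 1)) := by
  haveI : Finite ↥(twistedE6 K q) := inferInstance
  by_cases h3 : 3 ∣ q + 1
  · rw [Nat.gcd_eq_left h3]
    haveI : NeZero 3 := ⟨by norm_num⟩
    refine ⟨exists_stem3 hq hK h2 h3, ?_⟩
    intro Γ _ _ σ hσ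
    obtain ⟨c, hc, hc3, hall⟩ := stem_ker_three hq hK h2 (Nat.gcd_eq_left h3) σ hσ
    exact Cfsg.Agent.Lib.Schur.Basic.exists_zmodHom_surjective_of_le_zpowers c hc hc3 hall
  · have h1 : Nat.gcd 3 (q + 1) = 1 := (Nat.Prime.coprime_iff_not_dvd Nat.prime_three).2 h3
    rw [h1]
    exact Cfsg.Agent.Lib.Schur.Basic.hasCyclicSchurMultiplier_one_of fun Γ _ _ σ hσ => stem_ker_one hq hK h2 h1 σ hσ

end Ex2

end Cfsg.Agent.Lib.Twisted.E6
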