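import Cfsg.Agent.Lib.Twisted.Mult.E6Main

/-!
# `²E₆(q)`: the kernels of the stem extensions
-/

set_option autoImplicit false
set_option maxRecDepth 1000000

namespace Cfsg.Agent.Lib.Twisted.E6

open Cfsg.Lie Cfsg.Agent.Lib.Chevalley.Reflect
open Cfsg.Agent.Lib.Chevalley.Tbl.E6 (cols colOK sys comm)
open Cfsg.Agent.Lib.ChevBN.Elem Cfsg.Agent.Lib.ChevBN.Table Cfsg.Agent.Lib.ChevBN.Opp
open Cfsg.Agent.Lib.ChevBN.FastData (tbl_chevE6)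
open Cfsg.Agent.Lib.Twisted.Mult Cfsg.Agent.Lib.BNPair.CoxeterExchange
open Cfsg.Agent.Lib.Chevalley
open scoped commutatorElement

universe u

variable {K : Type u} [Field K]

theorem ker_vals {q : ℕ} {φ : K →+* K} (hφ : ∀ t, φ t = t ^ q) {t₀ t₂ c₁ c₃ : K} (h0 : t₀ ≠ 0) (h2 : t₂ ≠ 0) (h1 : c₁ ≠ 0) (h3 : c₃ ≠ 0)
    (hf₃ : φ c₃ = c₃)
    (k0 : t₀ ^ 2 * t₂⁻¹ = 1) (k2 : t₂ ^ 2 * t₀⁻¹ * c₃⁻¹ = 1) (k3 : c₃ ^ 2 * c₁⁻¹ * t₂⁻¹ * (φ t₂)⁻¹ = 1)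
    (k1 : c₁ ^ 2 * c₃⁻¹ = 1) :
    t₂ = t₀ ^ 2 ∧ c₁ = 1 ∧ c₃ = 1 ∧ t₀ ^ Nat.gcd 3 (q + 1) = 1 := by
  have e1 : t₂ = t₀ ^ 2 := by
    field_simp at k0
    exact k0.symm
  subst e1
  have e2 : c₃ = t₀ ^ 3 := by
    field_simp at k2
    linear_combination -k2 * (1 : K)
  subst e2
  have e3 : φ t₀ ^ 3 = t₀ ^ 3 := by
    rw [map_pow] at hf₃
    exact hf₃
  have hφ0 : φ t₀ ≠ 0 := by simpa using h0
  have e4 : c₁ * t₀ ^ 2 * φ t₀ ^ 2 = (t₀ ^ 3) ^ 2 := by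
    rw [map_pow] at k3
    field_simp at k3
    linear_combination (-(t₀ ^ 2)) * k3
  have e5 : c₁ ^ 2 = t₀ ^ 3 := by
    field_simp at k1
    exact k1
  obtain ⟨e6, e7⟩ := ker_aux h0 rfl rfl e3 e4 e5
  have e8 : c₁ = 1 := by
    rw [e6] at e4
    have e9 : c₁ * (t₀ ^ 3) ^ 2 = (t₀ ^ 3) ^ 2 := by
      linear_combination e4
    rw [e7] at e9
    simpa using e9
  refine ⟨rfl, e8, e7, ?_⟩
  have h10 : t₀ ^ (q + 1) = 1 := by
    rw [pow_succ, ← hφ, e6]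
    linear_combination e7
  have u0 : (Units.mk0 t₀ h0) ^ 3 = 1 := by
    apply Units.ext
    simpa using e7
  have u1 : (Units.mk0 t₀ h0) ^ (q + 1) = 1 := by
    apply Units.ext
    simpa using h10
  have := congrArg Units.val (pow_gcd_eq_one.2 ⟨u0, u1⟩)
  simpa using this

section
variable [Fintype K] {q : ℕ} {φ : K →+* K} {T : Tw (sys (F := K)).toAddRel}
  (hφ : ∀ t, φ t = t ^ q) (hφ2 : ∀ t, φ (φ t) = t) (hρ : T.ρ = ρ0)
  (hτ : ∀ r t, T.τ r t = ((ε0 r : ℤ) : K) * φ t)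
  (I : Inst sys tbl_chevE6 T Js cl (twistedE6 K q))

include hφ in
/-- The kernel of the torus parameters. -/
theorem tor_one {t₀ t₂ c₁ c₃ : K} (ht₀ : t₀ ≠ 0) (ht₂ : t₂ ≠ 0) (hc₁ : c₁ ≠ 0) (hc₃ : c₃ ≠ 0) (hf₃ : φ c₃ = c₃)
    (h1 : torJ (sys (F := K)).toAddRel [1, 3, 2, 4, 0, 5] (dP φ t₀ t₂ c₁ c₃) = 1) :
    t₂ = t₀ ^ 2 ∧ c₁ = 1 ∧ c₃ = 1 ∧ t₀ ^ Nat.gcd 3 (q + 1) = 1 := by
  obtain ⟨c00, c01, c02, c03, c04, c05, c10, c11, c12, c13, c14, c15, c20, c21, c22, c23, c24, c25, c30, c31, c32, c33, c34, c35, c40, c41, c42, c43, c44, c45, c50, c51, c52, c53, c54, c55⟩ := cart_vals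
  have hne : ∀ j ∈ ([1, 3, 2, 4, 0, 5] : List ℕ), dP φ t₀ t₂ c₁ c₃ j ≠ 0 := by
    intro j _
    simp only [dP]
    split_ifs
    · exact ht₀
    · simpa using ht₀
    · exact ht₂
    · simpa using ht₂
    · exact hc₁
    · exact hc₃
  have key : ∀ i, i < chevE6.rank → (([1, 3, 2, 4, 0, 5] : List ℕ).map fun j => dP φ t₀ t₂ c₁ c₃ j ^ chevE6.cartan j (chevE6.simple i)).prod = 1 := by
    intro i hi
    have h2 := torJ_conj sys (J := [1, 3, 2, 4, 0, 5]) (by decide) hne (tbl_chevE6.simple_lt hi) (1 : K)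
    rw [h1] at h2
    simp only [one_mul, inv_one, mul_one] at h2
    exact (X_inj sys tbl_chevE6 (tbl_chevE6.simple_lt hi) h2).symm
  have k0 := key 0 (by decide +kernel)
  have k1 := key 1 (by decide +kernel)
  have k2 := key 2 (by decide +kernel)
  have k3 := key 3 (by decide +kernel)
  set_option linter.unusedSimpArgs false in
  simp only [List.map_cons, List.map_nil, List.prod_cons, List.prod_nil, c00, c01, c02, c03, c04, c05, c10, c11, c12, c13, c14, c15, c20, c21, c22, c23, c24, c25, c30, c31, c32, c33, c34, c35, c40, c41, c42, c43, c44, c45, c50, c51, c52, c53, c54, c55, dP] at k0 k1 k2 k3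
  simp at k0 k1 k2 k3
  refine ker_vals hφ ht₀ ht₂ hc₁ hc₃ hf₃ ?_ ?_ ?_ ?_
  · have : (φ t₀) ≠ 0 := by simpa using ht₀
    field_simp
    field_simp at k0
    linear_combination k0
  · field_simp
    field_simp at k2
    linear_combination k2
  · have : (φ t₂) ≠ 0 := by simpa using ht₂
    field_simp
    field_simp at k3
    linear_combination k3
  · field_simp
    field_simp at k1
    linear_combination k1

include hφ hφ2 hρ hτ I in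
/-- The form of the kernel of a stem extension. -/
theorem ker_main {p m : ℕ} (hp : p.Prime) (hpF : (p : K) = 0) (hUp : ∀ u ∈ chevE6.posUnipotent K ⊓ T.Fx, PE p u)
    {Γ : Type u} [Group Γ] [Finite Γ] (σ : Γ →* ↥(twistedE6 K q)) (hσ : Cfsg.IsStemExtension σ)
    (hm : m.Coprime p) (hpow : ∀ a ∈ σ.ker, a ^ m = 1) :
    ∃ F : (∀ i, (↥((fam hφ hρ hτ I).S i))ˣ) →* Γ, ∀ a ∈ σ.ker, ∃ t, a = F t ∧
      (((t 0 : ↥((fam hφ hρ hτ I).S 0)) : K)) = 1 ∧ (((t 1 : ↥((fam hφ hρ hτ I).S 1)) : K)) = 1 ∧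
      (((t 2 : ↥((fam hφ hρ hτ I).S 2)) : K)) = (((t 3 : ↥((fam hφ hρ hτ I).S 3)) : K)) ^ 2 ∧
      (((t 3 : ↥((fam hφ hρ hτ I).S 3)) : K)) ^ Nat.gcd 3 (q + 1) = 1 := by
  have L : PL σ p m := ⟨hσ.1, hσ.2.1, hm, hpow⟩
  letI : ∀ a, Fintype ↥((fam hφ hρ hτ I).S a) := fun a => Fintype.ofFinite _
  refine ⟨(core hφ hρ hτ I hpF hUp).Φh L hp, fun a ha => ?_⟩
  obtain ⟨t, e, h⟩ := (fam hφ hρ hτ I).ker_tor hc_E6 hη_E6 (core hφ hρ hτ I hpF hUp)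
    (fun _ _ => rfl) (fun _ _ => rfl) L hp hσ.2.2 ha
  have hfr : List.finRange 4 = [0, 1, 2, 3] := rfl
  rw [hfr] at h
  have h00 : (((t 0 : ↥((fam hφ hρ hτ I).S 0)) : K)) ≠ 0 := by
    have := Units.ne_zero (t 0)
    simpa using this
  have h10 : (((t 1 : ↥((fam hφ hρ hτ I).S 1)) : K)) ≠ 0 := by
    have := Units.ne_zero (t 1)
    simpa using this
  have h20 : (((t 2 : ↥((fam hφ hρ hτ I).S 2)) : K)) ≠ 0 := by
    have := Units.ne_zero (t 2)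
    simpa using this
  have h30 : (((t 3 : ↥((fam hφ hρ hτ I).S 3)) : K)) ≠ 0 := by
    have := Units.ne_zero (t 3)
    simpa using this
  have hcf : φ ((t 1 : ↥((fam hφ hρ hτ I).S 1)) : K) = ((t 1 : ↥((fam hφ hρ hτ I).S 1)) : K) := (t 1 : ↥((fam hφ hρ hτ I).S 1)).2
  have h1 : torJ (sys (F := K)).toAddRel [1, 3, 2, 4, 0, 5] (dP φ ((t 3 : ↥((fam hφ hρ hτ I).S 3)) : K) ((t 2 : ↥((fam hφ hρ hτ I).S 2)) : K)
      ((t 0 : ↥((fam hφ hρ hτ I).S 0)) : K) ((t 1 : ↥((fam hφ hρ hτ I).S 1)) : K)) = 1 := by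
    rw [← h]
    have j0 : (fam hφ hρ hτ I).J 0 = [1] := rfl
    have j1 : (fam hφ hρ hτ I).J 1 = [3] := rfl
    have j2 : (fam hφ hρ hτ I).J 2 = [2, 4] := rfl
    have j3 : (fam hφ hρ hτ I).J 3 = [0, 5] := rfl
    have e0 : (fam hφ hρ hτ I).e 0 = fun _ => RingHom.id K := rfl
    have e1 : (fam hφ hρ hτ I).e 1 = fun _ => RingHom.id K := rfl
    have e2' : (fam hφ hρ hτ I).e 2 = e2 2 φ := rfl
    have e3 : (fam hφ hρ hτ I).e 3 = e2 0 φ := rfl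
    simp only [List.map_cons, List.map_nil, List.prod_cons, List.prod_nil, j0, j1, j2, j3, e0, e1, e2', e3, torJ_cons, torJ_nil, mul_one, RingHom.id_apply]
    simp [dP, e2, mul_assoc]
  obtain ⟨v1, v2, v3, v4⟩ := tor_one hφ h30 h20 h00 h10 hcf h1
  exact ⟨t, e, v2, v3, v1, v4⟩

end

end Cfsg.Agent.Lib.Twisted.E6
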