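import Cfsg.Agent.Lib.Twisted.Mult.E6Ab
import Cfsg.Agent.Lib.Schur.Basic

/-!
# `²E₆(q)`: stem extensions, for `q ≥ 3`
-/

set_option autoImplicit false
set_option maxRecDepth 1000000

namespace Cfsg.Agent.Lib.Twisted.E6

open Cfsg.Lie Cfsg.Agent.Lib.Chevalley.Reflect
open Cfsg.Agent.Lib.Chevalley.Tbl.E6 (cols colOK sys comm)
open Cfsg.Agent.Lib.ChevBN.Elem Cfsg.Agent.Lib.ChevBN.Table Cfsg.Agent.Lib.ChevBN.Opp
open Cfsg.Agent.Lib.ChevBN.FastData (tbl_chevE6)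
open Cfsg.Agent.Lib.Twisted.Mult Cfsg.Agent.Lib.BNPair.CoxeterExchange
open Cfsg.Agent.Lib.Chevalley
open scoped commutatorElement

universe u

variable {K : Type u} [Field K]

/-- The index of the unipotent group. -/
theorem index_eq [Fintype K] {q : ℕ} {T : Tw (sys (F := K)).toAddRel} (hq : IsPrimePow q) (hK : Fintype.card K = q ^ 2)
    (I : Inst sys tbl_chevE6 T Js cl (twistedE6 K q)) :
    Nat.gcd 3 (q + 1) * ((chevE6.posUnipotent K ⊓ T.Fx).subgroupOf (twistedE6 K q)).index =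
      (q ^ 2 - 1) * (q ^ 5 + 1) * (q ^ 6 - 1) * (q ^ 8 - 1) * (q ^ 9 + 1) * (q ^ 12 - 1) := by
  have h1 := Subgroup.card_mul_index ((chevE6.posUnipotent K ⊓ T.Fx).subgroupOf (twistedE6 K q))
  have h2 : Nat.card ↥((chevE6.posUnipotent K ⊓ T.Fx).subgroupOf (twistedE6 K q)) = q ^ 36 := by
    have e : (chevE6.posUnipotent K ⊓ T.Fx) ⊓ twistedE6 K q = chevE6.posUnipotent K ⊓ T.Fx :=
      inf_eq_left.2 (fun x hx => I.U_le hx)
    rw [Cfsg.Agent.Lib.Twisted.card_subgroupOf', e, ← I.U_inf_eq, card_U hq hK]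
  rw [h2] at h1
  have h3 := card_main' hq hK
  rw [← h1] at h3
  have hq0 : 0 < q ^ 36 := pow_pos hq.pos _
  apply Nat.eq_of_mul_eq_mul_left hq0
  rw [mul_left_comm, h3]
  ring

theorem index_cop [Fintype K] {q p e : ℕ} {T : Tw (sys (F := K)).toAddRel} (hq : IsPrimePow q) (hK : Fintype.card K = q ^ 2)
    (I : Inst sys tbl_chevE6 T Js cl (twistedE6 K q)) (hp : p.Prime) (he : 0 < e) (hqp : q = p ^ e) :
    Nat.Coprime ((chevE6.posUnipotent K ⊓ T.Fx).subgroupOf (twistedE6 K q)).index p := by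
  have hpq : p ∣ q := hqp ▸ dvd_pow_self p he.ne'
  have hnd : ∀ n, 1 ≤ n → ¬ p ∣ q ^ n - 1 := by
    intro n hn hd
    have h3 : p ∣ q ^ n := dvd_pow hpq (by omega)
    have h4 : 1 ≤ q ^ n := Nat.one_le_pow _ _ hq.pos
    have h5 : p ∣ 1 := by
      have := (Nat.dvd_sub h3 hd)
      rwa [Nat.sub_sub_self h4] at this
    exact hp.one_lt.ne' (Nat.dvd_one.1 h5)
  have hnd' : ∀ n, 1 ≤ n → ¬ p ∣ q ^ n + 1 := by
    intro n hn hd
    have h3 : p ∣ q ^ n := dvd_pow hpq (by omega)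
    have h5 : p ∣ 1 := (Nat.dvd_add_right h3).1 hd
    exact hp.one_lt.ne' (Nat.dvd_one.1 h5)
  apply Nat.Coprime.symm
  rw [hp.coprime_iff_not_dvd]
  intro hd
  have h1 : p ∣ (q ^ 2 - 1) * (q ^ 5 + 1) * (q ^ 6 - 1) * (q ^ 8 - 1) * (q ^ 9 + 1) * (q ^ 12 - 1) := by
    rw [← index_eq hq hK I]
    exact Dvd.dvd.mul_left hd _
  rcases (hp.dvd_mul).1 h1 with h | h
  · rcases (hp.dvd_mul).1 h with h | h
    · rcases (hp.dvd_mul).1 h with h | h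
      · rcases (hp.dvd_mul).1 h with h | h
        · rcases (hp.dvd_mul).1 h with h | h
          · exact hnd 2 (by omega) h
          · exact hnd' 5 (by omega) h
        · exact hnd 6 (by omega) h
      · exact hnd 8 (by omega) h
    · exact hnd' 9 (by omega) h
  · exact hnd 12 (by omega) h

theorem cart_56 : chevE6.cartan 1 56 = 0 ∧ chevE6.cartan 3 56 = 0 ∧ chevE6.cartan 0 56 = 2 ∧ chevE6.cartan 5 56 = 0 ∧
    chevE6.cartan 2 56 = -1 ∧ chevE6.cartan 4 56 = 0 ∧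
    chevE6.cartan 1 36 = 0 ∧ chevE6.cartan 3 36 = 0 ∧ chevE6.cartan 0 36 = 0 ∧ chevE6.cartan 5 36 = 2 ∧
    chevE6.cartan 2 36 = 0 ∧ chevE6.cartan 4 36 = -1 ∧
    chevE6.cartan 1 42 = 0 ∧ chevE6.cartan 3 42 = -1 ∧ chevE6.cartan 0 42 = -1 ∧ chevE6.cartan 5 42 = 0 ∧
    chevE6.cartan 2 42 = 2 ∧ chevE6.cartan 4 42 = 0 ∧
    chevE6.cartan 1 37 = 0 ∧ chevE6.cartan 3 37 = -1 ∧ chevE6.cartan 0 37 = 0 ∧ chevE6.cartan 5 37 = -1 ∧
    chevE6.cartan 2 37 = 0 ∧ chevE6.cartan 4 37 = 2 := by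
  decide +kernel

/-- The scalars on the orbit `[0, 5]`. -/
theorem scal_05 (φ : K →+* K) (κ : K) (hκ : κ ≠ 0) : ∃ t₀ t₂ c₁ c₃ : K, t₀ ≠ 0 ∧ t₂ ≠ 0 ∧ c₁ ≠ 0 ∧ c₃ ≠ 0 ∧ φ c₁ = c₁ ∧ φ c₃ = c₃ ∧
      kp φ t₀ t₂ c₁ c₃ 56 = κ ∧ kp φ t₀ t₂ c₁ c₃ 36 = φ κ := by
  obtain ⟨a1, a2, a3, a4, a5, a6, b1, b2, b3, b4, b5, b6, -⟩ := cart_56
  refine ⟨1, κ⁻¹, 1, 1, one_ne_zero, inv_ne_zero hκ, one_ne_zero, one_ne_zero, map_one _, map_one _, ?_, ?_⟩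
  · rw [kp, a1, a2, a3, a4, a5, a6]
    simp
  · rw [kp, b1, b2, b3, b4, b5, b6]
    simp

/-- The scalars on the orbit `[2, 4]`. -/
theorem scal_24 (φ : K →+* K) (κ : K) (hκ : κ ≠ 0) : ∃ t₀ t₂ c₁ c₃ : K, t₀ ≠ 0 ∧ t₂ ≠ 0 ∧ c₁ ≠ 0 ∧ c₃ ≠ 0 ∧ φ c₁ = c₁ ∧ φ c₃ = c₃ ∧
      kp φ t₀ t₂ c₁ c₃ 42 = κ ∧ kp φ t₀ t₂ c₁ c₃ 37 = φ κ := by
  obtain ⟨-, -, -, -, -, -, -, -, -, -, -, -, a1, a2, a3, a4, a5, a6, b1, b2, b3, b4, b5, b6⟩ := cart_56
  refine ⟨κ⁻¹, 1, 1, 1, inv_ne_zero hκ, one_ne_zero, one_ne_zero, one_ne_zero, map_one _, map_one _, ?_, ?_⟩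
  · rw [kp, a1, a2, a3, a4, a5, a6]
    simp
  · rw [kp, b1, b2, b3, b4, b5, b6]
    simp

section
variable [Fintype K] {q : ℕ} {φ : K →+* K} {T : Tw (sys (F := K)).toAddRel}
  (hφ : ∀ t, φ t = t ^ q) (hφ2 : ∀ t, φ (φ t) = t) (hρ : T.ρ = ρ0)
  (hτ : ∀ r t, T.τ r t = ((ε0 r : ℤ) : K) * φ t)
  (I : Inst sys tbl_chevE6 T Js cl (twistedE6 K q))

include hφ hφ2 hρ hτ I in
/-- The kernel is killed by the index, for `q ≥ 3`. -/
theorem pow_ge3 (hq3 : 3 ≤ q) (hK : Fintype.card K = q ^ 2) {Γ : Type*} [Group Γ] [Finite Γ]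
    {σ : Γ →* ↥(twistedE6 K q)} (hs : Function.Surjective σ) (hc : σ.ker ≤ Subgroup.center Γ)
    (hk : σ.ker ≤ commutator Γ) {a : Γ} (ha : a ∈ σ.ker) :
    a ^ ((chevE6.posUnipotent K ⊓ T.Fx).subgroupOf (twistedE6 K q)).index = 1 := by
  obtain ⟨g, hg0, hd1⟩ := exists_g hφ hK hq3
  have hd0 : g * φ g ≠ 0 := by
    simp [hg0]
  have hdf : φ (g * φ g) = g * φ g := by
    rw [map_mul, hφ2, mul_comm]
  have hfp := hfp_of hφ hφ2 hρ hτ I hd0 hdf hd1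
  have hsep := hsep_of hφ hφ2 hρ hτ I hd0 hdf hd1 hg0 hd1
  have C := I.chainG chain_chk' ab_chk hfp hsep
  have htop : ∀ a b : Γ, σ a ∈ XS sys T (twistedE6 K q) [71] → σ b ∈ XS sys T (twistedE6 K q) [71] → a * b = b * a := by
    intro a b ha hb
    refine ab_of_comm hs hc (Xb := XS sys T (twistedE6 K q) [70]) (Xc := XS sys T (twistedE6 K q) [46]) ?_ ?_
      (fun x hx => top_comm hφ hρ hτ x hx I) ha hb
    · intro a b ha hb
      exact (C.comm_last hs hc (j := 22) (k := 23) (by norm_num) rfl hb ha).symm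
    · intro a b ha hb
      exact (C.comm_last hs hc (j := 0) (k := 23) (by norm_num) rfl hb ha).symm
  obtain ⟨e0, e1, e2, e3, e4, e5⟩ := e_s
  have hK5 : 5 ≤ Fintype.card K := by
    rw [hK]
    nlinarith
  refine I.pow_index chain_chk' ab_chk hfp hsep hs hc hk ?_ ha
  intro J hJ a b ha hb
  simp only [Js, List.mem_cons, List.not_mem_nil, or_false] at hJ
  rcases hJ with rfl | rfl | rfl | rfl
  · exact ab_short_of_top I (w := [[3], [2, 4], [0, 5], [3], [2, 4], [3], [1]]) (by decide) (by decide) cert_1 hs htop ha hb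
  · exact ab_short_of_top I (w := [[2, 4], [0, 5], [1], [3], [2, 4], [3], [1]]) (by decide) (by decide) cert_3 hs htop ha hb
  · exact ab_long hφ hφ2 hρ hτ I (orb2 hφ hρ hτ I (by decide) (by decide) e0 e5 (by decide +kernel) (by decide +kernel) (by simp [e6p1, e6p6]))
      (by decide) e0 e5 (by decide +kernel) (by decide +kernel) (scal_05 φ) hK5 hs hc ha hb
  · exact ab_long hφ hφ2 hρ hτ I (orb2 hφ hρ hτ I (by decide) (by decide) e2 e4 (by decide +kernel) (by decide +kernel) (by simp [e6p3, e6p5]))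
      (by decide) e2 e4 (by decide +kernel) (by decide +kernel) (scal_24 φ) hK5 hs hc ha hb

end

end Cfsg.Agent.Lib.Twisted.E6
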