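import Cfsg.Agent.Lib.Twisted.Mult.E6Ker
import Cfsg.Agent.Lib.Steinberg.Gen.MultE67

/-!
# `²E₆(q)`: the simply connected form inside the group presented by Steinberg's relations
-/

set_option autoImplicit false
set_option maxRecDepth 1000000

namespace Cfsg.Agent.Lib.Twisted.E6

open Cfsg.Lie Cfsg.Agent.Lib.Chevalley.Reflect
open Cfsg.Agent.Lib.Chevalley.Tbl.E6 (cols colOK sys comm)
open Cfsg.Agent.Lib.ChevBN.Elem Cfsg.Agent.Lib.ChevBN.Table Cfsg.Agent.Lib.ChevBN.Opp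
open Cfsg.Agent.Lib.ChevBN.FastData (tbl_chevE6)
open Cfsg.Agent.Lib.Steinberg.Gen

universe u v

section Gen

variable {K : Type u} [Field K] {η : ℕ → ℕ → ℤ} {Δ : Type v} [Group Δ] (C : Ctx chevE6 K η Δ) (φ : K →+* K)

/-- The generators of the simply connected form. -/
def genS : Set Δ :=
  {g | (∃ t, φ t = t ∧ (g = C.Y.y 46 t ∨ g = C.Y.y 25 t ∨ g = C.Y.y 39 t ∨ g = C.Y.y 32 t)) ∨
    ∃ t, g = C.Y.y 56 t * C.Y.y 36 (φ t) ∨ g = C.Y.y 15 t * C.Y.y 35 (φ t) ∨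
      g = C.Y.y 42 t * C.Y.y 37 (φ t) ∨ g = C.Y.y 29 t * C.Y.y 34 (φ t)}

/-- The simply connected form. -/
def scG : Subgroup Δ := Subgroup.closure (genS C φ)

theorem θ_y {r : ℕ} (hr : r < chevE6.nroots) (t : K) : C.θ (C.Y.y r t) = X (sys (F := K)).toAddRel r t :=
  C.hθ r hr t

theorem map_scG {q : ℕ} (hφ : ∀ t, φ t = t ^ q) : (scG C φ).map C.θ = twistedE6 K q := by
  rw [scG, MonoidHom.map_closure]
  have l : ∀ r, r ∈ ([56, 36, 15, 35, 42, 37, 29, 34, 46, 25, 39, 32] : List ℕ) → r < chevE6.nroots := by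
    decide +kernel
  have hw : ∀ (a b : ℕ) (t : K), a ∈ ([56, 36, 15, 35, 42, 37, 29, 34, 46, 25, 39, 32] : List ℕ) →
      b ∈ ([56, 36, 15, 35, 42, 37, 29, 34, 46, 25, 39, 32] : List ℕ) →
      C.θ (C.Y.y a t * C.Y.y b (φ t)) = w2 φ a b t := by
    intro a b t ha hb
    rw [map_mul, θ_y C (l a ha), θ_y C (l b hb), w2, mul_one]
  apply le_antisymm
  · rw [Subgroup.closure_le]
    rintro _ ⟨g, hg, rfl⟩
    rcases hg with ⟨t, ht, rfl | rfl | rfl | rfl⟩ | ⟨t, rfl | rfl | rfl | rfl⟩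
    · rw [θ_y C (l 46 (by simp))]
      exact X_single_mem hφ (by simp [e6p2]) ht
    · rw [θ_y C (l 25 (by simp))]
      exact X_single_mem hφ (by simp [e6m2]) ht
    · rw [θ_y C (l 39 (by simp))]
      exact X_single_mem hφ (by simp [e6p4]) ht
    · rw [θ_y C (l 32 (by simp))]
      exact X_single_mem hφ (by simp [e6m4]) ht
    · rw [hw 56 36 t (by simp) (by simp)]
      exact w2_mem hφ (rs := (56, 36)) (by simp [e6p1, e6p6]) t
    · rw [hw 15 35 t (by simp) (by simp)]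
      exact w2_mem hφ (rs := (15, 35)) (by simp [e6m1, e6m6]) t
    · rw [hw 42 37 t (by simp) (by simp)]
      exact w2_mem hφ (rs := (42, 37)) (by simp [e6p3, e6p5]) t
    · rw [hw 29 34 t (by simp) (by simp)]
      exact w2_mem hφ (rs := (29, 34)) (by simp [e6m3, e6m5]) t
  · show chevE6.genSubgroup K (e6Words K q) ≤ _
    rw [ChevalleyDatum.genSubgroup, Subgroup.closure_le]
    intro g hg
    apply Subgroup.subset_closure
    rcases gen_form hφ hg with ⟨t, ht, rfl | rfl | rfl | rfl⟩ | ⟨t, rfl | rfl | rfl | rfl⟩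
    · exact ⟨_, Or.inl ⟨t, ht, Or.inl rfl⟩, θ_y C (l 46 (by simp)) t⟩
    · exact ⟨_, Or.inl ⟨t, ht, Or.inr (Or.inl rfl)⟩, θ_y C (l 25 (by simp)) t⟩
    · exact ⟨_, Or.inl ⟨t, ht, Or.inr (Or.inr (Or.inl rfl))⟩, θ_y C (l 39 (by simp)) t⟩
    · exact ⟨_, Or.inl ⟨t, ht, Or.inr (Or.inr (Or.inr rfl))⟩, θ_y C (l 32 (by simp)) t⟩
    · exact ⟨_, Or.inr ⟨t, Or.inl rfl⟩, hw 56 36 t (by simp) (by simp)⟩
    · exact ⟨_, Or.inr ⟨t, Or.inr (Or.inl rfl)⟩, hw 15 35 t (by simp) (by simp)⟩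
    · exact ⟨_, Or.inr ⟨t, Or.inr (Or.inr (Or.inl rfl))⟩, hw 42 37 t (by simp) (by simp)⟩
    · exact ⟨_, Or.inr ⟨t, Or.inr (Or.inr (Or.inr rfl))⟩, hw 29 34 t (by simp) (by simp)⟩

/-- The map of the simply connected form to the twisted group. -/
noncomputable def σS {q : ℕ} (hφ : ∀ t, φ t = t ^ q) : ↥(scG C φ) →* ↥(twistedE6 K q) :=
  (C.θ.comp (scG C φ).subtype).codRestrict _ (fun x => by
    rw [← map_scG C φ hφ]
    exact ⟨x.1, x.2, rfl⟩)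

theorem σS_surj {q : ℕ} (hφ : ∀ t, φ t = t ^ q) : Function.Surjective (σS C φ hφ) := by
  rintro ⟨g, hg⟩
  rw [← map_scG C φ hφ] at hg
  obtain ⟨x, hx, rfl⟩ := hg
  exact ⟨⟨x, hx⟩, rfl⟩

theorem mem_ker_σS {q : ℕ} (hφ : ∀ t, φ t = t ^ q) {x : ↥(scG C φ)} :
    x ∈ (σS C φ hφ).ker ↔ C.θ x.1 = 1 := by
  rw [MonoidHom.mem_ker]
  constructor
  · intro h
    exact congrArg Subtype.val h
  · intro h
    exact Subtype.ext h

theorem ker_σS_le_center {q : ℕ} (hφ : ∀ t, φ t = t ^ q) : (σS C φ hφ).ker ≤ Subgroup.center ↥(scG C φ) := by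
  intro x hx
  have h1 := (C.ker_le ((mem_ker_σS C φ hφ).1 hx)).2
  rw [Subgroup.mem_center_iff] at h1 ⊢
  intro g
  exact Subtype.ext (h1 g.1)

theorem y_comm {a b : ℕ} (ha : a < chevE6.nroots) (hb : b < chevE6.nroots) (h1 : b ≠ a) (h2 : b ≠ chevE6.neg a)
    (h3 : chevE6.commTerms a b = []) (t u : K) : Commute (C.Y.y a t) (C.Y.y b u) := by
  have e : (C.Y.y b u)⁻¹ * (C.Y.y a t)⁻¹ * C.Y.y b u * C.Y.y a t = 1 := by
    have := C.Y.comm a ha b hb h1 h2 t u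
    simpa [ChevalleyDatum.commWord, h3] using this
  show C.Y.y a t * C.Y.y b u = C.Y.y b u * C.Y.y a t
  calc C.Y.y a t * C.Y.y b u = C.Y.y a t * C.Y.y b u * ((C.Y.y b u)⁻¹ * (C.Y.y a t)⁻¹ * C.Y.y b u * C.Y.y a t) := by
        rw [e, mul_one]
    _ = _ := by group

/-- Four commutation relations of orthogonal roots. -/
structure Ort (a b na nb : ℕ) : Prop where
  h1 : ∀ t u : K, Commute (C.Y.y a t) (C.Y.y b u)
  h2 : ∀ t u : K, Commute (C.Y.y a t) (C.Y.y nb u)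
  h3 : ∀ t u : K, Commute (C.Y.y na t) (C.Y.y b u)
  h4 : ∀ t u : K, Commute (C.Y.y na t) (C.Y.y nb u)

theorem ort_05 : Ort C 56 36 15 35 := by
  refine ⟨y_comm C ?_ ?_ ?_ ?_ ?_, y_comm C ?_ ?_ ?_ ?_ ?_, y_comm C ?_ ?_ ?_ ?_ ?_, y_comm C ?_ ?_ ?_ ?_ ?_⟩ <;> decide +kernel

theorem ort_24 : Ort C 42 37 29 34 := by
  refine ⟨y_comm C ?_ ?_ ?_ ?_ ?_, y_comm C ?_ ?_ ?_ ?_ ?_, y_comm C ?_ ?_ ?_ ?_ ?_, y_comm C ?_ ?_ ?_ ?_ ?_⟩ <;> decide +kernel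

theorem rearr3 {G : Type*} [Group G] {x1 x2 x3 z1 z2 z3 : G} (c21 : Commute x2 z1) (c31 : Commute x3 z1)
    (c32 : Commute x3 z2) : (x1 * x2 * x3) * (z1 * z2 * z3) = (x1 * z1) * (x2 * z2) * (x3 * z3) := by
  have h1 := c31.eq
  have h2 := c21.eq
  have h3 := c32.eq
  calc (x1 * x2 * x3) * (z1 * z2 * z3) = x1 * x2 * (x3 * z1) * z2 * z3 := by group
    _ = x1 * (x2 * z1) * x3 * z2 * z3 := by rw [h1]; group
    _ = x1 * z1 * x2 * (x3 * z2) * z3 := by rw [h2]; group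
    _ = _ := by rw [h3]; group

variable {C φ}

theorem wh_comm {i j a b na nb : ℕ} (e : chevE6.simple i = a) (e' : chevE6.simple j = b) (en : chevE6.neg a = na)
    (en' : chevE6.neg b = nb) (O : Ort C a b na nb) (t u : K) : Commute (C.Y.wh i t) (C.Y.wh j u) := by
  simp only [YFam.wh, YFam.wr, e, e', en, en']
  refine Commute.mul_left (Commute.mul_left ?_ ?_) ?_ <;>
    refine Commute.mul_right (Commute.mul_right ?_ ?_) ?_
  · exact O.h1 _ _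
  · exact O.h2 _ _
  · exact O.h1 _ _
  · exact O.h3 _ _
  · exact O.h4 _ _
  · exact O.h3 _ _
  · exact O.h1 _ _
  · exact O.h2 _ _
  · exact O.h1 _ _

theorem wh2_mem {H : Subgroup Δ} {i j a b na nb : ℕ} (e : chevE6.simple i = a) (e' : chevE6.simple j = b)
    (en : chevE6.neg a = na) (en' : chevE6.neg b = nb) (O : Ort C a b na nb)
    (h1 : ∀ t, C.Y.y a t * C.Y.y b (φ t) ∈ H) (h2 : ∀ t, C.Y.y na t * C.Y.y nb (φ t) ∈ H) (t : K) :
    C.Y.wh i t * C.Y.wh j (φ t) ∈ H := by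
  simp only [YFam.wh, YFam.wr, e, e', en, en']
  rw [rearr3 (O.h3 _ _) (O.h1 _ _) (O.h2 _ _)]
  have e3 : (-(φ t)⁻¹) = φ (-t⁻¹) := by simp
  rw [e3]
  exact H.mul_mem (H.mul_mem (h1 t) (h2 _)) (h1 t)

theorem hh2_mem {H : Subgroup Δ} {i j a b na nb : ℕ} (e : chevE6.simple i = a) (e' : chevE6.simple j = b)
    (en : chevE6.neg a = na) (en' : chevE6.neg b = nb) (O : Ort C a b na nb)
    (h1 : ∀ t, C.Y.y a t * C.Y.y b (φ t) ∈ H) (h2 : ∀ t, C.Y.y na t * C.Y.y nb (φ t) ∈ H) (t : K) :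
    C.hh i t * C.hh j (φ t) ∈ H := by
  have hc := (wh_comm e e' en en' O (-1) (φ t)).eq
  have e3 : C.hh i t * C.hh j (φ t) = (C.Y.wh i t * C.Y.wh j (φ t)) * (C.Y.wh i (-1) * C.Y.wh j (φ (-1))) := by
    rw [Ctx.hh_def, Ctx.hh_def]
    have e4 : φ (-1) = -1 := by simp
    rw [e4]
    calc C.Y.wh i t * C.Y.wh i (-1) * (C.Y.wh j (φ t) * C.Y.wh j (-1))
        = C.Y.wh i t * (C.Y.wh i (-1) * C.Y.wh j (φ t)) * C.Y.wh j (-1) := by group
      _ = _ := by rw [hc]; group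
  rw [e3]
  exact H.mul_mem (wh2_mem e e' en en' O h1 h2 t) (wh2_mem e e' en en' O h1 h2 (-1))

theorem hh1_mem {H : Subgroup Δ} {i a na : ℕ} (e : chevE6.simple i = a) (en : chevE6.neg a = na)
    (h1 : ∀ t, φ t = t → C.Y.y a t ∈ H) (h2 : ∀ t, φ t = t → C.Y.y na t ∈ H) {t : K} (ht : φ t = t) :
    C.hh i t ∈ H := by
  have hw : ∀ s, φ s = s → C.Y.wh i s ∈ H := by
    intro s hs
    simp only [YFam.wh, YFam.wr, e, en]
    have e3 : φ (-s⁻¹) = -s⁻¹ := by simp [hs]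
    exact H.mul_mem (H.mul_mem (h1 s hs) (h2 _ e3)) (h1 s hs)
  rw [Ctx.hh_def]
  exact H.mul_mem (hw t ht) (hw _ (by simp))

/-- The image of the commutator subgroup of a subgroup. -/
def cmP (H : Subgroup Δ) : Subgroup Δ := (commutator ↥H).map H.subtype

theorem cm_mem_P {H : Subgroup Δ} {a b : Δ} (ha : a ∈ H) (hb : b ∈ H) : a * b * a⁻¹ * b⁻¹ ∈ cmP H :=
  ⟨(⟨a, ha⟩ : ↥H) * ⟨b, hb⟩ * (⟨a, ha⟩ : ↥H)⁻¹ * (⟨b, hb⟩ : ↥H)⁻¹, cm_mem _ _, rfl⟩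

theorem comm_top_of_le {H : Subgroup Δ} (h : H ≤ cmP H) : commutator ↥H = ⊤ := by
  rw [eq_top_iff]
  rintro x -
  obtain ⟨y, hy, e⟩ := h x.2
  have : y = x := Subtype.ext e
  rwa [← this]

theorem comm1_mem {H : Subgroup Δ} {r : ℕ} (hr : r < chevE6.nroots) {κ : K} (hκ1 : κ ≠ 1) (hf : φ κ = κ)
    {g : Δ} (hg : g ∈ H) (hact : ∀ t, g * C.Y.y r t * g⁻¹ = C.Y.y r (κ * t))
    (hm : ∀ t, φ t = t → C.Y.y r t ∈ H) {τ : K} (hτ : φ τ = τ) : C.Y.y r τ ∈ cmP H := by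
  have h0 : κ - 1 ≠ 0 := sub_ne_zero.2 hκ1
  set t := (κ - 1)⁻¹ * τ with ht
  have hft : φ t = t := by
    rw [ht, map_mul, map_inv₀, map_sub, map_one, hf, hτ]
  have h1 := cm_mem_P hg (hm t hft)
  rw [hact, C.Y.y_inv hr, C.Y.add r hr] at h1
  have e : κ * t + -t = τ := by
    rw [ht]
    field_simp
    ring
  rwa [e] at h1

theorem comm2_mem {H : Subgroup Δ} {r r' : ℕ} (hr : r < chevE6.nroots) (hr' : r' < chevE6.nroots)
    (hcm : ∀ t u : K, Commute (C.Y.y r t) (C.Y.y r' u)) {κ : K} (hκ1 : κ ≠ 1) (hf : φ κ = κ)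
    {g : Δ} (hg : g ∈ H) (hact : ∀ t, g * C.Y.y r t * g⁻¹ = C.Y.y r (κ * t))
    (hact' : ∀ t, g * C.Y.y r' t * g⁻¹ = C.Y.y r' (κ * t))
    (hm : ∀ t, C.Y.y r t * C.Y.y r' (φ t) ∈ H) (τ : K) : C.Y.y r τ * C.Y.y r' (φ τ) ∈ cmP H := by
  have h0 : κ - 1 ≠ 0 := sub_ne_zero.2 hκ1
  set t := (κ - 1)⁻¹ * τ with ht
  have h1 := cm_mem_P hg (hm t)
  have e1 : g * (C.Y.y r t * C.Y.y r' (φ t)) * g⁻¹ * (C.Y.y r t * C.Y.y r' (φ t))⁻¹ =
      C.Y.y r τ * C.Y.y r' (φ τ) := by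
    have e2 : g * (C.Y.y r t * C.Y.y r' (φ t)) * g⁻¹ = C.Y.y r (κ * t) * C.Y.y r' (κ * φ t) := by
      rw [← hact, ← hact']
      group
    rw [e2, mul_inv_rev, C.Y.y_inv hr, C.Y.y_inv hr']
    have e3 : C.Y.y r (κ * t) * C.Y.y r' (κ * φ t) * (C.Y.y r' (-φ t) * C.Y.y r (-t)) =
        C.Y.y r (κ * t) * (C.Y.y r' (κ * φ t) * C.Y.y r' (-φ t)) * C.Y.y r (-t) := by group
    rw [e3, C.Y.add r' hr', mul_assoc, ((hcm (-t) _).symm.eq : C.Y.y r' (κ * φ t + -φ t) * C.Y.y r (-t) = _) , ← mul_assoc, C.Y.add r hr]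
    congr 2
    · rw [ht]
      field_simp
      ring
    · rw [ht, map_mul, map_inv₀, map_sub, map_one, hf]
      field_simp
      ring
  rwa [e1] at h1

theorem zpow_ne_one_of' {s : K} (h1 : s ≠ 1) {n : ℤ} (hn : n = 1 ∨ n = -1) : s ^ n ≠ 1 := by
  rcases hn with rfl | rfl
  · simpa using h1
  · simpa using h1

theorem comm1_of {H : Subgroup Δ} {j r : ℕ} (hj : j < chevE6.rank) (hr : r < chevE6.nroots) {s : K} (hs0 : s ≠ 0)
    (hs1 : s ≠ 1) (hsf : φ s = s) (hg : C.hh j s ∈ H) (hc1 : chevE6.cartan j r = 1 ∨ chevE6.cartan j r = -1)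
    (hm : ∀ t, φ t = t → C.Y.y r t ∈ H) {τ : K} (hτ : φ τ = τ) : C.Y.y r τ ∈ cmP H :=
  comm1_mem hr (zpow_ne_one_of' hs1 hc1) (by rw [map_zpow₀, hsf]) hg (fun t => C.hh_conj hj hr hs0 t) hm hτ

theorem comm2_of {H : Subgroup Δ} {j j' r r' : ℕ} (hj : j < chevE6.rank) (hj' : j' < chevE6.rank)
    (hr : r < chevE6.nroots) (hr' : r' < chevE6.nroots)
    (hcm : ∀ t u : K, Commute (C.Y.y r t) (C.Y.y r' u)) {s : K} (hs0 : s ≠ 0)
    (hs1 : s ≠ 1) (hsf : φ s = s) (hg : C.hh j s * C.hh j' s ∈ H)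
    (hc : chevE6.cartan j r + chevE6.cartan j' r = chevE6.cartan j r' + chevE6.cartan j' r')
    (hc1 : chevE6.cartan j r + chevE6.cartan j' r = 1 ∨ chevE6.cartan j r + chevE6.cartan j' r = -1)
    (hm : ∀ t, C.Y.y r t * C.Y.y r' (φ t) ∈ H) (τ : K) : C.Y.y r τ * C.Y.y r' (φ τ) ∈ cmP H := by
  have ha : ∀ {x : ℕ} (_ : x < chevE6.nroots) (t : K), (C.hh j s * C.hh j' s) * C.Y.y x t * (C.hh j s * C.hh j' s)⁻¹ =
      C.Y.y x (s ^ (chevE6.cartan j x + chevE6.cartan j' x) * t) := by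
    intro x hx t
    have e : (C.hh j s * C.hh j' s) * C.Y.y x t * (C.hh j s * C.hh j' s)⁻¹ =
        C.hh j s * (C.hh j' s * C.Y.y x t * (C.hh j' s)⁻¹) * (C.hh j s)⁻¹ := by group
    rw [e, C.hh_conj hj' hx hs0, C.hh_conj hj hx hs0, zpow_add₀ hs0, mul_assoc]
  refine comm2_mem hr hr' hcm (zpow_ne_one_of' hs1 hc1) (by rw [map_zpow₀, hsf]) hg (ha hr) (fun t => ?_) hm τ
  rw [ha hr', hc]

end Gen

section Perf

variable {K : Type u} [Field K] {η : ℕ → ℕ → ℤ} {Δ : Type v} [Group Δ] {C : Ctx chevE6 K η Δ} {φ : K →+* K}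

theorem s_mem {t : K} (ht : φ t = t) {g : Δ} (hg : g = C.Y.y 46 t ∨ g = C.Y.y 25 t ∨ g = C.Y.y 39 t ∨ g = C.Y.y 32 t) :
    g ∈ scG C φ :=
  Subgroup.subset_closure (Or.inl ⟨t, ht, hg⟩)

theorem d_mem (t : K) {g : Δ} (hg : g = C.Y.y 56 t * C.Y.y 36 (φ t) ∨ g = C.Y.y 15 t * C.Y.y 35 (φ t) ∨
      g = C.Y.y 42 t * C.Y.y 37 (φ t) ∨ g = C.Y.y 29 t * C.Y.y 34 (φ t)) :
    g ∈ scG C φ :=
  Subgroup.subset_closure (Or.inr ⟨t, hg⟩)

/-- The torus elements of the simply connected form. -/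
theorem hh_05_mem (t : K) : C.hh 0 t * C.hh 5 (φ t) ∈ scG C φ := by
  obtain ⟨e0, e1, e2, e3, e4, e5⟩ := e_s
  obtain ⟨n0, n1, n2, n3, n4, n5⟩ := e_n
  exact hh2_mem e0 e5 n0 n5 (ort_05 C) (fun t => d_mem t (Or.inl rfl)) (fun t => d_mem t (Or.inr (Or.inl rfl))) t

theorem hh_24_mem (t : K) : C.hh 2 t * C.hh 4 (φ t) ∈ scG C φ := by
  obtain ⟨e0, e1, e2, e3, e4, e5⟩ := e_s
  obtain ⟨n0, n1, n2, n3, n4, n5⟩ := e_n
  exact hh2_mem e2 e4 n2 n4 (ort_24 C) (fun t => d_mem t (Or.inr (Or.inr (Or.inl rfl))))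
    (fun t => d_mem t (Or.inr (Or.inr (Or.inr rfl)))) t

theorem hh_1_mem {t : K} (ht : φ t = t) : C.hh 1 t ∈ scG C φ := by
  obtain ⟨e0, e1, e2, e3, e4, e5⟩ := e_s
  obtain ⟨n0, n1, n2, n3, n4, n5⟩ := e_n
  exact hh1_mem e1 n1 (fun t ht => s_mem ht (Or.inl rfl)) (fun t ht => s_mem ht (Or.inr (Or.inl rfl))) ht

theorem hh_3_mem {t : K} (ht : φ t = t) : C.hh 3 t ∈ scG C φ := by
  obtain ⟨e0, e1, e2, e3, e4, e5⟩ := e_s
  obtain ⟨n0, n1, n2, n3, n4, n5⟩ := e_n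
  exact hh1_mem e3 n3 (fun t ht => s_mem ht (Or.inr (Or.inr (Or.inl rfl)))) (fun t ht => s_mem ht (Or.inr (Or.inr (Or.inr rfl)))) ht

/-- The simply connected form is perfect as soon as there is a nontrivial scalar. -/
theorem scG_perfect {s : K} (hs0 : s ≠ 0) (hs1 : s ≠ 1) (hsf : φ s = s) : commutator ↥(scG C φ) = ⊤ := by
  apply comm_top_of_le
  rw [scG.eq_1, Subgroup.closure_le, ← scG.eq_1]
  have g0 : C.hh 0 s * C.hh 5 s ∈ scG C φ := by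
    have := hh_05_mem (C := C) (φ := φ) s
    rwa [hsf] at this
  have g2 : C.hh 2 s * C.hh 4 s ∈ scG C φ := by
    have := hh_24_mem (C := C) (φ := φ) s
    rwa [hsf] at this
  have g1 := hh_1_mem (C := C) hsf
  have g3 := hh_3_mem (C := C) hsf
  have d05 := ort_05 C
  have d24 := ort_24 C
  rintro g (⟨t, ht, rfl | rfl | rfl | rfl⟩ | ⟨t, rfl | rfl | rfl | rfl⟩)
  · exact comm1_of (j := 3) (by decide +kernel) (by decide +kernel) hs0 hs1 hsf g3 (by decide +kernel)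
      (fun t ht => s_mem ht (Or.inl rfl)) ht
  · exact comm1_of (j := 3) (by decide +kernel) (by decide +kernel) hs0 hs1 hsf g3 (by decide +kernel)
      (fun t ht => s_mem ht (Or.inr (Or.inl rfl))) ht
  · exact comm1_of (j := 1) (by decide +kernel) (by decide +kernel) hs0 hs1 hsf g1 (by decide +kernel)
      (fun t ht => s_mem ht (Or.inr (Or.inr (Or.inl rfl)))) ht
  · exact comm1_of (j := 1) (by decide +kernel) (by decide +kernel) hs0 hs1 hsf g1 (by decide +kernel)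
      (fun t ht => s_mem ht (Or.inr (Or.inr (Or.inr rfl)))) ht
  · exact comm2_of (j := 2) (j' := 4) (by decide +kernel) (by decide +kernel) (by decide +kernel) (by decide +kernel)
      d05.h1 hs0 hs1 hsf g2 (by decide +kernel) (by decide +kernel) (fun t => d_mem t (Or.inl rfl)) t
  · exact comm2_of (j := 2) (j' := 4) (by decide +kernel) (by decide +kernel) (by decide +kernel) (by decide +kernel)
      d05.h4 hs0 hs1 hsf g2 (by decide +kernel) (by decide +kernel) (fun t => d_mem t (Or.inr (Or.inl rfl))) t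
  · exact comm2_of (j := 0) (j' := 5) (by decide +kernel) (by decide +kernel) (by decide +kernel) (by decide +kernel)
      d24.h1 hs0 hs1 hsf g0 (by decide +kernel) (by decide +kernel) (fun t => d_mem t (Or.inr (Or.inr (Or.inl rfl)))) t
  · exact comm2_of (j := 0) (j' := 5) (by decide +kernel) (by decide +kernel) (by decide +kernel) (by decide +kernel)
      d24.h4 hs0 hs1 hsf g0 (by decide +kernel) (by decide +kernel) (fun t => d_mem t (Or.inr (Or.inr (Or.inr rfl)))) t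

end Perf

end Cfsg.Agent.Lib.Twisted.E6
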