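import Cfsg.Agent.Lib.Twisted.Mult.E6Core

/-!
# `²E₆(q)`: the elements of the torus for the chain of the classes of roots
-/

set_option autoImplicit false
set_option maxRecDepth 1000000

namespace Cfsg.Agent.Lib.Twisted.E6

open Cfsg.Lie Cfsg.Agent.Lib.Chevalley.Reflect
open Cfsg.Agent.Lib.Chevalley.Tbl.E6 (cols colOK sys comm)
open Cfsg.Agent.Lib.ChevBN.Elem Cfsg.Agent.Lib.ChevBN.Table Cfsg.Agent.Lib.ChevBN.Opp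
open Cfsg.Agent.Lib.ChevBN.FastData (tbl_chevE6)
open Cfsg.Agent.Lib.Twisted.Mult Cfsg.Agent.Lib.BNPair.CoxeterExchange
open Cfsg.Agent.Lib.Chevalley

universe u

variable {K : Type u} [Field K]

/-- The scalar of a torus element on a root. -/
noncomputable def kp (φ : K →+* K) (t₀ t₂ c₁ c₃ : K) (r : ℕ) : K :=
  c₁ ^ chevE6.cartan 1 r * (c₃ ^ chevE6.cartan 3 r * (t₀ ^ chevE6.cartan 0 r * ((φ t₀) ^ chevE6.cartan 5 r *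
    (t₂ ^ chevE6.cartan 2 r * (φ t₂) ^ chevE6.cartan 4 r))))

/-- The exponent for the first family. -/
def pA (v : ℤ × ℤ × ℤ × ℤ) (r : ℕ) : ℤ :=
  v.1 * (chevE6.cartan 0 r + chevE6.cartan 5 r) + v.2.1 * (chevE6.cartan 2 r + chevE6.cartan 4 r) +
    v.2.2.1 * chevE6.cartan 1 r + v.2.2.2 * chevE6.cartan 3 r

/-- The exponent for the second family. -/
def pB (v : ℤ × ℤ × ℤ × ℤ) (r : ℕ) : ℤ :=
  v.1 * chevE6.cartan 0 r + v.2.1 * chevE6.cartan 2 r + v.2.2.1 * chevE6.cartan 1 r + v.2.2.2 * chevE6.cartan 3 r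

/-- The roots are in the range. -/
theorem cl_lt : ∀ S ∈ cl, ∀ r ∈ S, r < chevE6.nroots := by decide +kernel

theorem kp_A {φ : K →+* K} {s : K} (hs : s ≠ 0) (hf : φ s = s) (v : ℤ × ℤ × ℤ × ℤ) (r : ℕ) :
    kp φ (s ^ v.1) (s ^ v.2.1) (s ^ v.2.2.1) (s ^ v.2.2.2) r = s ^ pA v r := by
  have e : ∀ x : ℤ, φ (s ^ x) = s ^ x := fun x => by rw [map_zpow₀, hf]
  rw [kp, e, e, pA, zpow_add₀ hs, zpow_add₀ hs, zpow_add₀ hs, zpow_mul s v.2.2.1, zpow_mul s v.2.2.2,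
    mul_add, mul_add, zpow_add₀ hs, zpow_add₀ hs, zpow_mul s v.1, zpow_mul s v.1, zpow_mul s v.2.1, zpow_mul s v.2.1]
  ring

/-- Roots fixed by the permutation. -/
def fixedR (r : ℕ) : Prop := chevE6.cartan 0 r = chevE6.cartan 5 r ∧ chevE6.cartan 2 r = chevE6.cartan 4 r

instance : DecidablePred fixedR := fun r => by
  unfold fixedR
  infer_instance

theorem kp_B {φ : K →+* K} {g d : K} (hd : g * φ g = d) (hd0 : d ≠ 0) (v : ℤ × ℤ × ℤ × ℤ) {r : ℕ}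
    (hr : fixedR r) :
    kp φ (g ^ v.1) (g ^ v.2.1) (d ^ v.2.2.1) (d ^ v.2.2.2) r = d ^ pB v r := by
  have h1 : ∀ (x n : ℤ), (g ^ x) ^ n * (φ (g ^ x)) ^ n = d ^ (x * n) := by
    intro x n
    rw [← hd, map_zpow₀, zpow_mul (g * φ g), mul_zpow, mul_zpow]
  rw [pB, zpow_add₀ hd0, zpow_add₀ hd0, zpow_add₀ hd0, zpow_mul d v.2.2.1, zpow_mul d v.2.2.2, ← h1, ← h1, kp, ← hr.1, ← hr.2]
  ring

section
variable [Fintype K] {q : ℕ} {φ : K →+* K} {T : Tw (sys (F := K)).toAddRel}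
  (hφ : ∀ t, φ t = t ^ q) (hφ2 : ∀ t, φ (φ t) = t) (hρ : T.ρ = ρ0)
  (hτ : ∀ r t, T.τ r t = ((ε0 r : ℤ) : K) * φ t)
  (I : Inst sys tbl_chevE6 T Js cl (twistedE6 K q))

include hφ hφ2 hρ hτ I in
/-- The torus elements. -/
theorem exists_tor {t₀ t₂ c₁ c₃ : K} (ht₀ : t₀ ≠ 0) (ht₂ : t₂ ≠ 0) (hc₁ : c₁ ≠ 0) (hc₃ : c₃ ≠ 0)
    (hf₁ : φ c₁ = c₁) (hf₃ : φ c₃ = c₃) :
    ∃ h ∈ chevE6.diagonalSubgroup K ⊓ twistedE6 K q, ∀ r, r < chevE6.nroots → ∀ t : K,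
      h * X (sys (F := K)).toAddRel r t * h⁻¹ = X (sys (F := K)).toAddRel r (kp φ t₀ t₂ c₁ c₃ r * t) := by
  obtain ⟨h, e⟩ := exists_Θ hφ hφ2 hρ hτ I (Units.mk0 t₀ ht₀, Units.mk0 t₂ ht₂, ⟨Units.mk0 c₁ hc₁, by simpa [mem_fixU] using hf₁⟩,
    ⟨Units.mk0 c₃ hc₃, by simpa [mem_fixU] using hf₃⟩)
  refine ⟨h.1, h.2, fun r hr t => ?_⟩
  rw [e]
  simp only [Units.val_mk0]
  have hne : ∀ j ∈ ([1, 3, 0, 5, 2, 4] : List ℕ), dP φ t₀ t₂ c₁ c₃ j ≠ 0 := by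
    intro j _
    simp only [dP]
    split_ifs
    · exact ht₀
    · simpa using ht₀
    · exact ht₂
    · simpa using ht₂
    · exact hc₁
    · exact hc₃
  rw [torJ_conj sys (J := [1, 3, 0, 5, 2, 4]) (by decide) hne hr t]
  congr 2
  simp [dP, kp]

/-- `FixS` and `FpfS` from scalars. -/
theorem fix_of {h : GL chevE6.Idx K} {Ψ : Set ℕ} {κ : ℕ → K} (hΨ : ∀ r ∈ Ψ, r < chevE6.nroots)
    (hk : ∀ r, r < chevE6.nroots → ∀ t : K, h * X (sys (F := K)).toAddRel r t * h⁻¹ = X (sys (F := K)).toAddRel r (κ r * t))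
    (h1 : ∀ r ∈ Ψ, κ r = 1) : FixS sys h Ψ := by
  intro r hr t
  rw [hk r (hΨ r hr), h1 r hr, one_mul]

theorem fpf_of {h : GL chevE6.Idx K} {Ψ : Set ℕ} {κ : ℕ → K} (hΨ : ∀ r ∈ Ψ, r < chevE6.nroots)
    (hk : ∀ r, r < chevE6.nroots → ∀ t : K, h * X (sys (F := K)).toAddRel r t * h⁻¹ = X (sys (F := K)).toAddRel r (κ r * t))
    (h1 : ∀ r ∈ Ψ, κ r ≠ 1) : FpfS sys h Ψ := by
  intro r hr
  exact ⟨κ r, h1 r hr, hk r (hΨ r hr)⟩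

theorem zpow_ne_one_of {s : K} (h1 : s ≠ 1) {n : ℤ} (hn : n = 1 ∨ n = -1) : s ^ n ≠ 1 := by
  rcases hn with rfl | rfl
  · simpa using h1
  · simpa using h1

theorem getD_lt {l : ℕ} : ∀ r ∈ ({r | r ∈ cl.getD l []} : Set ℕ), r < chevE6.nroots := by
  intro r hr
  by_cases hl : l < cl.length
  · have hS : cl.getD l [] ∈ cl := by
      rw [List.getD_eq_getElem _ _ hl]
      exact List.getElem_mem _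
    exact cl_lt _ hS r hr
  · rw [List.getD_eq_default _ _ (by omega)] at hr
    simp at hr

include hφ hφ2 hρ hτ I in
/-- The first family: fixed on one, fixed-point-free on other. -/
theorem famA {s : K} (hs : s ≠ 0) (hf : φ s = s) (hs1 : s ≠ 1) (v : ℤ × ℤ × ℤ × ℤ) (j k : ℕ)
    (h1 : ∀ r ∈ cl.getD j [], pA v r = 0) (h2 : ∀ r ∈ cl.getD k [], pA v r = 1 ∨ pA v r = -1) :
    ∃ h ∈ chevE6.diagonalSubgroup K ⊓ twistedE6 K q,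
      FixS sys h {r | r ∈ cl.getD j []} ∧ FpfS sys h {r | r ∈ cl.getD k []} := by
  obtain ⟨h, hh, e⟩ := exists_tor hφ hφ2 hρ hτ I (zpow_ne_zero v.1 hs) (zpow_ne_zero v.2.1 hs) (zpow_ne_zero v.2.2.1 hs)
    (zpow_ne_zero v.2.2.2 hs) (by rw [map_zpow₀, hf]) (by rw [map_zpow₀, hf])
  refine ⟨h, hh, fix_of getD_lt e fun r hr => ?_, fpf_of getD_lt e fun r hr => ?_⟩
  · rw [kp_A hs hf, h1 r hr, zpow_zero]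
  · rw [kp_A hs hf]
    exact zpow_ne_one_of hs1 (h2 r hr)

include hφ hφ2 hρ hτ I in
/-- The first family: fixed-point-free. -/
theorem famA' {s : K} (hs : s ≠ 0) (hf : φ s = s) (hs1 : s ≠ 1) (v : ℤ × ℤ × ℤ × ℤ) (k : ℕ)
    (h2 : ∀ r ∈ cl.getD k [], pA v r = 1 ∨ pA v r = -1) :
    ∃ h ∈ chevE6.diagonalSubgroup K ⊓ twistedE6 K q, FpfS sys h {r | r ∈ cl.getD k []} := by
  obtain ⟨h, hh, -, e⟩ := famA hφ hφ2 hρ hτ I hs hf hs1 v 100 k (fun r hr => by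
    rw [show cl.getD 100 [] = [] from rfl] at hr
    simp at hr) h2
  exact ⟨h, hh, e⟩

include hφ hφ2 hρ hτ I in
/-- The second family. -/
theorem famB {g d : K} (hg : g ≠ 0) (hd : g * φ g = d) (hd1 : d ≠ 1) (v : ℤ × ℤ × ℤ × ℤ) (j k : ℕ)
    (hfix : ∀ r ∈ cl.getD j [], fixedR r) (hfix' : ∀ r ∈ cl.getD k [], fixedR r)
    (h1 : ∀ r ∈ cl.getD j [], pB v r = 0) (h2 : ∀ r ∈ cl.getD k [], pB v r = 1 ∨ pB v r = -1) :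
    ∃ h ∈ chevE6.diagonalSubgroup K ⊓ twistedE6 K q,
      FixS sys h {r | r ∈ cl.getD j []} ∧ FpfS sys h {r | r ∈ cl.getD k []} := by
  have hd0 : d ≠ 0 := by
    rw [← hd]
    simp [hg]
  have hdf : φ d = d := by
    rw [← hd, map_mul, hφ2, mul_comm]
  obtain ⟨h, hh, e⟩ := exists_tor hφ hφ2 hρ hτ I (zpow_ne_zero v.1 hg) (zpow_ne_zero v.2.1 hg) (zpow_ne_zero v.2.2.1 hd0)
    (zpow_ne_zero v.2.2.2 hd0) (by rw [map_zpow₀, hdf]) (by rw [map_zpow₀, hdf])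
  refine ⟨h, hh, fix_of getD_lt e fun r hr => ?_, fpf_of getD_lt e fun r hr => ?_⟩
  · rw [kp_B hd hd0 _ (hfix r hr), h1 r hr, zpow_zero]
  · rw [kp_B hd hd0 _ (hfix' r hr)]
    exact zpow_ne_one_of hd1 (h2 r hr)

end

/-- An entry of a table. -/
def eA (j k : ℕ) (a b c d : ℤ) : ℕ × ℕ × ℤ × ℤ × ℤ × ℤ := (j, k, a, b, c, d)

/-- An entry of a table. -/
def eF (a b c d : ℤ) : ℤ × ℤ × ℤ × ℤ := (a, b, c, d)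

/-- The table of the pairs of classes, first family. -/
def tabA : List (ℕ × ℕ × ℤ × ℤ × ℤ × ℤ) := [
  eA 0 1 (-2) (-3) (-1) (-2), eA 2 0 (-3) (-3) (-2) (-3), eA 3 0 (-3) (-2) (-2) (-3), eA 4 0 (-3) (0) (-2) (-3),
  eA 5 0 (-2) (-3) (-1) (-3), eA 6 0 (-3) (-2) (-1) (-3), eA 0 7 (-3) (-3) (-1) (-2), eA 0 8 (-3) (-3) (-1) (-2),
  eA 9 0 (-2) (-3) (-2) (-3), eA 0 10 (-3) (-3) (-1) (-2), eA 11 0 (-3) (-2) (-2) (-3), eA 0 12 (-3) (-3) (-1) (-2),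
  eA 14 0 (-3) (-2) (-1) (-3), eA 15 0 (-1) (-3) (-2) (-3), eA 16 0 (-3) (-3) (-2) (-3), eA 17 0 (-1) (-3) (-1) (-3),
  eA 18 0 (-3) (-3) (-2) (-3), eA 0 20 (-1) (-3) (-1) (-2), eA 0 22 (-3) (-3) (-1) (-2), eA 0 23 (-3) (-3) (-1) (-2),
  eA 1 2 (-1) (-2) (-3) (-2), eA 3 1 (-2) (-3) (0) (-3), eA 1 4 (-1) (-2) (-3) (-2), eA 5 1 (-2) (-3) (-1) (-3),
  eA 6 1 (-2) (-3) (-3) (-3), eA 7 1 (-2) (-3) (-2) (-3), eA 8 1 (-2) (-3) (-2) (-3), eA 9 1 (-2) (-3) (-2) (-3),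
  eA 10 1 (-2) (-3) (-1) (-3), eA 11 1 (-2) (-3) (-3) (-3), eA 12 1 (-2) (-3) (-1) (-3), eA 13 1 (-1) (-3) (-3) (-2),
  eA 14 1 (-2) (-3) (0) (-3), eA 15 1 (-1) (-3) (-2) (-3), eA 16 1 (-2) (-3) (-3) (-3), eA 17 1 (-2) (-3) (1) (-3),
  eA 1 18 (-1) (-2) (-3) (-3), eA 19 1 (-2) (-3) (-3) (-2), eA 1 20 (-1) (-2) (-3) (-3), eA 1 21 (-1) (-2) (-3) (-3),
  eA 22 1 (-2) (-3) (-3) (-3), eA 23 1 (-2) (-3) (0) (-3), eA 2 3 (-3) (-3) (-1) (-3), eA 4 2 (-1) (-1) (-3) (-2),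
  eA 2 5 (-3) (-3) (-1) (-3), eA 2 6 (-3) (-3) (-2) (-3), eA 2 7 (-3) (-3) (-1) (-3), eA 2 8 (-3) (-3) (-2) (-3),
  eA 9 2 (-3) (-3) (-3) (-2), eA 2 10 (-3) (-3) (-1) (-3), eA 11 2 (-3) (-3) (-3) (-2), eA 2 12 (-3) (-3) (-2) (-3),
  eA 2 13 (-1) (-2) (-3) (-3), eA 2 14 (-3) (-3) (-1) (-3), eA 2 15 (-2) (-2) (-3) (-2), eA 16 2 (-3) (-2) (-3) (-2),
  eA 2 17 (-3) (-3) (2) (-3), eA 18 2 (-3) (-3) (-3) (-2), eA 2 19 (-1) (-2) (-3) (-3), eA 2 20 (-1) (-2) (-3) (-3),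
  eA 2 21 (-1) (-2) (-3) (-3), eA 2 22 (-3) (-3) (-2) (-3), eA 2 23 (-3) (-3) (-1) (-3), eA 3 4 (-2) (-2) (-2) (-3),
  eA 5 3 (-3) (-3) (1) (-2), eA 3 6 (-3) (-2) (-2) (-3), eA 8 3 (-2) (-2) (-3) (-3), eA 9 3 (-3) (-2) (-3) (-3),
  eA 3 10 (-3) (-2) (0) (-2), eA 3 11 (-3) (-1) (-2) (-2), eA 12 3 (-2) (-3) (-1) (-3), eA 3 13 (-2) (-3) (0) (-3),
  eA 14 3 (-3) (-3) (1) (-2), eA 16 3 (-3) (-3) (-1) (-3), eA 3 17 (-2) (-3) (0) (-3), eA 18 3 (-3) (-3) (-1) (-3),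
  eA 3 19 (-2) (-3) (0) (-3), eA 3 20 (-1) (-3) (0) (-3), eA 3 21 (-3) (-2) (-2) (-3), eA 22 3 (-3) (-2) (-3) (-3),
  eA 5 4 (-3) (-1) (0) (-3), eA 6 4 (-3) (-1) (1) (-3), eA 7 4 (-2) (-2) (0) (-3), eA 8 4 (-2) (-2) (-3) (-3),
  eA 9 4 (-3) (-1) (-3) (-3), eA 10 4 (-3) (-1) (2) (-3), eA 11 4 (-3) (-1) (-1) (-3), eA 12 4 (-2) (-2) (-3) (-3),
  eA 4 13 (-2) (-1) (-3) (-3), eA 14 4 (-3) (-1) (-2) (-3), eA 4 15 (-2) (-1) (-3) (-3), eA 16 4 (-1) (-3) (-3) (-3),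
  eA 17 4 (-3) (-1) (3) (-3), eA 18 4 (-2) (-2) (-3) (-3), eA 4 19 (-1) (-2) (-3) (-3), eA 4 20 (-1) (-2) (-3) (-3),
  eA 4 21 (-2) (-1) (-3) (-3), eA 22 4 (-3) (-1) (-3) (-3), eA 23 4 (-3) (-1) (0) (-3), eA 6 5 (-3) (-2) (-1) (-3),
  eA 7 5 (-3) (-3) (0) (-2), eA 8 5 (-2) (-3) (-2) (-3), eA 9 5 (-2) (-3) (-2) (-3), eA 10 5 (-3) (-3) (0) (-2),
  eA 11 5 (-3) (-1) (-1) (-3), eA 5 12 (-1) (-2) (-2) (-3), eA 5 13 (-2) (-3) (-1) (-3), eA 14 5 (-3) (-2) (-1) (-3),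
  eA 15 5 (-1) (-3) (-2) (-2), eA 16 5 (-3) (-3) (-1) (-3), eA 5 17 (-1) (-3) (-2) (-3), eA 18 5 (-3) (-3) (-1) (-3),
  eA 5 19 (-3) (-3) (2) (-1), eA 5 20 (-1) (-3) (-2) (-3), eA 5 21 (-3) (-2) (0) (-3), eA 22 5 (-1) (-3) (-3) (-3),
  eA 23 5 (-3) (-3) (0) (-2), eA 6 7 (-2) (-3) (-3) (-3), eA 8 6 (-3) (-2) (-3) (-2), eA 9 6 (-3) (-3) (-3) (-2),
  eA 6 10 (-3) (-1) (1) (-3), eA 11 6 (-3) (-3) (-3) (-2), eA 6 13 (-2) (-3) (-3) (-3), eA 14 6 (-3) (-1) (-1) (-2),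
  eA 6 15 (-2) (-3) (-3) (-3), eA 16 6 (-3) (-3) (-2) (-3), eA 18 6 (-3) (-3) (-3) (-2), eA 6 19 (-2) (-3) (-3) (-3),
  eA 6 20 (-1) (-3) (-3) (-3), eA 6 21 (-3) (-2) (-1) (-3), eA 6 23 (-3) (-2) (-1) (-3), eA 8 7 (-3) (-3) (-1) (-1),
  eA 7 9 (-1) (-2) (-2) (-3), eA 10 7 (-3) (-2) (1) (-3), eA 11 7 (-2) (-3) (-3) (-3), eA 12 7 (-3) (-3) (-1) (-1),
  eA 7 13 (-2) (-3) (-2) (-3), eA 7 14 (-3) (-3) (0) (-2), eA 16 7 (-3) (-3) (-1) (-3), eA 7 17 (-3) (-2) (2) (-3),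
  eA 18 7 (-3) (-3) (-1) (-3), eA 19 7 (-3) (-3) (-1) (0), eA 7 20 (-1) (-2) (-2) (-3), eA 7 21 (-3) (-2) (2) (-3),
  eA 22 7 (-3) (-3) (-1) (-1), eA 9 8 (-3) (-3) (-3) (-2), eA 8 10 (-3) (-3) (-1) (-1), eA 11 8 (-3) (-3) (-3) (-2),
  eA 8 12 (-3) (-2) (-3) (-2), eA 8 13 (-2) (-3) (-2) (-3), eA 8 14 (-1) (-3) (-1) (-3), eA 8 15 (-2) (-2) (-3) (-3),
  eA 16 8 (-3) (-3) (-2) (-3), eA 8 17 (-1) (-2) (-2) (-3), eA 18 8 (-3) (-3) (-3) (-2), eA 8 19 (-3) (-3) (-1) (-1),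
  eA 8 20 (-1) (-3) (-1) (-3), eA 21 8 (-3) (-1) (-3) (-2), eA 22 8 (-3) (-2) (-3) (-3), eA 8 23 (-3) (-3) (-1) (-1),
  eA 9 10 (-2) (-3) (-2) (-3), eA 9 11 (-3) (-2) (-3) (-3), eA 9 12 (-3) (-3) (-3) (-2), eA 9 13 (-2) (-3) (-2) (-3),
  eA 9 14 (-3) (-1) (-3) (-3), eA 15 9 (-1) (-3) (-2) (-3), eA 9 16 (-3) (-3) (-3) (-2), eA 9 17 (-1) (-3) (-1) (-2),
  eA 18 9 (-3) (-3) (-2) (-3), eA 9 19 (-3) (-3) (-3) (-1), eA 9 20 (-1) (-3) (-1) (-3), eA 9 21 (-3) (-2) (-3) (-3),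
  eA 9 22 (-3) (-3) (-3) (-2), eA 9 23 (-1) (-3) (-1) (-3), eA 11 10 (-1) (-3) (-3) (-3), eA 12 10 (-3) (-3) (-1) (-1),
  eA 10 13 (-2) (-3) (-1) (-3), eA 10 14 (-3) (-3) (0) (-2), eA 15 10 (-1) (-2) (-2) (-3), eA 16 10 (-3) (-3) (-1) (-3),
  eA 10 17 (-3) (-1) (2) (-3), eA 18 10 (-3) (-3) (-1) (-3), eA 19 10 (-3) (-3) (-1) (0), eA 10 20 (-1) (-3) (-2) (-3),
  eA 10 21 (-3) (-2) (1) (-3), eA 22 10 (-3) (-3) (-1) (-1), eA 23 10 (-3) (-2) (0) (-3), eA 11 12 (-3) (-3) (-3) (-2),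
  eA 11 13 (-2) (-3) (-3) (-3), eA 11 14 (-3) (-2) (-2) (-3), eA 11 15 (-2) (-3) (-3) (-3), eA 11 16 (-3) (-3) (-3) (-2),
  eA 11 17 (-3) (2) (2) (-3), eA 18 11 (-3) (-3) (-2) (-3), eA 11 19 (-3) (-3) (-3) (-1), eA 11 20 (-1) (-3) (-3) (-3),
  eA 11 21 (-3) (-2) (-2) (-3), eA 11 22 (-3) (-3) (-3) (-2), eA 11 23 (-3) (-1) (-1) (-3), eA 12 13 (-2) (-3) (-1) (-3),
  eA 12 14 (-2) (-3) (-1) (-3), eA 12 15 (-2) (-2) (-3) (-3), eA 16 12 (-3) (-3) (-2) (-3), eA 18 12 (-3) (-3) (-3) (-2),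
  eA 12 19 (-3) (-3) (-1) (-1), eA 12 20 (-1) (-3) (1) (-3), eA 12 21 (-2) (-2) (-3) (-3), eA 12 23 (-3) (-3) (-1) (-1),
  eA 14 13 (-2) (-3) (0) (-3), eA 13 15 (-1) (-3) (-3) (-2), eA 16 13 (-2) (-3) (-3) (-3), eA 17 13 (-2) (-3) (1) (-3),
  eA 18 13 (-2) (-2) (-3) (-3), eA 13 20 (-1) (-3) (-3) (-2), eA 22 13 (-2) (-3) (-3) (-3), eA 23 13 (-2) (-3) (0) (-3),
  eA 14 15 (-2) (0) (-3) (-3), eA 16 14 (-3) (-3) (-1) (-3), eA 14 17 (-2) (-3) (0) (-3), eA 18 14 (-3) (-3) (-1) (-3),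
  eA 14 19 (-3) (-3) (2) (-1), eA 14 20 (-1) (-3) (0) (-3), eA 14 21 (-3) (-2) (-1) (-3), eA 22 14 (-3) (-1) (-3) (-3),
  eA 23 14 (-3) (-3) (0) (-2), eA 16 15 (-2) (-3) (-3) (-3), eA 15 17 (-1) (-3) (-2) (-3), eA 18 15 (-2) (-2) (-3) (-3),
  eA 19 15 (-2) (-3) (-3) (-2), eA 15 20 (-1) (-3) (-2) (-3), eA 21 15 (-2) (-1) (-3) (-2), eA 22 15 (-2) (-3) (-3) (-3),
  eA 16 17 (-3) (-3) (2) (-3), eA 18 16 (-3) (-3) (-3) (-2), eA 16 19 (-2) (-3) (-3) (-3), eA 16 20 (-1) (-3) (-3) (-3),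
  eA 21 16 (-3) (-1) (-3) (-2), eA 16 22 (-3) (-3) (-2) (-3), eA 16 23 (-3) (-3) (-1) (-3), eA 18 17 (-3) (-3) (2) (-3),
  eA 17 19 (-2) (-3) (1) (-3), eA 17 20 (-1) (-3) (-1) (-3), eA 17 21 (-3) (-2) (3) (-3), eA 23 17 (-2) (-3) (0) (-3),
  eA 18 19 (-3) (-3) (-3) (-1), eA 18 20 (-1) (-1) (-3) (-3), eA 18 21 (-2) (-2) (-3) (-3), eA 18 22 (-3) (-3) (-3) (-2),
  eA 18 23 (-3) (-3) (-1) (-3), eA 19 20 (-1) (-2) (-3) (-2), eA 22 19 (-3) (-3) (-1) (-1), eA 19 23 (-3) (-3) (-1) (0),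
  eA 21 20 (-1) (-1) (-3) (-2), eA 22 20 (-1) (-3) (-3) (-3), eA 23 20 (-1) (-3) (0) (-3), eA 22 21 (-3) (-2) (-3) (-3),
  eA 23 21 (-3) (-2) (0) (-3), eA 22 23 (-3) (-3) (-1) (-1)]

/-- The table of the pairs of classes, second family. -/
def tabB : List (ℕ × ℕ × ℤ × ℤ × ℤ × ℤ) := [
  eA 13 0 (-3) (-3) (-2) (-3), eA 0 19 (-3) (-2) (0) (0), eA 21 0 (-3) (-3) (-2) (-3), eA 3 7 (-3) (-3) (-1) (-2),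
  eA 15 3 (-3) (-2) (-3) (-3), eA 3 23 (-3) (-3) (-1) (-2), eA 12 6 (-3) (-3) (-2) (-2), eA 17 6 (-3) (-2) (0) (-3),
  eA 22 6 (-3) (-3) (-2) (-2), eA 15 7 (-2) (-3) (-2) (-3), eA 23 7 (-3) (-2) (0) (-3), eA 12 17 (-2) (-3) (-2) (-3),
  eA 22 12 (-3) (-2) (-3) (-3), eA 13 19 (-2) (-3) (-3) (-2), eA 13 21 (-3) (-2) (-3) (-3), eA 15 23 (-1) (-3) (-1) (-3),
  eA 22 17 (-1) (-3) (-3) (-3), eA 21 19 (-1) (-3) (-3) (-3)]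

/-- The table of the fixed-point-free elements. -/
def tabF : List (ℤ × ℤ × ℤ × ℤ) := [eF (-3) (-3) (-2) (-3), eF (-2) (-3) (-3) (-3), eF (-3) (-3) (-3) (-2), eF (-3) (-3) (-1) (-3), eF (-3) (-1) (-3) (-3), eF (-3) (-3) (-1) (-3), eF (-3) (-3) (-3) (-2), eF (-3) (-3) (-1) (-3), eF (-3) (-3) (-3) (-2), eF (-3) (-3) (-2) (-3), eF (-3) (-3) (-1) (-3), eF (-3) (-3) (-2) (-3), eF (-3) (-3) (-3) (-2), eF (-2) (-3) (-3) (-3), eF (-3) (-3) (-1) (-3), eF (-2) (-3) (-3) (-3), eF (-3) (-3) (-3) (-2), eF (-3) (-3) (2) (-3), eF (-3) (-2) (-3) (-3), eF (-3) (-3) (-3) (-1), eF (-1) (-3) (-3) (-3), eF (-3) (-2) (-3) (-3), eF (-3) (-3) (-3) (-2), eF (-3) (-3) (-1) (-3)]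

theorem tabF_chk : ∀ l < 24, ∀ r ∈ cl.getD l [], pA (tabF.getD l (0, 0, 0, 0)) r = 1 ∨ pA (tabF.getD l (0, 0, 0, 0)) r = -1 := by
  decide +kernel

theorem tabA_chk : ∀ e ∈ tabA, (∀ r ∈ cl.getD e.1 [], pA e.2.2 r = 0) ∧ (∀ r ∈ cl.getD e.2.1 [], pA e.2.2 r = 1 ∨ pA e.2.2 r = -1) := by
  decide +kernel

theorem tabB_chk : ∀ e ∈ tabB, (∀ r ∈ cl.getD e.1 [], fixedR r) ∧ (∀ r ∈ cl.getD e.2.1 [], fixedR r) ∧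
    (∀ r ∈ cl.getD e.1 [], pB e.2.2 r = 0) ∧ (∀ r ∈ cl.getD e.2.1 [], pB e.2.2 r = 1 ∨ pB e.2.2 r = -1) := by
  decide +kernel

theorem tab_cover : ∀ k < 24, ∀ j < k, (∃ e ∈ tabA, (e.1 = j ∧ e.2.1 = k) ∨ (e.1 = k ∧ e.2.1 = j)) ∨
    (∃ e ∈ tabB, (e.1 = j ∧ e.2.1 = k) ∨ (e.1 = k ∧ e.2.1 = j)) := by
  decide +kernel

theorem cl_len : cl.length = 24 := by decide +kernel

section
variable [Fintype K] {q : ℕ} {φ : K →+* K} {T : Tw (sys (F := K)).toAddRel}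
  (hφ : ∀ t, φ t = t ^ q) (hφ2 : ∀ t, φ (φ t) = t) (hρ : T.ρ = ρ0)
  (hτ : ∀ r t, T.τ r t = ((ε0 r : ℤ) : K) * φ t)
  (I : Inst sys tbl_chevE6 T Js cl (twistedE6 K q))

include hφ hφ2 hρ hτ I in
theorem hfp_of {s : K} (hs0 : s ≠ 0) (hsf : φ s = s) (hs1 : s ≠ 1) :
    ∀ l, l < cl.length → ∃ h ∈ chevE6.diagonalSubgroup K ⊓ twistedE6 K q, FpfS sys h {r | r ∈ cl.getD l []} := by
  intro l hl
  rw [cl_len] at hl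
  exact famA' hφ hφ2 hρ hτ I hs0 hsf hs1 _ l (tabF_chk l hl)

include hφ hφ2 hρ hτ I in
theorem hsep_of {s g : K} (hs0 : s ≠ 0) (hsf : φ s = s) (hs1 : s ≠ 1) (hg0 : g ≠ 0) (hd1 : g * φ g ≠ 1) :
    ∀ j k, j < k → k < cl.length → ∃ h ∈ chevE6.diagonalSubgroup K ⊓ twistedE6 K q,
      (FixS sys h {r | r ∈ cl.getD j []} ∧ FpfS sys h {r | r ∈ cl.getD k []}) ∨
      (FixS sys h {r | r ∈ cl.getD k []} ∧ FpfS sys h {r | r ∈ cl.getD j []}) := by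
  intro j k hjk hk
  rw [cl_len] at hk
  rcases tab_cover k hk j hjk with ⟨e, he, ⟨rfl, rfl⟩ | ⟨rfl, rfl⟩⟩ | ⟨e, he, ⟨rfl, rfl⟩ | ⟨rfl, rfl⟩⟩
  · obtain ⟨a1, a2⟩ := tabA_chk e he
    obtain ⟨h, hh, e1, e2⟩ := famA hφ hφ2 hρ hτ I hs0 hsf hs1 _ _ _ a1 a2
    exact ⟨h, hh, Or.inl ⟨e1, e2⟩⟩
  · obtain ⟨a1, a2⟩ := tabA_chk e he
    obtain ⟨h, hh, e1, e2⟩ := famA hφ hφ2 hρ hτ I hs0 hsf hs1 _ _ _ a1 a2
    exact ⟨h, hh, Or.inr ⟨e1, e2⟩⟩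
  · obtain ⟨a1, a2, a3, a4⟩ := tabB_chk e he
    obtain ⟨h, hh, e1, e2⟩ := famB hφ hφ2 hρ hτ I hg0 rfl hd1 _ _ _ a1 a2 a3 a4
    exact ⟨h, hh, Or.inl ⟨e1, e2⟩⟩
  · obtain ⟨a1, a2, a3, a4⟩ := tabB_chk e he
    obtain ⟨h, hh, e1, e2⟩ := famB hφ hφ2 hρ hτ I hg0 rfl hd1 _ _ _ a1 a2 a3 a4
    exact ⟨h, hh, Or.inr ⟨e1, e2⟩⟩

end

end Cfsg.Agent.Lib.Twisted.E6
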