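import Cfsg.Agent.Lib.Twisted.AutCount
import Cfsg.Agent.Lib.Twisted.Weyl
import Cfsg.Agent.Lib.Twisted.Mult.Core

/-!
# The data for the kernel of a central extension from a family of orbits
-/

set_option autoImplicit false
set_option linter.unusedSectionVars false

namespace Cfsg.Agent.Lib.Twisted.Mult

open Cfsg.Agent.Lib.Twisted
open Cfsg.Agent.Lib.Chevalley
open Cfsg.Lie Cfsg.Agent.Lib.ChevBN.Elem Cfsg.Agent.Lib.ChevBN.Entries Cfsg.Agent.Lib.ChevBN.Table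
open Cfsg.Agent.Lib.ChevBN.Collect Cfsg.Agent.Lib.ChevBN.Rel Cfsg.Agent.Lib.ChevBN.Torus
open Cfsg.Agent.Lib.ChevBN.Monomial Cfsg.Agent.Lib.ChevBN.Core Cfsg.Agent.Lib.ChevBN.Pair
open Cfsg.Agent.Lib.ChevBN.Stmts Cfsg.Agent.Lib.ChevBN.Opp Cfsg.Agent.Lib.ChevBN.Perfect
open Cfsg.Agent.Lib.ChevOrder.Chev Cfsg.Agent.Lib.ChevOrder.BNCount Cfsg.Agent.Lib.ChevOrder.Cox
open Cfsg.Agent.Lib.BNPair.Basic Cfsg.Agent.Lib.BNPair.CoxeterExchange

variable {D : ChevalleyDatum} {F : Type*} [Field F] {η : ℕ → ℕ → ℤ}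

section
variable (hR : Sys D F η) (hT : Tbl D)
include hR hT

/-- Conjugation by `prodA` on a root and its negative. -/
theorem prodA_conj_neg {l : List ℕ} (hl : ∀ i ∈ l, i < D.rank) {r : ℕ} (hr : r < D.nroots) :
    ∃ κ : F, κ ≠ 0 ∧ ∀ t : F,
      prodA hR l * X hR.toAddRel r t * (prodA hR l)⁻¹ = X hR.toAddRel (l.foldr D.reflectRoot r) (κ * t) ∧
      prodA hR l * X hR.toAddRel (D.neg r) t * (prodA hR l)⁻¹ =
        X hR.toAddRel (D.neg (l.foldr D.reflectRoot r)) (κ⁻¹ * t) := by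
  induction l with
  | nil =>
    refine ⟨1, one_ne_zero, fun t => ?_⟩
    simp [prodA]
  | cons a l ih =>
    have hl' : ∀ i ∈ l, i < D.rank := fun i hi => hl i (List.mem_cons_of_mem _ hi)
    obtain ⟨κ, hκ, h2⟩ := ih hl'
    have h1 := (prodA_conj hR hT hl' hr).1
    have hal : a < D.rank := hl a (by simp)
    refine ⟨(η a (l.foldr D.reflectRoot r) : F) * κ, mul_ne_zero (eta_ne hR hal h1) hκ, fun t => ?_⟩
    have e : prodA hR (a :: l) = A hR a * prodA hR l := by simp [prodA]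
    constructor
    · rw [e, List.foldr_cons, mul_assoc _ κ t, ← A_conj_X hR hal h1, ← (h2 t).1]
      group
    · rw [e, List.foldr_cons]
      have h3 := A_conj_X hR hal (hT.neg_lt h1) (κ⁻¹ * t)
      rw [hT.w_neg a hal _ h1, hR.eta_neg a hal _ h1] at h3
      have h4 : ((η a (l.foldr D.reflectRoot r) : F) * κ)⁻¹ * t =
          (η a (l.foldr D.reflectRoot r) : F) * (κ⁻¹ * t) := by
        rw [mul_inv, eta_inv hR hal h1]
        ring
      rw [h4, ← h3, ← (h2 t).2]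
      group

end

theorem conj_list_prod {G α : Type*} [Group G] (W : G) (L : List α) (f : α → G) :
    W * (L.map f).prod * W⁻¹ = (L.map fun a => W * f a * W⁻¹).prod := by
  induction L with
  | nil => simp
  | cons a L ih =>
    simp only [List.map_cons, List.prod_cons]
    rw [← ih]
    group

section Perm

variable {hA : AddRel D F}

theorem xJ_of_perm {J J' : List ℕ} (hO : OrthL hA J) (hn : J.Nodup) (hp : J'.Perm J) (t : ℕ → F) :
    xJ hA J' t = xJ hA J t := by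
  rw [xJ, xJ]
  refine (hp.map _).prod_eq' ?_
  have hn' : J'.Nodup := hp.nodup_iff.2 hn
  refine List.pairwise_map.2 (hn'.imp_of_mem ?_)
  intro a b ha hb hab
  exact ((hO a (hp.subset ha) b (hp.subset hb) hab) _ _).1

theorem yJ_of_perm {J J' : List ℕ} (hO : OrthL hA J) (hn : J.Nodup) (hp : J'.Perm J) (t : ℕ → F) :
    yJ hA J' t = yJ hA J t := by
  rw [yJ, yJ]
  refine (hp.map _).prod_eq' ?_
  have hn' : J'.Nodup := hp.nodup_iff.2 hn
  refine List.pairwise_map.2 (hn'.imp_of_mem ?_)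
  intro a b ha hb hab
  exact ((hO a (hp.subset ha) b (hp.subset hb) hab) _ _).2.2.2

end Perm

/-- The check that a word moves an orbit onto another. -/
def moveB (D : ChevalleyDatum) (A l B : List ℕ) : Bool :=
  A.all (fun i => B.any fun j => l.foldr D.reflectRoot (D.simple i) == D.simple j) &&
    B.all (fun j => A.any fun i => l.foldr D.reflectRoot (D.simple i) == D.simple j)

section
variable (hR : Sys D F η) (hT : Tbl D)
include hR hT

/-- Conjugation of the elements of an orbit by a word moving it to another orbit. -/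
theorem conj_word {A B l : List ℕ} (hlA : ∀ i ∈ A, i < D.rank) (hlB : ∀ i ∈ B, i < D.rank)
    (hl : ∀ i ∈ l, i < D.rank) (hndA : A.Nodup) (hndB : B.Nodup) (hOB : OrthL hR.toAddRel B)
    (hm : moveB D A l B = true) :
    ∃ e : ℕ → F, (∀ j ∈ B, e j ≠ 0) ∧
      prodA hR l * xJ hR.toAddRel A (fun _ => 1) * (prodA hR l)⁻¹ = xJ hR.toAddRel B e ∧
      prodA hR l * yJ hR.toAddRel A (fun _ => -1) * (prodA hR l)⁻¹ = yJ hR.toAddRel B (fun j => -(e j)⁻¹) := by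
  classical
  simp only [moveB, Bool.and_eq_true, List.all_eq_true, List.any_eq_true, beq_iff_eq] at hm
  obtain ⟨hm1, hm2⟩ := hm
  have hκ : ∀ i, ∃ κ : F, i ∈ A → κ ≠ 0 ∧ ∀ t : F,
      prodA hR l * X hR.toAddRel (D.simple i) t * (prodA hR l)⁻¹ =
        X hR.toAddRel (l.foldr D.reflectRoot (D.simple i)) (κ * t) ∧
      prodA hR l * X hR.toAddRel (D.neg (D.simple i)) t * (prodA hR l)⁻¹ =
        X hR.toAddRel (D.neg (l.foldr D.reflectRoot (D.simple i))) (κ⁻¹ * t) := by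
    intro i
    by_cases hi : i ∈ A
    · obtain ⟨κ, h1, h2⟩ := prodA_conj_neg hR hT hl (hT.simple_lt (hlA i hi))
      exact ⟨κ, fun _ => ⟨h1, h2⟩⟩
    · exact ⟨1, fun h => absurd h hi⟩
  choose κ hκ using hκ
  have hπ : ∀ i, ∃ j, i ∈ A → j ∈ B ∧ l.foldr D.reflectRoot (D.simple i) = D.simple j := by
    intro i
    by_cases hi : i ∈ A
    · obtain ⟨j, h1, h2⟩ := hm1 i hi
      exact ⟨j, fun _ => ⟨h1, h2⟩⟩
    · exact ⟨0, fun h => absurd h hi⟩
  choose π hπ using hπ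
  have hπ' : ∀ j, ∃ i, j ∈ B → i ∈ A ∧ l.foldr D.reflectRoot (D.simple i) = D.simple j := by
    intro j
    by_cases hj : j ∈ B
    · obtain ⟨i, h1, h2⟩ := hm2 j hj
      exact ⟨i, fun _ => ⟨h1, h2⟩⟩
    · exact ⟨0, fun h => absurd h hj⟩
  choose π' hπ' using hπ'
  have hfold : ∀ a b : ℕ, a < D.nroots → b < D.nroots → l.foldr D.reflectRoot a = l.foldr D.reflectRoot b → a = b := by
    intro a b ha hb e
    have hn := prodA_mem_N hR hT hl
    have h1 := pn_prodA hR hT hl ⟨a, ha⟩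
    have h2 := pn_prodA hR hT hl ⟨b, hb⟩
    have h3 : pn hR hT hn ⟨a, ha⟩ = pn hR hT hn ⟨b, hb⟩ := Fin.ext (by rw [h1, h2]; exact e)
    exact congrArg Fin.val ((pn hR hT hn).injective h3)
  have h1 : ∀ j ∈ B, π (π' j) = j := by
    intro j hj
    obtain ⟨h2, h3⟩ := hπ' j hj
    obtain ⟨h4, h5⟩ := hπ _ h2
    exact hT.simple_inj _ (hlB _ h4) _ (hlB _ hj) (h5.symm.trans h3)
  have h2 : ∀ i ∈ A, π' (π i) = i := by
    intro i hi
    obtain ⟨h3, h4⟩ := hπ i hi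
    obtain ⟨h5, h6⟩ := hπ' _ h3
    refine hT.simple_inj _ (hlA _ h5) _ (hlA _ hi) (hfold _ _ (hT.simple_lt (hlA _ h5)) (hT.simple_lt (hlA _ hi)) ?_)
    rw [h6, h4]
  have hnd : (A.map π).Nodup := by
    refine List.Nodup.map_on ?_ hndA
    intro a ha b hb e
    rw [← h2 a ha, ← h2 b hb, e]
  have hperm : (A.map π).Perm B := by
    rw [List.perm_ext_iff_of_nodup hnd hndB]
    intro j
    constructor
    · intro hj
      obtain ⟨i, hi, rfl⟩ := List.mem_map.1 hj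
      exact (hπ i hi).1
    · intro hj
      exact List.mem_map.2 ⟨π' j, (hπ' j hj).1, h1 j hj⟩
  refine ⟨fun j => κ (π' j), fun j hj => (hκ _ (hπ' j hj).1).1, ?_, ?_⟩
  · rw [← xJ_of_perm hOB hndB hperm, xJ, xJ, conj_list_prod, List.map_map]
    congr 1
    apply List.map_congr_left
    intro i hi
    simp only [Function.comp]
    rw [((hκ i hi).2 1).1, (hπ i hi).2, h2 i hi, mul_one]
  · rw [← yJ_of_perm hOB hndB hperm, yJ, yJ, conj_list_prod, List.map_map]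
    congr 1
    apply List.map_congr_left
    intro i hi
    simp only [Function.comp]
    rw [((hκ i hi).2 (-1)).2, (hπ i hi).2, h2 i hi]
    congr 1
    ring

end

namespace Inst

variable {hR : Sys D F η} {hT : Tbl D} {T : Tw hR.toAddRel} {Js cl : List (List ℕ)}
  {G1 : Subgroup (GL D.Idx F)} (I : Inst hR hT T Js cl G1) [Finite F]

include I in
/-- The Weyl group as a Coxeter group, with the images of the generators. -/
theorem exists_N_hom' {n : ℕ} (M : CoxeterMatrix (Fin n)) {J : Fin n → List ℕ} (hJ : ∀ i, J i ∈ Js)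
    (hsurj : ∀ J' ∈ Js, ∃ i, J i = J') (hord : ∀ i j : Fin n, ordB D (J i) (J j) (M i j) = true) :
    ∃ φ : ↥(D.monomialSubgroup F ⊓ G1) →* M.Group,
      φ.ker = (D.diagonalSubgroup F ⊓ G1).subgroupOf (D.monomialSubgroup F ⊓ G1) ∧
      ∀ i (hi : prodA hR (J i) ∈ D.monomialSubgroup F ⊓ G1), φ ⟨_, hi⟩ = M.simple i := by
  obtain ⟨P, hB, hN, hS⟩ := I.exists_pair
  have hs := I.setupP J hJ hS hsurj
  have hordW : ∀ i j : Fin n, orderOf (I.fP J hJ hS i * I.fP J hJ hS j) = M i j := fun i j =>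
    I.orderOf_fP J hJ hB hN hS (hord i j)
  obtain ⟨φ₀, hφ₀⟩ := exists_hom hs (g := fun i => M.simple i)
    (fun i => M.toCoxeterSystem.simple_mul_simple_self i) (fun i j => by
      rw [hordW]
      exact M.toCoxeterSystem.simple_mul_simple_pow i j)
  have hlift : M.IsLiftable (I.fP J hJ hS) := fun i j => by
    rw [← hordW]
    exact pow_orderOf_eq_one _
  let ψ : M.Group →* WW P := M.toCoxeterSystem.lift ⟨I.fP J hJ hS, hlift⟩
  have hψ : ∀ i, ψ (M.simple i) = I.fP J hJ hS i := fun i =>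
    M.toCoxeterSystem.lift_apply_simple hlift i
  have h2 : ∀ w, ψ (φ₀ w) = w := by
    intro w
    obtain ⟨l, rfl, -⟩ := hs.ex w
    induction l with
    | nil => simp
    | cons i l ih => rw [pr_cons, map_mul, map_mul, ih, hφ₀, hψ]
  let inc : ↥(D.monomialSubgroup F ⊓ G1) →* P.N :=
    { toFun := fun m => ⟨⟨m.1, m.2.2⟩, (memPN hN _).2 m.2.1⟩
      map_one' := rfl
      map_mul' := fun _ _ => rfl }
  let toW : ↥(D.monomialSubgroup F ⊓ G1) →* WW P := (QuotientGroup.mk' (TT P)).comp inc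
  have hone : ∀ m : ↥(D.monomialSubgroup F ⊓ G1), toW m = 1 ↔ (m : GL D.Idx F) ∈ D.diagonalSubgroup F := by
    intro m
    have h3 : toW m = 1 ↔ inc m ∈ TT P := QuotientGroup.eq_one_iff _
    rw [h3, Subgroup.mem_subgroupOf]
    constructor
    · intro h
      have h4 : (m : GL D.Idx F) ∈ D.borelSubgroup F ⊓ D.monomialSubgroup F :=
        ⟨(memPB hB _).1 h.1, m.2.1⟩
      rwa [B_inf_N hR hT] at h4
    · intro h
      exact ⟨(memPB hB _).2 (H_le_B hR hT h), (inc m).2⟩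
  refine ⟨φ₀.comp toW, ?_, ?_⟩
  · ext m
    rw [MonoidHom.mem_ker, Subgroup.mem_subgroupOf]
    constructor
    · intro h
      have h3 := h2 (toW m)
      have h4 : φ₀ (toW m) = 1 := h
      rw [h4, map_one] at h3
      exact ⟨(hone m).1 h3.symm, m.2.2⟩
    · intro h
      show φ₀ (toW m) = 1
      rw [(hone m).2 h.1, map_one]
  · intro i hi
    show φ₀ (toW _) = _
    have h3 : toW ⟨_, hi⟩ = I.fP J hJ hS i := rfl
    rw [h3, hφ₀]

end Inst

end Cfsg.Agent.Lib.Twisted.Mult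

namespace Cfsg.Agent.Lib.Twisted

open Cfsg.Agent.Lib.Twisted.Mult
open Cfsg.Agent.Lib.Chevalley
open Cfsg.Lie Cfsg.Agent.Lib.ChevBN.Elem Cfsg.Agent.Lib.ChevBN.Entries Cfsg.Agent.Lib.ChevBN.Table
open Cfsg.Agent.Lib.ChevBN.Collect Cfsg.Agent.Lib.ChevBN.Rel Cfsg.Agent.Lib.ChevBN.Torus
open Cfsg.Agent.Lib.ChevBN.Monomial Cfsg.Agent.Lib.ChevBN.Core Cfsg.Agent.Lib.ChevBN.Pair
open Cfsg.Agent.Lib.ChevBN.Stmts Cfsg.Agent.Lib.ChevBN.Opp Cfsg.Agent.Lib.ChevBN.Perfect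
open Cfsg.Agent.Lib.ChevOrder.Chev Cfsg.Agent.Lib.ChevOrder.BNCount Cfsg.Agent.Lib.ChevOrder.Cox
open Cfsg.Agent.Lib.BNPair.Basic Cfsg.Agent.Lib.BNPair.CoxeterExchange

variable {D : ChevalleyDatum} {F : Type*} [Field F] {η : ℕ → ℕ → ℤ}

namespace OrbD

variable {hR : Sys D F η} {hT : Tbl D} {T : Tw hR.toAddRel} {Js cl : List (List ℕ)}
  {G1 : Subgroup (GL D.Idx F)} {I : Inst hR hT T Js cl G1} {J : List ℕ} {L : Type*} [Field L]
  {ε : ℕ → L →+* F} (O : OrbD I J ε)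
  (hc : ∀ i < D.rank, D.cartan i (D.simple i) = 2) (hη : ∀ i < D.rank, η i (D.simple i) = -1)
  [Finite F]

/-- The index of the orbit. -/
abbrev jj : {J : List ℕ // J ∈ Js} := ⟨J, O.hJ⟩

/-- The radical. -/
abbrev Rad : Subgroup (GL D.Idx F) := gen hR.toAddRel (I.fd.Cp O.jj) ⊓ T.Fx

include O in
theorem dec {u : GL D.Idx F} (hu : u ∈ D.posUnipotent F ⊓ T.Fx) :
    ∃ s, ∃ k ∈ O.Rad, u = xL hR.toAddRel J ε s * k := by
  have hdis : ∀ a ∈ I.fd.Ψ O.jj, a ∉ I.fd.Cp O.jj := fun a ha h2 => h2.2 ha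
  have h1 : u ∈ gen hR.toAddRel (I.fd.Ψ O.jj ∪ I.fd.Cp O.jj) := by
    rw [I.fd.union_eq]
    exact hu.1
  obtain ⟨b, hb, c, hc', rfl⟩ := gen_union_factor hR hT (I.fd.Ψ_closed O.jj) (I.fd.Cp_closed O.jj) hdis
    (I.fd.Cp_norm O.jj) h1
  have hbot := gen_inf_eq_bot hR hT (I.fd.Ψ_closed O.jj) (I.fd.Cp_closed O.jj) (I.fd.union_closed O.jj) hdis
    (I.fd.Cp_norm O.jj)
  obtain ⟨h2, h3⟩ := T.fix_split ((I.fd.gen_Ψ_le_U O.jj).trans (Tw.U_le_group hR.toAddRel))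
    ((I.fd.gen_Cp_le_U O.jj).trans (Tw.U_le_group hR.toAddRel))
    (fun a ha => I.fd.s_gen_Ψ O.jj ha) (fun a ha => I.fd.s_gen_Cp O.jj ha) hbot hb hc' hu.2
  have hbG : b ∈ G1 := I.fund J O.hJ ⟨hb, h2⟩
  obtain ⟨s, rfl⟩ := O.surj_x b hbG hb
  exact ⟨s, c, ⟨hc', h3⟩, rfl⟩

include O in
theorem Rad_le_U : O.Rad ≤ D.posUnipotent F ⊓ T.Fx := fun _ h => ⟨I.fd.gen_Cp_le_U O.jj h.1, h.2⟩

include O in
theorem nx (t : L) {k : GL D.Idx F} (hk : k ∈ O.Rad) :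
    xL hR.toAddRel J ε t * k * (xL hR.toAddRel J ε t)⁻¹ ∈ O.Rad := by
  have h1 := I.fix (O.mem_x t)
  exact ⟨I.U_norm_Cp O.jj (O.x_mem_U t) hk.1, Subgroup.mul_mem _ (Subgroup.mul_mem _ h1 hk.2) (Subgroup.inv_mem _ h1)⟩

include O in
theorem conj_inv_Cp {k : GL D.Idx F} (hk : k ∈ gen hR.toAddRel (I.fd.Cp O.jj)) :
    (prodA hR J)⁻¹ * k * prodA hR J ∈ gen hR.toAddRel (I.fd.Cp O.jj) := by
  have hN := I.fd.n_N O.jj
  obtain ⟨R, hU, hH, hNN, hS⟩ := I.fd.exists_core I.fix I.U_le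
  have h1 : I.fd.n O.jj * I.fd.n O.jj ∈ R.H := R.S_sq _ (by rw [hS]; exact ⟨_, rfl⟩)
  rw [hH] at h1
  have hp := pn_H hR hT h1.1
  have hp2 : pn hR hT (H_le_N hR h1.1) = pn hR hT hN * pn hR hT hN := pn_mul hR hT hN hN
  rw [hp2] at hp
  have hinv : (pn hR hT hN)⁻¹ = pn hR hT hN := inv_eq_of_mul_eq_one_left hp
  have := conj_gen hR hT (Subgroup.inv_mem _ hN) (Ψ := I.fd.Cp O.jj) (Ψ' := I.fd.Cp O.jj) (fun r hr => hr.1.1)
    (by
      intro r hr
      rw [pn_inv hR hT hN, hinv]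
      exact I.fd.act_comp O.jj r hr.1 hr.2) hk
  rw [inv_inv] at this
  exact this

include O hc hη in
theorem ny (t : L) {k : GL D.Idx F} (hk : k ∈ O.Rad) :
    yL hR.toAddRel J ε t * k * (yL hR.toAddRel J ε t)⁻¹ ∈ O.Rad := by
  have hn := I.orth.prodA_mem_G1 hR hT I.comm I.hw O.hJ
  have h1 := O.conj_x hc hη (-t)
  rw [neg_neg] at h1
  have h2 := I.fix (O.mem_y hc hη t)
  refine ⟨?_, Subgroup.mul_mem _ (Subgroup.mul_mem _ h2 hk.2) (Subgroup.inv_mem _ h2)⟩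
  rw [← h1]
  have h3 := O.conj_inv_Cp hk.1
  have h4 := I.U_norm_Cp O.jj (O.x_mem_U (-t)) h3
  have h5 := I.fd.conj_Ψ_V
  have h6 : prodA hR J * ((xL hR.toAddRel J ε (-t)) * ((prodA hR J)⁻¹ * k * prodA hR J) * (xL hR.toAddRel J ε (-t))⁻¹) *
      (prodA hR J)⁻¹ ∈ gen hR.toAddRel (I.fd.Cp O.jj) := by
    refine conj_gen hR hT (I.fd.n_N O.jj) (Ψ := I.fd.Cp O.jj) (Ψ' := I.fd.Cp O.jj) (fun r hr => hr.1.1) ?_ h4
    intro r hr
    exact I.fd.act_comp O.jj r hr.1 hr.2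
  have e : prodA hR J * xL hR.toAddRel J ε (-t) * (prodA hR J)⁻¹ * k * (prodA hR J * xL hR.toAddRel J ε (-t) * (prodA hR J)⁻¹)⁻¹ =
      prodA hR J * ((xL hR.toAddRel J ε (-t)) * ((prodA hR J)⁻¹ * k * prodA hR J) * (xL hR.toAddRel J ε (-t))⁻¹) *
      (prodA hR J)⁻¹ := by group
  rw [e]
  exact h6

include O in
theorem w_form {t : L} (ht : t ≠ 0) : ∃ h ∈ D.diagonalSubgroup F,
    SL2Hom.w (xL hR.toAddRel J ε) (yL hR.toAddRel J ε) t = h * prodA hR J := by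
  rw [w_eq_nJ O.hnd O.hO ε ht]
  exact nJ_form hR hT O.hl (fun i _ => by simpa using ht)

include O in
theorem dich_L {n : GL D.Idx F} (hn : n ∈ D.monomialSubgroup F ⊓ G1) (hy : ∀ t, yL hR.toAddRel J ε t ∈ G1) :
    (∀ t, n⁻¹ * xL hR.toAddRel J ε t * n ∈ D.posUnipotent F ⊓ T.Fx) ∨
      (∀ t, n⁻¹ * yL hR.toAddRel J ε t * n ∈ D.posUnipotent F ⊓ T.Fx) := by
  have hn' := Subgroup.inv_mem _ hn.1
  have hnF : n⁻¹ ∈ T.Fx := Subgroup.inv_mem _ (I.fix hn.2)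
  have hU := posUnipotent_eq (D := D) hR.toAddRel
  rcases I.orth.dich_aux hR hT O.hJ n⁻¹ hn' hnF.2 with h | h
  · left
    intro t
    refine ⟨?_, Subgroup.mul_mem _ (Subgroup.mul_mem _ hnF (I.fix (O.mem_x t))) (I.fix hn.2)⟩
    have := conj_gen hR hT hn' (Ψ := psiL D J) (Ψ' := {r | D.IsPosRoot r}) (I.fd.hΨ_lt O.jj) h
      (xJ_mem J (fun i => ε i t))
    rw [← hU, inv_inv] at this
    exact this
  · right
    intro t
    refine ⟨?_, Subgroup.mul_mem _ (Subgroup.mul_mem _ hnF (I.fix (hy t))) (I.fix hn.2)⟩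
    have := conj_gen hR hT hn' (Ψ := psiN D J) (Ψ' := {r | D.IsPosRoot r}) (by
      rintro r ⟨i, hi, rfl⟩
      exact hT.neg_lt (hT.simple_lt (O.hl i hi))) (by
      rintro r ⟨i, hi, e⟩
      have hs := hT.simple_lt (O.hl i hi)
      have e2 : r = negF hT ⟨D.simple i, hs⟩ := Fin.ext e
      rw [e2, pn_neg hR hT hn']
      rcases hT.pos_or_neg (pn hR hT hn' ⟨D.simple i, hs⟩).isLt with h4 | h4
      · exact absurd h4 (h ⟨D.simple i, hs⟩ ⟨i, hi, rfl⟩)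
      · exact hT.pos_of_neg h4) (yJ_mem J (fun i => ε i t))
    rw [← hU, inv_inv] at this
    exact this

end OrbD

namespace OFam

variable {hR : Sys D F η} {hT : Tbl D} {T : Tw hR.toAddRel} {Js cl : List (List ℕ)}
  {G1 : Subgroup (GL D.Idx F)} {I : Inst hR hT T Js cl G1} {n : ℕ} (Fm : OFam I (Fin n))
  (hc : ∀ i < D.rank, D.cartan i (D.simple i) = 2) (hη : ∀ i < D.rank, η i (D.simple i) = -1)
  [Finite F] [∀ a, Fintype ↥(Fm.S a)]

theorem coe_pr_w (l : List (Fin n)) :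
    ((pr (fun a => SL2Hom.w (fun t => (Fm.orb a).xG t) (fun t => (Fm.orb a).yG hc hη t) (1 : ↥(Fm.S a))) l : ↥G1) :
      GL D.Idx F) = prodA hR (l.flatMap Fm.J) := by
  induction l with
  | nil => rfl
  | cons a l ih =>
    rw [pr_cons, Subgroup.coe_mul, ih, List.flatMap_cons]
    have e : prodA hR (Fm.J a ++ l.flatMap Fm.J) = prodA hR (Fm.J a) * prodA hR (l.flatMap Fm.J) := by
      simp [prodA]
    rw [e, ← (Fm.orb a).w_one]
    rfl

/-- The relation of the braids. -/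
theorem braid_aux {k j : Fin n} {l : List (Fin n)}
    (hm : moveB D (Fm.J k) (l.flatMap Fm.J) (Fm.J j) = true) :
    ∃ c : ↥(Fm.S j), c ≠ 0 ∧
      pr (fun a => SL2Hom.w (fun t => (Fm.orb a).xG t) (fun t => (Fm.orb a).yG hc hη t) (1 : ↥(Fm.S a))) l *
        (Fm.orb k).xG 1 *
        (pr (fun a => SL2Hom.w (fun t => (Fm.orb a).xG t) (fun t => (Fm.orb a).yG hc hη t) (1 : ↥(Fm.S a))) l)⁻¹ =
        (Fm.orb j).xG c ∧
      pr (fun a => SL2Hom.w (fun t => (Fm.orb a).xG t) (fun t => (Fm.orb a).yG hc hη t) (1 : ↥(Fm.S a))) l *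
        (Fm.orb k).yG hc hη (-1) *
        (pr (fun a => SL2Hom.w (fun t => (Fm.orb a).xG t) (fun t => (Fm.orb a).yG hc hη t) (1 : ↥(Fm.S a))) l)⁻¹ =
        (Fm.orb j).yG hc hη (-c⁻¹) := by
  have hl : ∀ i ∈ l.flatMap Fm.J, i < D.rank := by
    intro i hi
    obtain ⟨a, -, hia⟩ := List.mem_flatMap.1 hi
    exact (Fm.orb a).hl i hia
  obtain ⟨e, he, h1, h2⟩ := conj_word hR hT (Fm.orb k).hl (Fm.orb j).hl hl (Fm.orb k).hnd (Fm.orb j).hnd
    (Fm.orb j).hO hm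
  set W := pr (fun a => SL2Hom.w (fun t => (Fm.orb a).xG t) (fun t => (Fm.orb a).yG hc hη t) (1 : ↥(Fm.S a))) l with hW
  have hWc : (W : GL D.Idx F) = prodA hR (l.flatMap Fm.J) := Fm.coe_pr_w hc hη l
  have ex : (((Fm.orb k).xG 1 : ↥G1) : GL D.Idx F) = xJ hR.toAddRel (Fm.J k) (fun _ => 1) := by
    show xJ hR.toAddRel (Fm.J k) _ = _
    refine xJ_congr fun i _ => ?_
    simp
  have ey : (((Fm.orb k).yG hc hη (-1) : ↥G1) : GL D.Idx F) = yJ hR.toAddRel (Fm.J k) (fun _ => -1) := by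
    show yJ hR.toAddRel (Fm.J k) _ = _
    refine yJ_congr fun i _ => ?_
    simp
  have hx1 : ((W * (Fm.orb k).xG 1 * W⁻¹ : ↥G1) : GL D.Idx F) = xJ hR.toAddRel (Fm.J j) e := by
    rw [Subgroup.coe_mul, Subgroup.coe_mul, Subgroup.coe_inv, hWc, ex, h1]
  have hy1 : ((W * (Fm.orb k).yG hc hη (-1) * W⁻¹ : ↥G1) : GL D.Idx F) = yJ hR.toAddRel (Fm.J j) (fun i => -(e i)⁻¹) := by
    rw [Subgroup.coe_mul, Subgroup.coe_mul, Subgroup.coe_inv, hWc, ey, h2]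
  have hmem : xJ hR.toAddRel (Fm.J j) e ∈ G1 := by
    rw [← hx1]
    exact (W * (Fm.orb k).xG 1 * W⁻¹ : ↥G1).2
  obtain ⟨c, hce⟩ := (Fm.orb j).surj_x _ hmem (xJ_mem _ _)
  have hcoord : ∀ i ∈ Fm.J j, e i = (Fm.e j i) (c : F) := fun i hi =>
    OrthDat.xJ_coord hR hT I.orth I.comm (Fm.orb j).hJ hce hi
  obtain ⟨i₀, hi₀⟩ := (Fm.orb j).exists_mem
  have hc0 : c ≠ 0 := by
    rintro rfl
    apply he i₀ hi₀
    rw [hcoord i₀ hi₀]
    simp
  refine ⟨c, hc0, Subtype.ext ?_, Subtype.ext ?_⟩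
  · rw [hx1]
    exact hce
  · rw [hy1]
    show _ = yJ hR.toAddRel (Fm.J j) _
    refine yJ_congr fun i hi => ?_
    rw [hcoord i hi]
    simp

/-- The data from a family of orbits. -/
noncomputable def toCore (M : CoxeterMatrix (Fin n)) {p : ℕ} (hpF : (p : F) = 0)
    (hUp : ∀ u ∈ D.posUnipotent F ⊓ T.Fx, PE p u)
    (hord : ∀ i j : Fin n, ordB D (Fm.J i) (Fm.J j) (M i j) = true)
    (hbr : ∀ i j : Fin n, i ≠ j → ∃ k, alt i j (M i j) = alt i j (M i j - 1) ++ [k] ∧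
      moveB D (Fm.J k) ((alt i j (M i j - 1)).flatMap Fm.J) (Fm.J j) = true) :
    CoreD ↥G1 p M (fun a => ↥(Fm.S a)) where
  x a t := (Fm.orb a).xG t
  y a t := (Fm.orb a).yG hc hη t
  rel a := (Fm.orb a).relG hc hη
  hch a := by
    apply Subtype.ext
    simpa using hpF
  U := (D.posUnipotent F ⊓ T.Fx).subgroupOf G1
  hU u hu := by
    obtain ⟨k, hk⟩ := hUp _ (Subgroup.mem_subgroupOf.1 hu)
    exact ⟨k, Subtype.ext (by simpa using hk)⟩
  hxU a t := Subgroup.mem_subgroupOf.2 ⟨(Fm.orb a).x_mem_U t, I.fix ((Fm.orb a).mem_x t)⟩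
  Uc a := ((Fm.orb a).Rad).subgroupOf G1
  Uc_le a u hu := Subgroup.mem_subgroupOf.2 ((Fm.orb a).Rad_le_U (Subgroup.mem_subgroupOf.1 hu))
  dec a u hu := by
    obtain ⟨s, k, hk, e⟩ := (Fm.orb a).dec (Subgroup.mem_subgroupOf.1 hu)
    have hkG : k ∈ G1 := by
      have e2 : k = (xL hR.toAddRel (Fm.J a) (fun i => (Fm.e a i).comp (Fm.S a).subtype) s)⁻¹ * u.1 := by
        rw [e]
        group
      rw [e2]
      exact Subgroup.mul_mem _ (Subgroup.inv_mem _ ((Fm.orb a).mem_x s)) u.2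
    exact ⟨s, ⟨k, hkG⟩, Subgroup.mem_subgroupOf.2 hk, Subtype.ext e⟩
  nx a t k hk := Subgroup.mem_subgroupOf.2 ((Fm.orb a).nx t (Subgroup.mem_subgroupOf.1 hk))
  ny a t k hk := Subgroup.mem_subgroupOf.2 ((Fm.orb a).ny hc hη t (Subgroup.mem_subgroupOf.1 hk))
  gen := by
    rw [eq_top_iff]
    rintro ⟨g, hg⟩ -
    set K := Subgroup.closure ((((D.posUnipotent F ⊓ T.Fx).subgroupOf G1 : Subgroup ↥G1) : Set ↥G1) ∪
      {g | ∃ i t, g = (Fm.orb i).yG hc hη t}) with hK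
    have h1 : Subgroup.closure (⋃ a, Set.range (xL hR.toAddRel (Fm.J a) (fun i => (Fm.e a i).comp (Fm.S a).subtype)) ∪
        Set.range (yL hR.toAddRel (Fm.J a) (fun i => (Fm.e a i).comp (Fm.S a).subtype))) ≤ K.map G1.subtype := by
      rw [Subgroup.closure_le]
      intro z hz
      obtain ⟨a, hz⟩ := Set.mem_iUnion.1 hz
      rcases hz with ⟨t, rfl⟩ | ⟨t, rfl⟩
      · exact ⟨(Fm.orb a).xG t, Subgroup.subset_closure (Or.inl (Subgroup.mem_subgroupOf.2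
          ⟨(Fm.orb a).x_mem_U t, I.fix ((Fm.orb a).mem_x t)⟩)), rfl⟩
      · exact ⟨(Fm.orb a).yG hc hη t, Subgroup.subset_closure (Or.inr ⟨a, t, rfl⟩), rfl⟩
    obtain ⟨g', hg', e⟩ := h1 (Fm.gens g hg)
    have e2 : g' = ⟨g, hg⟩ := Subtype.ext e
    exact e2 ▸ hg'
  N := (D.monomialSubgroup F ⊓ G1).subgroupOf G1
  wN a t ht := by
    obtain ⟨h, hh, e⟩ := (Fm.orb a).w_form ht
    refine Subgroup.mem_subgroupOf.2 ⟨?_, Subtype.prop _⟩
    show SL2Hom.w (xL hR.toAddRel (Fm.J a) (fun i => (Fm.e a i).comp (Fm.S a).subtype))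
      (yL hR.toAddRel (Fm.J a) (fun i => (Fm.e a i).comp (Fm.S a).subtype)) t ∈ _
    rw [e]
    exact Subgroup.mul_mem _ (H_le_N hR hh) (prodA_mem_N hR hT (Fm.orb a).hl)
  UN m hm hu := by
    have h1 := (Subgroup.mem_subgroupOf.1 hm).1
    have h2 := (Subgroup.mem_subgroupOf.1 hu).1
    have h3 : (m : GL D.Idx F) ∈ D.borelSubgroup F ⊓ D.monomialSubgroup F := ⟨U_le_B hR hT h2, h1⟩
    rw [B_inf_N hR hT] at h3
    have h4 : (m : GL D.Idx F) ∈ D.posUnipotent F ⊓ D.diagonalSubgroup F := ⟨h2, h3⟩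
    rw [U_inf_H hR hT, Subgroup.mem_bot] at h4
    exact Subtype.ext h4
  dich m hm a := by
    rcases (Fm.orb a).dich_L (n := m.1) (Subgroup.mem_subgroupOf.1 hm) ((Fm.orb a).mem_y hc hη) with h | h
    · exact Or.inl fun t => Subgroup.mem_subgroupOf.2 (h t)
    · exact Or.inr fun t => Subgroup.mem_subgroupOf.2 (h t)
  π := (Classical.choose (Cfsg.Agent.Lib.Twisted.Mult.Inst.exists_N_hom' I M (J := Fm.J) (fun a => (Fm.orb a).hJ)
      (fun J' hJ' => (Fm.cover J' hJ')) hord)).comp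
    { toFun := fun m => ⟨m.1.1, Subgroup.mem_subgroupOf.1 m.2⟩
      map_one' := rfl
      map_mul' := fun _ _ => rfl }
  hπ a t ht := by
    obtain ⟨h1, h2⟩ := Classical.choose_spec (Cfsg.Agent.Lib.Twisted.Mult.Inst.exists_N_hom' I M (J := Fm.J) (fun a => (Fm.orb a).hJ)
      (fun J' hJ' => (Fm.cover J' hJ')) hord)
    set φ := Classical.choose (Cfsg.Agent.Lib.Twisted.Mult.Inst.exists_N_hom' I M (J := Fm.J) (fun a => (Fm.orb a).hJ)
      (fun J' hJ' => (Fm.cover J' hJ')) hord)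
    obtain ⟨h, hh, e⟩ := (Fm.orb a).w_form ht
    have hnG : prodA hR (Fm.J a) ∈ D.monomialSubgroup F ⊓ G1 :=
      ⟨prodA_mem_N hR hT (Fm.orb a).hl, I.orth.prodA_mem_G1 hR hT I.comm I.hw (Fm.orb a).hJ⟩
    have hw1 : (SL2Hom.w (xL hR.toAddRel (Fm.J a) (fun i => (Fm.e a i).comp (Fm.S a).subtype))
        (yL hR.toAddRel (Fm.J a) (fun i => (Fm.e a i).comp (Fm.S a).subtype)) t) ∈ G1 :=
      (SL2Hom.w (fun t => (Fm.orb a).xG t) (fun t => (Fm.orb a).yG hc hη t) t : ↥G1).2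
    have hhG : h ∈ G1 := by
      have e2 : h = (SL2Hom.w (xL hR.toAddRel (Fm.J a) (fun i => (Fm.e a i).comp (Fm.S a).subtype))
          (yL hR.toAddRel (Fm.J a) (fun i => (Fm.e a i).comp (Fm.S a).subtype)) t) * (prodA hR (Fm.J a))⁻¹ := by
        rw [e]
        group
      rw [e2]
      exact Subgroup.mul_mem _ hw1 (Subgroup.inv_mem _ hnG.2)
    have hhN : h ∈ D.monomialSubgroup F ⊓ G1 := ⟨H_le_N hR hh, hhG⟩
    have h3 : φ ⟨h, hhN⟩ = 1 := by
      rw [← MonoidHom.mem_ker, h1, Subgroup.mem_subgroupOf]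
      exact ⟨hh, hhG⟩
    have h4 := h2 a hnG
    have hw2 : SL2Hom.w (xL hR.toAddRel (Fm.J a) (fun i => (Fm.e a i).comp (Fm.S a).subtype))
        (yL hR.toAddRel (Fm.J a) (fun i => (Fm.e a i).comp (Fm.S a).subtype)) t ∈ D.monomialSubgroup F := by
      rw [e]
      exact Subgroup.mul_mem _ (H_le_N hR hh) (prodA_mem_N hR hT (Fm.orb a).hl)
    have h5 : (⟨SL2Hom.w (xL hR.toAddRel (Fm.J a) (fun i => (Fm.e a i).comp (Fm.S a).subtype))
        (yL hR.toAddRel (Fm.J a) (fun i => (Fm.e a i).comp (Fm.S a).subtype)) t, ⟨hw2, hw1⟩⟩ :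
        ↥(D.monomialSubgroup F ⊓ G1)) = ⟨h, hhN⟩ * ⟨_, hnG⟩ := Subtype.ext e
    refine Eq.trans (congrArg φ h5) ?_
    rw [map_mul, h3, h4, one_mul]
  scale i s hs j := by
    have hh : ((SL2Hom.h (fun t => (Fm.orb i).xG t) (fun t => (Fm.orb i).yG hc hη t) s : ↥G1) : GL D.Idx F) ∈
        D.diagonalSubgroup F := by
      show SL2Hom.h (xL hR.toAddRel (Fm.J i) (fun k => (Fm.e i k).comp (Fm.S i).subtype))
        (yL hR.toAddRel (Fm.J i) (fun k => (Fm.e i k).comp (Fm.S i).subtype)) s ∈ _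
      rw [h_eq_torJ (Fm.orb i).hnd (Fm.orb i).hO _ hs]
      exact torJ_mem_H hR hT (Fm.orb i).hl (fun k _ => by simpa using hs)
    obtain ⟨c, hc'⟩ := (Fm.orb j).scal hc hη hh
    refine ⟨c, c.ne_zero, fun u => ⟨(hc' u).1, ?_⟩⟩
    have := (hc' u).2
    rwa [Units.val_inv_eq_inv_val] at this
  braid i j hij := by
    obtain ⟨k, h1, h2⟩ := hbr i j hij
    obtain ⟨c, hc0, h3, h4⟩ := Fm.braid_aux hc hη h2
    exact ⟨k, c, hc0, h1, h3, h4⟩

end OFam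

end Cfsg.Agent.Lib.Twisted
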