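import Cfsg.Agent.Lib.Twisted.Mult.Lam
import Cfsg.Agent.Lib.Chevalley.SL2Hom
import Cfsg.Agent.Lib.Steinberg.LinearStem

/-!
# The relations of `SL₂` for the lifts of the root elements
-/

set_option autoImplicit false
set_option linter.unusedSectionVars false

namespace Cfsg.Agent.Lib.Twisted.Mult

open Cfsg Cfsg.Agent.Lib.Chevalley Cfsg.Agent.Lib.Steinberg.Cover
open scoped MatrixGroups

section SL2

variable {F : Type*} [Field F]

/-- The diagonal element of `SL₂`. -/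
noncomputable def H2 (t : F) : SL(2, F) := SL2Hom.Wm t * SL2Hom.Wm (-1)

theorem Wm_coe {t : F} (ht : t ≠ 0) : (SL2Hom.Wm t).1 = !![0, t; -t⁻¹, 0] := by
  rw [SL2Hom.Wm, SL2Hom.coe_mul', SL2Hom.coe_mul', SL2Hom.X_coe, SL2Hom.Y_coe]
  ext a b
  fin_cases a <;> fin_cases b <;> simp [Matrix.mul_apply, Fin.sum_univ_two] <;> (try field_simp) <;>
    (try ring) <;> (try simp)

theorem H2_coe {t : F} (ht : t ≠ 0) : (H2 t).1 = !![t, 0; 0, t⁻¹] := by
  rw [H2, SL2Hom.coe_mul', Wm_coe ht, Wm_coe (neg_ne_zero.mpr one_ne_zero)]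
  ext a b
  fin_cases a <;> fin_cases b <;> simp [Matrix.mul_apply, Fin.sum_univ_two]

theorem H2_mul {s t : F} (hs : s ≠ 0) (ht : t ≠ 0) : H2 s * H2 t = H2 (s * t) := by
  apply Subtype.ext
  rw [SL2Hom.coe_mul', H2_coe hs, H2_coe ht, H2_coe (mul_ne_zero hs ht)]
  ext a b
  fin_cases a <;> fin_cases b <;> simp [Matrix.mul_apply, Fin.sum_univ_two, mul_comm]

theorem X_add' (s t : F) : SL2Hom.X s * SL2Hom.X t = SL2Hom.X (s + t) := by
  apply Subtype.ext
  rw [SL2Hom.coe_mul', SL2Hom.X_coe, SL2Hom.X_coe, SL2Hom.X_coe]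
  ext a b
  fin_cases a <;> fin_cases b <;> simp [Matrix.mul_apply, Fin.sum_univ_two, add_comm]

theorem Y_add' (s t : F) : SL2Hom.Y s * SL2Hom.Y t = SL2Hom.Y (s + t) := by
  apply Subtype.ext
  rw [SL2Hom.coe_mul', SL2Hom.Y_coe, SL2Hom.Y_coe, SL2Hom.Y_coe]
  ext a b
  fin_cases a <;> fin_cases b <;> simp [Matrix.mul_apply, Fin.sum_univ_two, add_comm]

/-- `w(t) x(u) w(t)⁻¹ = y(-t⁻²u)`, in the form of a product. -/
theorem Wm_X {t : F} (ht : t ≠ 0) (u : F) :
    SL2Hom.Wm t * SL2Hom.X u = SL2Hom.Y (-(t⁻¹ * t⁻¹ * u)) * SL2Hom.Wm t := by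
  apply Subtype.ext
  rw [SL2Hom.coe_mul', SL2Hom.coe_mul', Wm_coe ht, SL2Hom.X_coe, SL2Hom.Y_coe]
  ext a b
  fin_cases a <;> fin_cases b <;> simp [Matrix.mul_apply, Fin.sum_univ_two] <;> (try field_simp) <;>
    (try ring)

/-- `w(t) y(v) w(t)⁻¹ = x(-t²v)`, in the form of a product. -/
theorem Wm_Y {t : F} (ht : t ≠ 0) (v : F) :
    SL2Hom.Wm t * SL2Hom.Y v = SL2Hom.X (-(t * t * v)) * SL2Hom.Wm t := by
  apply Subtype.ext
  rw [SL2Hom.coe_mul', SL2Hom.coe_mul', Wm_coe ht, SL2Hom.X_coe, SL2Hom.Y_coe]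
  ext a b
  fin_cases a <;> fin_cases b <;> simp [Matrix.mul_apply, Fin.sum_univ_two] <;> (try field_simp) <;>
    (try ring)

/-- `x(s) = y(s⁻¹) w(s) y(s⁻¹)`. -/
theorem X_eq_YWY {s : F} (hs : s ≠ 0) : SL2Hom.X s = SL2Hom.Y s⁻¹ * SL2Hom.Wm s * SL2Hom.Y s⁻¹ := by
  apply Subtype.ext
  rw [SL2Hom.coe_mul', SL2Hom.coe_mul', Wm_coe hs, SL2Hom.X_coe, SL2Hom.Y_coe]
  ext a b
  fin_cases a <;> fin_cases b <;> simp [Matrix.mul_apply, Fin.sum_univ_two] <;> (try field_simp) <;> (try ring)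

/-- `w(a) w(-b) = h(a/b)`. -/
theorem Wm_mul_Wm {a b : F} (ha : a ≠ 0) (hb : b ≠ 0) : SL2Hom.Wm a * SL2Hom.Wm (-b) = H2 (a * b⁻¹) := by
  apply Subtype.ext
  rw [SL2Hom.coe_mul', Wm_coe ha, Wm_coe (neg_ne_zero.mpr hb), H2_coe (mul_ne_zero ha (inv_ne_zero hb))]
  ext i j
  fin_cases i <;> fin_cases j <;> simp [Matrix.mul_apply, Fin.sum_univ_two] <;> (try field_simp)

/-- `H2` conjugates `x`. -/
theorem H2_X {t : F} (ht : t ≠ 0) (u : F) :
    H2 t * SL2Hom.X u = SL2Hom.X (t * t * u) * H2 t := by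
  apply Subtype.ext
  rw [SL2Hom.coe_mul', SL2Hom.coe_mul', H2_coe ht, SL2Hom.X_coe, SL2Hom.X_coe]
  ext a b
  fin_cases a <;> fin_cases b <;> simp [Matrix.mul_apply, Fin.sum_univ_two] <;> (try field_simp)

/-- `H2` conjugates `y`. -/
theorem H2_Y {t : F} (ht : t ≠ 0) (u : F) :
    H2 t * SL2Hom.Y u = SL2Hom.Y ((t * t)⁻¹ * u) * H2 t := by
  apply Subtype.ext
  rw [SL2Hom.coe_mul', SL2Hom.coe_mul', H2_coe ht, SL2Hom.Y_coe, SL2Hom.Y_coe]
  ext a b
  fin_cases a <;> fin_cases b <;> simp [Matrix.mul_apply, Fin.sum_univ_two] <;> (try field_simp)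

end SL2

section Fam

variable {F G : Type*} [Field F] [Group G] {x y : F → G}

theorem fam_pow {f : F → G} (hadd : ∀ a b, f a * f b = f (a + b)) (h0 : f 0 = 1) (t : F) (n : ℕ) :
    f t ^ n = f (n * t) := by
  induction n with
  | zero => simp [h0]
  | succ n ih =>
    rw [pow_succ, ih, hadd]
    congr 1
    push_cast
    ring

theorem fam_PE {p : ℕ} (hch : (p : F) = 0) {f : F → G} (hadd : ∀ a b, f a * f b = f (a + b)) (t : F) :
    PE p (f t) := by
  have h0 : f 0 = 1 := by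
    have := hadd 0 0
    rw [add_zero] at this
    exact mul_eq_left.mp this
  exact ⟨1, by rw [pow_one, fam_pow hadd h0, hch, zero_mul, h0]⟩

/-- The values of an additive family form a subgroup. -/
def famS {f : F → G} (hadd : ∀ a b, f a * f b = f (a + b)) : Subgroup G where
  carrier := Set.range f
  one_mem' := ⟨0, by
    have := hadd 0 0
    rw [add_zero] at this
    exact mul_eq_left.mp this⟩
  mul_mem' := by
    rintro _ _ ⟨a, rfl⟩ ⟨b, rfl⟩
    exact ⟨a + b, (hadd a b).symm⟩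
  inv_mem' := by
    rintro _ ⟨a, rfl⟩
    refine ⟨-a, ?_⟩
    have h0 : f 0 = 1 := by
      have := hadd 0 0
      rw [add_zero] at this
      exact mul_eq_left.mp this
    apply eq_inv_of_mul_eq_one_left
    rw [hadd, neg_add_cancel, h0]

end Fam

section Lift

variable {Γ G : Type*} [Group Γ] [Group G] {σ : Γ →* G} {p m : ℕ} (L : PL σ p m) [Finite Γ] (hp : p.Prime)
  {F : Type*} [Field F] (hch : (p : F) = 0) {x y : F → G}

/-- The lifted family. -/
noncomputable abbrev lf (L : PL σ p m) (f : F → G) (t : F) : Γ := lam L (f t)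

include L hp hch

theorem lf_add {f : F → G} (hadd : ∀ a b, f a * f b = f (a + b)) (a b : F) :
    lf L f a * lf L f b = lf L f (a + b) := by
  have h1 := lam_mul L hp (famS hadd) (by
    rintro _ ⟨t, rfl⟩
    exact fam_PE hch hadd t) (a := f a) (b := f b) ⟨a, rfl⟩ ⟨b, rfl⟩
  rw [hadd] at h1
  exact h1.symm

variable (hR : SL2Hom.Rel x y)
include hR

theorem lf_wσ (t : F) : σ (SL2Hom.w (lf L x) (lf L y) t) = SL2Hom.w x y t := by
  simp only [SL2Hom.w, map_mul, lf, σ_lam L (fam_PE hch hR.addx _), σ_lam L (fam_PE hch hR.addy _)]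

theorem lf_hσ (t : F) : σ (SL2Hom.h (lf L x) (lf L y) t) = SL2Hom.h x y t := by
  simp only [SL2Hom.h, map_mul, lf_wσ L hp hch hR]

theorem lf_winv (t : F) : (SL2Hom.w (lf L x) (lf L y) t)⁻¹ = SL2Hom.w (lf L x) (lf L y) (-t) := by
  have ex : ∀ a, (lf L x a)⁻¹ = lf L x (-a) := by
    intro a
    apply inv_eq_of_mul_eq_one_right
    rw [lf_add L hp hch hR.addx, add_neg_cancel]
    simp only [lf]
    rw [SL2Hom.x_zero hR, lam_one]
  have ey : ∀ a, (lf L y a)⁻¹ = lf L y (-a) := by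
    intro a
    apply inv_eq_of_mul_eq_one_right
    rw [lf_add L hp hch hR.addy, add_neg_cancel]
    simp only [lf]
    rw [SL2Hom.y_zero hR, lam_one]
  rw [SL2Hom.w, SL2Hom.w, mul_inv_rev, mul_inv_rev, ex, ey, inv_neg, neg_neg, mul_assoc]

theorem lf_wconj (u : F) :
    SL2Hom.w (lf L x) (lf L y) (-1) * lf L x u * SL2Hom.w (lf L x) (lf L y) 1 = lf L y (-u) := by
  have e : SL2Hom.w (lf L x) (lf L y) 1 = (SL2Hom.w (lf L x) (lf L y) (-1))⁻¹ := by
    rw [lf_winv L hp hch hR, neg_neg]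
  have e2 : (SL2Hom.w x y (-1))⁻¹ = SL2Hom.w x y 1 := by
    rw [SL2Hom.w_inv hR, neg_neg]
  rw [e, lf, lam_conj L (fam_PE hch hR.addx u), lf_wσ L hp hch hR, e2, hR.wconj]

theorem lf_hconj (s : F) (hs : s ≠ 0) (u : F) :
    SL2Hom.h (lf L x) (lf L y) s * lf L x u * (SL2Hom.h (lf L x) (lf L y) s)⁻¹ = lf L x (s * s * u) := by
  rw [lf, lam_conj L (fam_PE hch hR.addx u), lf_hσ L hp hch hR, hR.hconj s hs]

/-- Two lifts of elements of an additive family commute. -/
theorem comm_of_lifts (hc : ∀ a b, x a * x b = x (a + b)) {a b : Γ} {s t : F} (ha : σ a = x s) (hb : σ b = x t) :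
    a * b = b * a := by
  have hP := fam_PE (F := F) (G := G) hch hc
  have h1 : (lf L x s)⁻¹ * a ∈ Subgroup.center Γ := L.cent (by
    rw [MonoidHom.mem_ker, map_mul, map_inv, lf, σ_lam L (hP s), ha, inv_mul_cancel])
  have h2 : (lf L x t)⁻¹ * b ∈ Subgroup.center Γ := L.cent (by
    rw [MonoidHom.mem_ker, map_mul, map_inv, lf, σ_lam L (hP t), hb, inv_mul_cancel])
  have e1 : a = lf L x s * ((lf L x s)⁻¹ * a) := by group
  have e2 : b = lf L x t * ((lf L x t)⁻¹ * b) := by group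
  generalize (lf L x s)⁻¹ * a = z₁ at h1 e1
  generalize (lf L x t)⁻¹ * b = z₂ at h2 e2
  have h3 : lf L x s * lf L x t = lf L x t * lf L x s := by
    rw [lf_add L hp hch hc, lf_add L hp hch hc, add_comm]
  rw [e1, e2]
  calc lf L x s * z₁ * (lf L x t * z₂) = lf L x s * (z₁ * lf L x t) * z₂ := by group
    _ = lf L x s * (lf L x t * z₁) * z₂ := by rw [(Subgroup.mem_center_iff.mp h1 _).symm]
    _ = (lf L x s * lf L x t) * z₁ * z₂ := by group
    _ = (lf L x t * lf L x s) * z₁ * z₂ := by rw [h3]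
    _ = lf L x t * (lf L x s * z₁) * z₂ := by group
    _ = lf L x t * (z₂ * (lf L x s * z₁)) := by
      rw [mul_assoc, (Subgroup.mem_center_iff.mp h2 _).symm]
    _ = _ := by group

/-- A section of `σ` over `SL₂(F)`, when `SL₂(F)` is perfect. -/
theorem exists_section_sl2 [Fintype F] {u : F} (hu : u ≠ 0) (hu2 : u ^ 2 ≠ 1) :
    ∃ ψ : SL(2, F) →* Γ, ∀ g, σ (ψ g) = SL2Hom.hom hR g := by
  classical
  set φ := SL2Hom.hom hR with hφ
  have hφX : ∀ t, φ (SL2Hom.X t) = x t := fun t => SL2Hom.hom_X hR t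
  let P : Subgroup (Γ × SL(2, F)) :=
    MonoidHom.eqLocus (σ.comp (MonoidHom.fst Γ (SL(2, F)))) (φ.comp (MonoidHom.snd Γ (SL(2, F))))
  let f : P →* SL(2, F) := (MonoidHom.snd Γ (SL(2, F))).comp P.subtype
  have hfs : Function.Surjective f := by
    intro g
    obtain ⟨δ, hδ⟩ := L.surj (φ g)
    exact ⟨⟨(δ, g), hδ⟩, rfl⟩
  have hfc : f.ker ≤ Subgroup.center P := by
    rintro ⟨⟨a, g⟩, hxg⟩ hk
    have hg : g = 1 := hk
    subst hg
    have ha : σ a = φ 1 := hxg
    rw [map_one] at ha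
    have hac : a ∈ Subgroup.center Γ := L.cent ha
    rw [Subgroup.mem_center_iff]
    rintro ⟨⟨b, g⟩, hyg⟩
    apply Subtype.ext
    apply Prod.ext
    · exact Subgroup.mem_center_iff.mp hac b
    · simp
  have hperf : commutator SL(2, F) = ⊤ := Cfsg.Agent.Lib.Steinberg.LinearStem.sl_perfect hu hu2
  have hstem := comm_stem f hfs hfc hperf
  have hU : ∀ α ∈ (Cfsg.Agent.Lib.PSL2.SylowU.U F).comap (f.comp (commutator P).subtype),
      ∀ β ∈ (Cfsg.Agent.Lib.PSL2.SylowU.U F).comap (f.comp (commutator P).subtype),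
      α * β = β * α := by
    rintro ⟨⟨⟨a, g⟩, ha⟩, ha'⟩ ⟨s, hs⟩ ⟨⟨⟨b, g'⟩, hb⟩, hb'⟩ ⟨t, ht⟩
    have hs' : g = SL2Hom.X s := hs
    have ht' : g' = SL2Hom.X t := ht
    subst hs' ht'
    have h1 : σ a = x s := by
      rw [← hφX]
      exact ha
    have h2 : σ b = x t := by
      rw [← hφX]
      exact hb
    apply Subtype.ext
    apply Subtype.ext
    apply Prod.ext
    · exact comm_of_lifts L hp hch hR hR.addx h1 h2
    · show SL2Hom.X s * SL2Hom.X t = SL2Hom.X t * SL2Hom.X s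
      rw [X_add', X_add', add_comm]
  have hker := Cfsg.Agent.Lib.Steinberg.SL2.ker_eq_bot_of_comm_U _ hstem hU
  have hinj : Function.Injective (f.comp (commutator P).subtype) :=
    (MonoidHom.ker_eq_bot_iff _).mp hker
  let e : commutator P ≃* SL(2, F) := MulEquiv.ofBijective _ ⟨hinj, hstem.1⟩
  refine ⟨(MonoidHom.fst Γ (SL(2, F))).comp (P.subtype.comp ((commutator P).subtype.comp e.symm.toMonoidHom)), ?_⟩
  intro g
  have h1 : ((e.symm g : commutator P) : P).1.2 = g := by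
    have := e.apply_symm_apply g
    exact this
  have h2 := ((e.symm g : commutator P) : P).2
  have h3 : σ ((e.symm g : commutator P) : P).1.1 = φ ((e.symm g : commutator P) : P).1.2 := h2
  rw [h1] at h3
  exact h3

theorem hmul_big [Fintype F] {u : F} (hu : u ≠ 0) (hu2 : u ^ 2 ≠ 1) {s t : F} (hs : s ≠ 0) (ht : t ≠ 0) :
    SL2Hom.h (lf L x) (lf L y) s * SL2Hom.h (lf L x) (lf L y) t = SL2Hom.h (lf L x) (lf L y) (s * t) := by
  obtain ⟨ψ, hψ⟩ := exists_section_sl2 L hp hch hR hu hu2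
  have hX : ∀ t, ψ (SL2Hom.X t) = lf L x t := by
    intro t
    symm
    apply lam_eq L (fam_PE hch hR.addx t)
    · rw [hψ, SL2Hom.hom_X]
    · exact (fam_PE hch (f := SL2Hom.X) X_add' t).map ψ
  have hY : ∀ t, ψ (SL2Hom.Y t) = lf L y t := by
    intro t
    symm
    apply lam_eq L (fam_PE hch hR.addy t)
    · rw [hψ, SL2Hom.hom_Y]
    · exact (fam_PE hch (f := SL2Hom.Y) Y_add' t).map ψ
  have hW : ∀ t, ψ (SL2Hom.Wm t) = SL2Hom.w (lf L x) (lf L y) t := by
    intro t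
    simp only [SL2Hom.Wm, map_mul, hX, hY, SL2Hom.w]
  have hH : ∀ t, ψ (H2 t) = SL2Hom.h (lf L x) (lf L y) t := by
    intro t
    rw [H2, map_mul, hW, hW, SL2Hom.h]
  rw [← hH, ← hH, ← hH, ← map_mul, H2_mul hs ht]

theorem hmul_all [Fintype F] {s t : F} (hs : s ≠ 0) (ht : t ≠ 0) :
    SL2Hom.h (lf L x) (lf L y) s * SL2Hom.h (lf L x) (lf L y) t = SL2Hom.h (lf L x) (lf L y) (s * t) := by
  by_cases hu : ∃ u : F, u ≠ 0 ∧ u ^ 2 ≠ 1
  · obtain ⟨u, hu, hu2⟩ := hu
    exact hmul_big L hp hch hR hu hu2 hs ht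
  push Not at hu
  have hall : ∀ u : F, u ≠ 0 → u = 1 ∨ u = -1 := by
    intro u h0
    have h1 := hu u h0
    have h2 : (u - 1) * (u + 1) = 0 := by linear_combination h1
    rcases mul_eq_zero.mp h2 with h3 | h3
    · exact Or.inl (sub_eq_zero.mp h3)
    · exact Or.inr (eq_neg_of_add_eq_zero_left h3)
  have hone : SL2Hom.h (lf L x) (lf L y) (1 : F) = 1 := by
    rw [SL2Hom.h, ← lf_winv L hp hch hR, mul_inv_cancel]
  rcases hall s hs with rfl | rfl
  · rw [hone, one_mul, one_mul]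
  rcases hall t ht with rfl | rfl
  · rw [hone, mul_one, mul_one]
  · rw [neg_mul_neg, mul_one, hone]
    by_cases h2 : (2 : F) = 0
    · have e : (-1 : F) = 1 := by linear_combination (-1 : F) * h2
      rw [e, hone, mul_one]
    · have h4 := hu 2 h2
      have h3 : (3 : F) = 0 := by linear_combination h4
      set a := lf L x (1 : F) with ha
      set b := lf L y (-1 : F) with hb
      set w := SL2Hom.w (lf L x) (lf L y) (1 : F) with hw
      have ha3 : a * a * a = 1 := by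
        rw [ha, lf_add L hp hch hR.addx, lf_add L hp hch hR.addx]
        have : (1 : F) + 1 + 1 = 3 := by norm_num
        rw [this, h3]
        simp only [lf]
        rw [SL2Hom.x_zero hR, lam_one]
      have hb3 : b * b * b = 1 := by
        rw [hb, lf_add L hp hch hR.addy, lf_add L hp hch hR.addy]
        have : (-1 : F) + -1 + -1 = -3 := by norm_num
        rw [this, h3, neg_zero]
        simp only [lf]
        rw [SL2Hom.y_zero hR, lam_one]
      have w1 : w = a * b * a := by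
        rw [hw, ha, hb, SL2Hom.w, inv_one]
      have h1 : (1 : F) ≠ 0 := one_ne_zero
      have hwσ : σ w = SL2Hom.hom hR (SL2Hom.Wm 1) := by
        rw [hw, lf_wσ L hp hch hR]
        simp only [SL2Hom.Wm, map_mul, SL2Hom.hom_X, SL2Hom.hom_Y, SL2Hom.w]
      have h2' : w * a * w⁻¹ = b := by
        rw [ha, lf, lam_conj L (fam_PE hch hR.addx 1), hwσ, hb, lf]
        congr 1
        have := congrArg (SL2Hom.hom hR) (Wm_X h1 (1 : F))
        simp only [map_mul, SL2Hom.hom_X, SL2Hom.hom_Y] at this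
        rw [this]
        simp
      have h3' : w * b * w⁻¹ = a := by
        rw [hb, lf, lam_conj L (fam_PE hch hR.addy (-1)), hwσ, ha, lf]
        congr 1
        have := congrArg (SL2Hom.hom hR) (Wm_Y h1 (-1 : F))
        simp only [map_mul, SL2Hom.hom_X, SL2Hom.hom_Y] at this
        rw [this]
        simp
      have w2 : w = b * a * b := by
        have e : w = w * (a * b * a) * w⁻¹ := by
          rw [← w1]
          group
        have e' : w * (a * b * a) * w⁻¹ = (w * a * w⁻¹) * (w * b * w⁻¹) * (w * a * w⁻¹) := by group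
        rw [e, e', h2', h3']
      have h5 := Cfsg.Agent.Lib.Steinberg.LinearStem.braid_sq ha3 hb3 w1 w2
      have hm : SL2Hom.w (lf L x) (lf L y) (-1 : F) = w⁻¹ := (lf_winv L hp hch hR 1).symm
      rw [SL2Hom.h, hm]
      have : w⁻¹ * w⁻¹ * (w⁻¹ * w⁻¹) = ((w * w) * (w * w))⁻¹ := by group
      rw [this, h5, inv_one]

/-- The relations for the lifted family. -/
theorem rel_lift [Fintype F] : SL2Hom.Rel (lf L x) (lf L y) where
  addx := lf_add L hp hch hR.addx
  addy := lf_add L hp hch hR.addy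
  wconj := lf_wconj L hp hch hR
  hmul := fun _ _ hs ht => hmul_all L hp hch hR hs ht
  hconj := lf_hconj L hp hch hR

end Lift

end Cfsg.Agent.Lib.Twisted.Mult
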